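import Mathlib
import Cfsg.Prelude.Def_OddOrderLocal

/-!
# S1382 (call by helper35, plan of helper93 #8348): statement pieces

S1382: `M = K U M_σ` maximal.  `M` is of Type III or IV iff `K ≠ 1`, `U = 1`, `M_F ≠ M_σ`.

(→) landed S89 pieces.  (←) `W₁ := K`, `W₂ := Ks = M_σ ⊓ C(K)`, `Ut := D`, a `K`-invariant
complement of `M_F` in `M' = M_σ`.  `Ms = sigmaCore M`, `MF = fittingHallOf M`.
The assembly is `Cfsg.Agent.Lib.Helper35.S82Asm.thm_of` (compiled, Mathlib + this file only).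
-/

set_option autoImplicit false

namespace Cfsg.Agent.Lib.Helper35.S82Stmt

universe u

open Cfsg

/-- [FWD] (M) Type III or IV gives `K ≠ 1`, `U = 1`, `M_F ≠ M_σ`.
`K ≠ ⊥`: `Cfsg.Agent.Lib.Helper93.S89KNE34.main` (or Helper65 / Helper20); `U = ⊥`:
`Cfsg.Agent.Lib.Helper20.S89UBOT34.main`.  `M_F ≠ M_σ`: `(Cfsg.Agent.S1365.result ..).1` with
`U = ⊥` gives `⁅M, M⁆ = sigmaCore M`; the type data has `hP.U_compl : IsComplIn MF Ut ⁅M, M⁆` and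
`Ut ≠ ⊥`; if `MF = sigmaCore M = ⁅M, M⁆` then `Ut ≤ ⁅M, M⁆ = MF` and `MF ⊓ Ut = ⊥` give `Ut = ⊥`. -/
def Fwd : Prop :=
  ∀ {G : Type u} [Group G] [Finite G], Cfsg.IsMinSimpleOddOrder G →
  ∀ (M K U : Subgroup G), IsCoatom M → Cfsg.IsSigmaDecomposition M K U →
    (Cfsg.IsOfTypeIII M ∨ Cfsg.IsOfTypeIV M) →
    K ≠ ⊥ ∧ U = ⊥ ∧ Cfsg.fittingHallOf M ≠ Cfsg.sigmaCore M

/-- [COMPLD] (L - 3 SEATS; the proof of `Cfsg.Agent.Lib.Helper53.S56HALLD` with `M_F` in place of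
`O_q`) a `K`-invariant nilpotent complement `D` of `M_F` in `M' = M_σ`, a Hall subgroup of `M_σ`.
In `X := ↥M`: `F := fittingHall ↥M` is a normal Hall subgroup (`Cfsg.Agent.Lib.Helper17.S64FHHALL.main`),
so it has a complement `T₀` (`Subgroup.exists_right_complement'_of_coprime`); `|K|` is prime to
`|M_σ|` (κ ∩ σ = ∅; `Cfsg.Agent.Lib.Helper93.S64GLUEA` cop) and `F ≤ M_σ`
(`Cfsg.Agent.Lib.Helper22.S55FLE.main`), so `|K|` is prime to `|F|` and `K ≤ T` for a conjugate `T` of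
`T₀` (`M` solvable; Hall: `Helper51.EqC2.hall_conj_sub`, `Helper73.NilHallFusion.hall_conj_sub`,
`Helper91.Hall.hall_conj`).  `D := T ⊓ M'` (`M' = ⁅M, M⁆ = sigmaCore M`: `(S1365.result ..).1`,
`U = ⊥`): `D ⊓ F ≤ T ⊓ F = ⊥`; `m = f * t` with `m ∈ M'` gives `t ∈ T ⊓ M'`; `K ≤ T` normalizes
`T ⊓ M'`; `D` embeds in `M' / F`, nilpotent (`Cfsg.Agent.S1355.result`, last clause, = `NilQF` of
`Helper22.S56Stmt`); `|D| = |M' : F|` is prime to `|F| = D.relIndex M_σ`; `D = ⊥` would give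
`M_σ = M' = F`. -/
def ComplD : Prop :=
  ∀ {G : Type u} [Group G] [Finite G], Cfsg.IsMinSimpleOddOrder G →
  ∀ (M K U : Subgroup G), IsCoatom M → Cfsg.IsSigmaDecomposition M K U →
    K ≠ ⊥ → U = ⊥ → Cfsg.fittingHallOf M ≠ Cfsg.sigmaCore M →
    ∃ D : Subgroup G, Group.IsNilpotent D ∧ K ≤ Subgroup.normalizer (D : Set G) ∧
      Cfsg.IsComplIn (Cfsg.fittingHallOf M) D ⁅M, M⁆ ∧ D ≠ ⊥ ∧ D ≤ Cfsg.sigmaCore M ∧
      (Nat.card D).Coprime (D.relIndex (Cfsg.sigmaCore M))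

/-- [NDLE] (M) the normalizer of a nontrivial nilpotent Hall subgroup `D` of `M_σ` lies in `M`.
`p ∣ |D|`, `P` the Sylow `p`-subgroup of `D` (characteristic in `D`, `D` nilpotent), so
`N_G(D) ≤ N_G(P)`; `P` is a Sylow `p`-subgroup of `M_σ` (`D` Hall), hence of `M` (S1350), `p ∈ σ(M)`:
`N_G(P) ≤ M` (`Cfsg.Agent.Lib.Helper47.S89NSIG.main` / `Helper9.BG11b.normalizer_le_of_sigma`). -/
def NDLe : Prop :=
  ∀ {G : Type u} [Group G] [Finite G], Cfsg.IsMinSimpleOddOrder G →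
  ∀ (M : Subgroup G), IsCoatom M → ∀ D : Subgroup G, D ≤ Cfsg.sigmaCore M → D ≠ ⊥ →
    Group.IsNilpotent D → (Nat.card D).Coprime (D.relIndex (Cfsg.sigmaCore M)) →
    Subgroup.normalizer (D : Set G) ≤ M

/-- [W1DATA] (M) `K` is a Hall subgroup of `M` complementing `M'`.  Coprimality: `hKU.hall`
(`|K|` is a κ-number, `K.relIndex M` a κ'-number).  `hKU.compl` with `U = ⊥`: every `m ∈ M` lies
in `K ⊔ sigmaCore M`, `sigmaCore M` is normalized by `M` (`Helper9.BG11b.sigmaCore_normal`), so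
`m = s * k`; `⁅M, M⁆ = sigmaCore M` (`(S1365.result ..).1`, `U = ⊥`); `sigmaCore M ⊓ K = ⊥`
(coprime orders; `Helper93.S64GLUEA` cop). -/
def W1Data : Prop :=
  ∀ {G : Type u} [Group G] [Finite G], Cfsg.IsMinSimpleOddOrder G →
  ∀ (M K U : Subgroup G), IsCoatom M → Cfsg.IsSigmaDecomposition M K U → K ≠ ⊥ → U = ⊥ →
    (Nat.card K).Coprime (K.relIndex M) ∧ Cfsg.IsComplIn ⁅M, M⁆ K M

/-- [PRIMACT] (S; wrapper of `Cfsg.Agent.Lib.Helper55.S66Base.primAct`) prime action of `K`. -/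
def PrimAct : Prop :=
  ∀ {G : Type u} [Group G] [Finite G], Cfsg.IsMinSimpleOddOrder G →
  ∀ (M K U : Subgroup G), IsCoatom M → Cfsg.IsSigmaDecomposition M K U → K ≠ ⊥ →
    ∀ x ∈ K, x ≠ 1 → Cfsg.sigmaCore M ⊓ Subgroup.centralizer ({x} : Set G) =
      Cfsg.sigmaCore M ⊓ Subgroup.centralizer (K : Set G)

/-- [SELFN] (M-L - 2 SEATS) `K`, `Ks = M_σ ⊓ C(K)` form a self-normalizing cyclic subgroup.
`K ≠ ⊥`; `Ks ≠ ⊥`, `Ks` cyclic (`(S1364.result ..)`); `K ⊓ Ks ≤ K ⊓ sigmaCore M = ⊥` and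
`|K|`, `|Ks|` coprime (κ ∩ σ = ∅; `Helper93.S64GLUEA` cop); `Ks ≤ C(K)`; `K ⊔ Ks` is cyclic
(commuting cyclic subgroups of coprime orders: `k * s` has order `|K| * |Ks| = |K ⊔ Ks|`,
`Commute.orderOf_mul_eq_mul_orderOf_of_coprime`, `isCyclic_of_orderOf_eq_card`).  Normalizer:
`Ẑ := ↑(K ⊔ Ks) \ (↑K ∪ ↑Ks)`; `(S1370.result ..)`: `IsTISubset Ẑ`, `normalizer Ẑ = K ⊔ Ks`.  For
`X ⊆ Ẑ` nonempty: `g ∈ normalizer X` moves some `x ∈ X` into `X`, so `Ẑ` meets its `g`-conjugate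
and `g ∈ normalizer Ẑ = K ⊔ Ks` (TI); conversely `K ⊔ Ks` is commutative and `X ⊆ K ⊔ Ks`, so
`K ⊔ Ks` centralizes `X`. -/
def SelfN : Prop :=
  ∀ {G : Type u} [Group G] [Finite G], Cfsg.IsMinSimpleOddOrder G →
  ∀ (M K U : Subgroup G), IsCoatom M → Cfsg.IsSigmaDecomposition M K U → K ≠ ⊥ →
    Cfsg.IsSelfNormalizingCyclic K (Cfsg.sigmaCore M ⊓ Subgroup.centralizer (K : Set G))

/-! ## the landed statements, as Props (supplied by `Cfsg.Agent.SNNNN.result` in the wiring) -/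

/-- `Cfsg.Agent.S1356.result`. -/
def P56 : Prop :=
  ∀ {G : Type u} [Group G] [Finite G] (_ : Cfsg.IsMinSimpleOddOrder G)
    (M : Subgroup G) (_ : IsCoatom M),
    ⁅⁅M, M⁆, ⁅M, M⁆⁆ ≤ Cfsg.fittingOf M ∧
      Cfsg.fittingOf M = (M ⊓ Subgroup.centralizer (Cfsg.fittingHallOf M : Set G)) ⊔ Cfsg.fittingHallOf M ∧
      ((Cfsg.kappa M).Nonempty → Cfsg.fittingOf M ≤ ⁅M, M⁆)

/-- `Cfsg.Agent.S1357.result`. -/
def P57 : Prop :=
  ∀ {G : Type u} [Group G] [Finite G] (_ : Cfsg.IsMinSimpleOddOrder G)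
    (M : Subgroup G) (_ : IsCoatom M) (K U : Subgroup G) (_ : Cfsg.IsSigmaDecomposition M K U)
    (_ : Cfsg.fittingHallOf M ≠ Cfsg.sigmaCore M),
    U = ⊥ ∧ Cfsg.IsTISubset (Cfsg.fittingOf M : Set G) ∧ (Nat.card K).Prime

/-- `Cfsg.Agent.S1364.result`. -/
def P64 : Prop :=
  ∀ {G : Type u} [Group G] [Finite G] (_ : Cfsg.IsMinSimpleOddOrder G)
    (M : Subgroup G) (_ : IsCoatom M) (K U : Subgroup G) (_ : Cfsg.IsSigmaDecomposition M K U)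
    (_ : K ≠ ⊥),
    IsCyclic ↥(Cfsg.sigmaCore M ⊓ Subgroup.centralizer (K : Set G)) ∧ (Cfsg.sigmaCore M ⊓ Subgroup.centralizer (K : Set G)) ≠ ⊥ ∧ (Cfsg.sigmaCore M ⊓ Subgroup.centralizer (K : Set G)) ≤ Cfsg.fittingHallOf M ∧ ¬ IsCyclic (Cfsg.fittingHallOf M)

/-- `Cfsg.Agent.S1365.result`. -/
def P65 : Prop :=
  ∀ {G : Type u} [Group G] [Finite G] (_ : Cfsg.IsMinSimpleOddOrder G)
    (M : Subgroup G) (_ : IsCoatom M) (K U : Subgroup G) (_ : Cfsg.IsSigmaDecomposition M K U)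
    (_ : K ≠ ⊥),
    ⁅M, M⁆ = U ⊔ Cfsg.sigmaCore M ∧ (Cfsg.sigmaCore M ⊓ Subgroup.centralizer (K : Set G)) ≤ ⁅⁅M, M⁆, ⁅M, M⁆⁆

end Cfsg.Agent.Lib.Helper35.S82Stmt
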