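import Mathlib
import Cfsg.Agent.Lib.Helper7.M24Main

/-!
# S5006 (`M24` has one 2-block): statements of the group-theoretic pieces

All statements are about `M24 ≤ Equiv.Perm GolayPt` (the automorphism group of the Golay code,
`Nat.card ↥M24 = 244823040 = 2^10 * 3^3 * 5 * 7 * 11 * 23`, `Helper7.M24Main.card_M24`).
They are abstract: explicit elements enter only through hypotheses, which the data side
(helper35) discharges.
-/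

set_option autoImplicit false

namespace Cfsg.Agent.Lib.Helper35.M24BlkStmt

open Cfsg

/-- [SYL] Elements of prime order `p` with `p² ∤ |M24|` are conjugate to powers of each other. -/
def Syl : Prop :=
  ∀ p : ℕ, p.Prime → ¬ p ^ 2 ∣ 244823040 →
    ∀ r g : Equiv.Perm GolayPt, r ∈ M24 → g ∈ M24 → orderOf r = p → orderOf g = p →
      ∃ h ∈ M24, ∃ k : ℕ, h * g * h⁻¹ = r ^ k

/-- [CONJ11] All elements of order 11 are conjugate. -/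
def Conj11 : Prop :=
  ∀ r n : Equiv.Perm GolayPt, r ∈ M24 → n ∈ M24 → orderOf r = 11 → n * r * n⁻¹ = r ^ 2 →
    ∀ g ∈ M24, orderOf g = 11 → ∃ h ∈ M24, h * g * h⁻¹ = r

/-- [CONJ23] Elements of order 23 are conjugate to `r` or to `r⁻¹`. -/
def Conj23 : Prop :=
  ∀ r n : Equiv.Perm GolayPt, r ∈ M24 → n ∈ M24 → orderOf r = 23 → n * r * n⁻¹ = r ^ 2 →
    ∀ g ∈ M24, orderOf g = 23 → ∃ h ∈ M24, h * g * h⁻¹ = r ∨ h * g * h⁻¹ = r⁻¹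

/-- [CONJ15] Elements of order 15 are conjugate to `r` or to `r ^ 11`. -/
def Conj15 : Prop :=
  ∀ r n : Equiv.Perm GolayPt, r ∈ M24 → n ∈ M24 → orderOf r = 15 →
    n * r ^ 3 * n⁻¹ = (r ^ 3) ^ 2 →
    (∀ b ∈ M24, b * r ^ 3 = r ^ 3 * b → orderOf b = 3 →
      ∃ c ∈ M24, c * r ^ 3 = r ^ 3 * c ∧ (c * b * c⁻¹ = r ^ 5 ∨ c * b * c⁻¹ = (r ^ 5)⁻¹)) →
    ∀ g ∈ M24, orderOf g = 15 → ∃ h ∈ M24, h * g * h⁻¹ = r ∨ h * g * h⁻¹ = r ^ 11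

/-- [CONJ21] Elements of order 21 are conjugate to `r` or to `r⁻¹`. -/
def Conj21 : Prop :=
  ∀ r c : Equiv.Perm GolayPt, r ∈ M24 → c ∈ M24 → orderOf r = 21 → c * r * c⁻¹ = r ^ 2 →
    (∀ b ∈ M24, b * r ^ 3 = r ^ 3 * b → orderOf b = 3 → b = r ^ 7 ∨ b = (r ^ 7)⁻¹) →
    ∀ g ∈ M24, orderOf g = 21 → ∃ h ∈ M24, h * g * h⁻¹ = r ∨ h * g * h⁻¹ = r⁻¹

/-- [EXP3] The Sylow 3-subgroups have exponent 3. -/
def Exp3 : Prop :=
  ∀ P : Subgroup (Equiv.Perm GolayPt), P ≤ M24 → Nat.card P = 27 → (∀ x ∈ P, x ^ 3 = 1) →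
    ∀ g ∈ M24, g ^ 27 = 1 → g ^ 3 = 1

/-- [ORD] The odd element orders of `M24`. -/
def Ord : Prop :=
  ∀ r5 r7 r11 r23 : Equiv.Perm GolayPt, r5 ∈ M24 → r7 ∈ M24 → r11 ∈ M24 → r23 ∈ M24 →
    orderOf r5 = 5 → orderOf r7 = 7 → orderOf r11 = 11 → orderOf r23 = 23 →
    (∀ x ∈ M24, x * r5 = r5 * x → Odd (orderOf x) → orderOf x ∣ 15) →
    (∀ x ∈ M24, x * r7 = r7 * x → Odd (orderOf x) → orderOf x ∣ 21) →
    (∀ x ∈ M24, x * r11 = r11 * x → Odd (orderOf x) → orderOf x ∣ 11) →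
    (∀ x ∈ M24, x * r23 = r23 * x → Odd (orderOf x) → orderOf x ∣ 23) →
    (∀ x ∈ M24, x ^ 27 = 1 → x ^ 3 = 1) →
    ∀ g ∈ M24, Odd (orderOf g) →
      orderOf g = 1 ∨ orderOf g = 3 ∨ orderOf g = 5 ∨ orderOf g = 7 ∨
        orderOf g = 11 ∨ orderOf g = 15 ∨ orderOf g = 21 ∨ orderOf g = 23

/-- [INVC] Elements of order 1, 3, 5, 7 commute with an involution. -/
def InvC : Prop :=
  ∀ (P : Subgroup (Equiv.Perm GolayPt)) (r5 r7 u5 u7 : Equiv.Perm GolayPt),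
    P ≤ M24 → Nat.card P = 27 →
    (∀ x ∈ P, ∃ u ∈ M24, orderOf u = 2 ∧ u * x = x * u) →
    r5 ∈ M24 → r7 ∈ M24 → u5 ∈ M24 → u7 ∈ M24 →
    orderOf r5 = 5 → orderOf r7 = 7 → orderOf u5 = 2 → orderOf u7 = 2 →
    u5 * r5 = r5 * u5 → u7 * r7 = r7 * u7 →
    ∀ g ∈ M24, (orderOf g = 1 ∨ orderOf g = 3 ∨ orderOf g = 5 ∨ orderOf g = 7) →
      ∃ u ∈ M24, orderOf u = 2 ∧ u * g = g * u

/-- The local property of an involution `t` needed for Thompson's `A × B` argument. -/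
def Good (t : Equiv.Perm GolayPt) : Prop :=
  ∃ Q : Subgroup (Equiv.Perm GolayPt), Q ≤ M24 ∧ IsPGroup 2 Q ∧
    (∀ c ∈ M24, c * t = t * c → ∀ q ∈ Q, c * q * c⁻¹ ∈ Q) ∧
    (∀ x ∈ M24, (∀ q ∈ Q, x * q = q * x) → x ∈ Q)

/-- [CENTA] Involutions with a fixed point: `Q` = pointwise stabiliser of the octad of fixed
points. -/
def CentA : Prop :=
  ∀ t : Equiv.Perm GolayPt, t ∈ M24 → t * t = 1 → t ≠ 1 → (∃ p : GolayPt, t p = p) → Good t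

/-- [CENTB] A fixed-point-free involution `t` with an explicit normal 2-subgroup `Q` of its
centraliser and a transversal `T`: the centraliser has order at most
`244823040 / 31878 = 7680 = 120 * 64`. -/
def CentB : Prop :=
  ∀ (t : Equiv.Perm GolayPt) (Q : Subgroup (Equiv.Perm GolayPt))
    (T S : Finset (Equiv.Perm GolayPt)),
    t ∈ M24 → t * t = 1 → t ∈ Q → Q ≤ M24 → Nat.card Q = 64 →
    (∀ q ∈ Q, q * t = t * q) →
    (∀ τ ∈ T, τ ∈ M24 ∧ τ * t = t * τ ∧ ∀ q ∈ Q, τ * q * τ⁻¹ ∈ Q) →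
    T.card = 120 →
    (∀ τ ∈ T, ∀ τ' ∈ T, τ⁻¹ * τ' ∈ Q → τ = τ') →
    (∀ τ ∈ T, ∀ q ∈ Q, (∀ q' ∈ Q, (τ * q) * q' = q' * (τ * q)) → τ * q ∈ Q) →
    S.card = 31878 → (∀ x ∈ S, ∃ h ∈ M24, x = h * t * h⁻¹) →
    Good t

/-- [HINV] The hypothesis of the radical-subgroup theorem, for the group `↥M24`. -/
def HInv : Prop :=
  ∀ tB : Equiv.Perm GolayPt, tB ∈ M24 →
    (∀ u ∈ M24, u * u = 1 → (∀ p : GolayPt, u p ≠ p) → ∃ h ∈ M24, h * u * h⁻¹ = tB) →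
    (∀ t : Equiv.Perm GolayPt, t ∈ M24 → t * t = 1 → t ≠ 1 → (∃ p : GolayPt, t p = p) →
      Good t) →
    Good tB →
    ∀ t : ↥M24, orderOf t = 2 →
      ∃ Q : Subgroup ↥M24, IsPGroup 2 Q ∧
        Subgroup.centralizer ({t} : Set ↥M24) ≤ Subgroup.normalizer (Q : Set ↥M24) ∧
        Subgroup.centralizer (Q : Set ↥M24) ≤ Q

end Cfsg.Agent.Lib.Helper35.M24BlkStmt
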