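import Mathlib
import Cfsg.Agent.Lib.Helper45.EPStmt
import Cfsg.Agent.Lib.Helper44.OEmb
import Cfsg.Agent.Lib.Helper44.Inv8
import Cfsg.Agent.Lib.Helper47.TPTSEX

/-!
# S5988 piece SUBTYPE (call by helper45)

A nondegenerate subspace `U` of the standard plus space contains nondegenerate subspaces of every
even dimension `e < dim U` of plus type, and elliptic ones for `2 ≤ e` (all `q`).

Proof: the standard plus space (resp. the standard minus space with an anisotropic binary form) of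
dimension `e` embeds isometrically into `U` (`Helper44.OEmb.exists_embedding`, all
characteristics); the image is nondegenerate and has the type of its source
(`Helper47.TPTSEX.exists_ts`, resp. `Helper44.Inv8.minus_ts_le`).
-/

set_option autoImplicit false

universe u

namespace Cfsg.Agent.Lib.Helper35.EPSUBTYPE

open QuadraticMap
open Cfsg.Agent.Lib.Helper45.EPStmt
open Cfsg.Agent.Lib.Helper94.OPStmt (P NP FxP NDegP StabP)
open Cfsg.Agent.Lib.Helper44.QSpace Cfsg.Agent.Lib.Helper44.NegPairs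

/-- an anisotropic binary form `z₁² + z₁ z₂ + ζ z₂²` exists over every finite field -/
theorem exists_aniso (F : Type u) [Field F] [Finite F] :
    ∃ ζ : F, ∀ z₁ z₂ : F, z₁ ^ 2 + 1 * z₁ * z₂ + ζ * z₂ ^ 2 = 0 → z₁ = 0 ∧ z₂ = 0 := by
  have hni : ¬ Function.Injective (fun t : F => t ^ 2 + t) := by
    intro h
    have h1 : (0 : F) = -1 := h (by
      show (0 : F) ^ 2 + 0 = (-1) ^ 2 + (-1)
      ring)
    have h2 : (1 : F) = 0 := by linear_combination h1
    exact one_ne_zero h2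
  have hns : ¬ Function.Surjective (fun t : F => t ^ 2 + t) :=
    fun h => hni (Finite.injective_iff_surjective.mpr h)
  obtain ⟨c, hc⟩ := not_forall.mp hns
  refine ⟨-c, ?_⟩
  intro z₁ z₂ h0
  have hz2 : z₂ = 0 := by
    by_contra hz
    apply hc
    refine ⟨z₁ / z₂, ?_⟩
    show (z₁ / z₂) ^ 2 + z₁ / z₂ = c
    field_simp
    linear_combination h0
  subst hz2
  refine ⟨?_, rfl⟩
  have : z₁ ^ 2 = 0 := by linear_combination h0
  exact (pow_eq_zero_iff (by norm_num : (2 : ℕ) ≠ 0)).mp this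

/-- the minus form is nondegenerate in every characteristic -/
theorem sep_minus_all (F : Type u) [Field F] [Fintype F] (m : ℕ) (a b : F)
    (hab : ∀ z₁ z₂ : F, z₁ ^ 2 + a * z₁ * z₂ + b * z₂ ^ 2 = 0 → z₁ = 0 ∧ z₂ = 0) :
    Sep (minusQ m F a b) := by
  by_cases h2 : (2 : F) = 0
  · have : CharP F 2 := CharTwo.of_one_ne_zero_of_two_eq_zero one_ne_zero h2
    exact Cfsg.Agent.Lib.Helper44.Inv6.sep_minusQ_two m a b hab
  · exact sep_minusQ h2 m a b hab

/-- the image of an isometric embedding of a nondegenerate space into `U` -/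
theorem sub_of_iso {F : Type u} [Field F] {d : ℕ} {V₁ : Type u} [AddCommGroup V₁] [Module F V₁]
    (Q₁ : QuadraticForm F V₁) (hS₁ : Sep Q₁) (U : Submodule F (P d → F)) (j : V₁ →ₗ[F] ↥U)
    (hj : ∀ v, res (plusQ d F) U (j v) = Q₁ v) :
    ∃ φ : V₁ →ₗ[F] (P d → F), Function.Injective φ ∧
      (∀ v, Cfsg.quadFormPlus d F (φ v) = Q₁ v) ∧
      LinearMap.range φ ≤ U ∧ NDegP d F (LinearMap.range φ) := by
  obtain ⟨φ, hφdef⟩ : ∃ φ : V₁ →ₗ[F] (P d → F), φ = U.subtype ∘ₗ j := ⟨_, rfl⟩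
  have hφ : ∀ v, Cfsg.quadFormPlus d F (φ v) = Q₁ v := by
    intro v
    rw [hφdef]
    exact hj v
  have hpol : ∀ v y, polar (Cfsg.quadFormPlus d F) (φ v) (φ y) = polar Q₁ v y := by
    intro v y
    unfold polar
    rw [← map_add, hφ, hφ, hφ]
  have hinj : Function.Injective φ := by
    rw [← LinearMap.ker_eq_bot, LinearMap.ker_eq_bot']
    intro v hv
    apply hS₁
    intro y
    rw [← hpol, hv]
    have h0 : Cfsg.quadFormPlus d F 0 = 0 := by
      have := hφ 0
      rwa [map_zero, map_zero] at this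
    unfold polar
    rw [zero_add, h0]
    ring
  refine ⟨φ, hinj, hφ, ?_, ?_⟩
  · rintro _ ⟨v, rfl⟩
    rw [hφdef]
    exact (j v).2
  · rintro _ ⟨v, rfl⟩ hw
    have hv : v ≠ 0 := by
      rintro rfl
      exact hw (map_zero _)
    obtain ⟨y, hy⟩ : ∃ y, polar Q₁ v y ≠ 0 := by
      by_contra hcon
      exact hv (hS₁ v (fun y => by_contra (fun h => hcon ⟨y, h⟩)))
    refine ⟨⟨φ y, ⟨y, rfl⟩, ?_⟩, ⟨φ y, ⟨y, rfl⟩, ?_⟩⟩
    · rw [hpol, polar_comm]
      exact hy
    · rw [hpol]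
      exact hy

theorem main : SubTypeE.{u} := by
  intro F _ _ d e U hU he hlt
  classical
  have hSU : Sep (res (plusQ d F) U) := by
    intro x hx
    by_contra hne
    have hx0 : (x : P d → F) ≠ 0 := fun h => hne (Subtype.ext h)
    obtain ⟨-, ⟨y, hyU, hy⟩⟩ := hU (x : P d → F) x.2 hx0
    exact hy (hx ⟨y, hyU⟩)
  obtain ⟨k, rfl⟩ : ∃ k, e = 2 * k := by
    obtain ⟨k, hk⟩ := he
    exact ⟨k, by omega⟩
  constructor
  · have h1 : Module.finrank F (Fin k ⊕ Fin k → F) = 2 * k := by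
      rw [Module.finrank_fintype_fun_eq_card, Fintype.card_sum, Fintype.card_fin]
      omega
    obtain ⟨j, hj⟩ := Cfsg.Agent.Lib.Helper44.OEmb.exists_embedding k (Fin k ⊕ Fin k → F)
      (plusQ k F) ↥U (res (plusQ d F) U) h1 (by rw [h1]; exact hlt) (sep_plusQ k) hSU
    obtain ⟨φ, hinj, hφ, hle, hnd⟩ := sub_of_iso (plusQ k F) (sep_plusQ k) U j hj
    obtain ⟨T₁, hT₁, hTS⟩ := Cfsg.Agent.Lib.Helper47.TPTSEX.exists_ts (F := F) k k le_rfl
    have hfr : Module.finrank F ↥(LinearMap.range φ) = 2 * k := by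
      rw [LinearMap.finrank_range_of_inj hinj, h1]
    refine ⟨LinearMap.range φ, hle, hfr, hnd, ?_⟩
    unfold PlusP Cfsg.Geo.IsPlusTypeOn
    refine ⟨T₁.map φ, ?_, ?_, ?_⟩
    · rintro _ ⟨t, -, rfl⟩
      exact ⟨t, rfl⟩
    · rintro _ ⟨t, ht, rfl⟩
      show Cfsg.quadFormPlus d F (φ t) = 0
      rw [hφ]
      exact hTS t ht
    · rw [hfr, ← (Submodule.equivMapOfInjective φ hinj T₁).finrank_eq, hT₁]
  · intro he2
    obtain ⟨m, rfl⟩ : ∃ m, k = m + 1 := ⟨k - 1, by omega⟩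
    obtain ⟨ζ, hab⟩ := exists_aniso F
    have hS₁ := sep_minus_all F m 1 ζ hab
    have h1 : Module.finrank F ((Fin m ⊕ Fin m) ⊕ Fin 2 → F) = 2 * (m + 1) := by
      rw [Module.finrank_fintype_fun_eq_card, Fintype.card_sum, Fintype.card_sum, Fintype.card_fin,
        Fintype.card_fin]
      omega
    obtain ⟨j, hj⟩ := Cfsg.Agent.Lib.Helper44.OEmb.exists_embedding (m + 1)
      ((Fin m ⊕ Fin m) ⊕ Fin 2 → F) (minusQ m F 1 ζ) ↥U (res (plusQ d F) U) h1
      (by rw [h1]; exact hlt) hS₁ hSU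
    obtain ⟨φ, hinj, hφ, hle, hnd⟩ := sub_of_iso (minusQ m F 1 ζ) hS₁ U j hj
    have hfr : Module.finrank F ↥(LinearMap.range φ) = 2 * (m + 1) := by
      rw [LinearMap.finrank_range_of_inj hinj, h1]
    refine ⟨LinearMap.range φ, hle, ?_⟩
    unfold MemE
    refine ⟨hfr, hnd, ?_⟩
    rintro ⟨T, hTW, hTS, hTf⟩
    have hW : ∀ w ∈ T.comap φ, minusQ m F 1 ζ w = 0 := by
      intro w hw
      rw [← hφ]
      exact hTS (φ w) hw
    have hle' := Cfsg.Agent.Lib.Helper44.Inv8.minus_ts_le hS₁ hab hW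
    have hmc : (T.comap φ).map φ = T := Submodule.map_comap_eq_of_le hTW
    have hfin : Module.finrank F ↥(T.comap φ) = Module.finrank F ↥T := by
      rw [(Submodule.equivMapOfInjective φ hinj (T.comap φ)).finrank_eq, hmc]
    rw [hfr] at hTf
    omega

end Cfsg.Agent.Lib.Helper35.EPSUBTYPE
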