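import Mathlib
import Cfsg.Agent.Lib.Helper74.DefOneRow1

/-!
# S4503 piece K5: the average of a character over a Sylow subgroup of prime order
-/

set_option autoImplicit false
set_option maxHeartbeats 1000000

namespace Cfsg.Agent.Lib.Helper35.BrK5

open Cfsg
open scoped ComplexConjugate

universe u
variable {G : Type u} [Group G]

open Classical in
/-- [K5] -/
theorem avg_eq_sum_trivOn [Finite G] (p : ℕ) [Fact p.Prime] (P : Sylow p G)
    (hP : Nat.card P = p) [Fintype ↥(Subgroup.centralizer ((P : Subgroup G) : Set G))]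
    [Fintype (IrrCharacter ↥(Subgroup.centralizer ((P : Subgroup G) : Set G)))]
    (Φ : G → ℂ) (hΦ : IsCharacter G Φ) :
    ∑ᶠ u ∈ ((P : Subgroup G) : Set G), Φ u =
      (p : ℂ) * ∑ φ : IrrCharacter ↥(Subgroup.centralizer ((P : Subgroup G) : Set G)),
        if (∀ x : ↥(Subgroup.centralizer ((P : Subgroup G) : Set G)), (x : G) ∈ (P : Subgroup G) →
            (φ : ↥(Subgroup.centralizer ((P : Subgroup G) : Set G)) → ℂ) x =
              (φ : ↥(Subgroup.centralizer ((P : Subgroup G) : Set G)) → ℂ) 1)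
        then classInner (fun c : ↥(Subgroup.centralizer ((P : Subgroup G) : Set G)) => Φ (c : G))
            (φ : ↥(Subgroup.centralizer ((P : Subgroup G) : Set G)) → ℂ) *
          (φ : ↥(Subgroup.centralizer ((P : Subgroup G) : Set G)) → ℂ) 1
        else 0 := by
  letI : Fintype G := Fintype.ofFinite G
  letI : Fintype ↥(P : Subgroup G) := Fintype.ofFinite _
  obtain ⟨π, hπP, hπreg⟩ := Cfsg.Agent.Lib.Helper80.DefOneLoc.exists_proj P hP
  have hcf : IsClassFunction G Φ := Cfsg.Agent.Lib.CT.Wedderburn.char_isClassFunction hΦ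
  have e0 : ∑ᶠ u ∈ ((P : Subgroup G) : Set G), Φ u = ∑ z : ↥(P : Subgroup G), Φ (z : G) := by
    rw [← finsum_set_coe_eq_finsum_mem, ← finsum_eq_sum_of_fintype]
    rfl
  rw [e0]
  have e1 : ∀ z : ↥(P : Subgroup G), Φ (z : G) =
      ∑ ξ : IrrCharacter ↥(Subgroup.centralizer ((P : Subgroup G) : Set G)),
      (if (∀ x : ↥(Subgroup.centralizer ((P : Subgroup G) : Set G)), (x : G) ∈ (P : Subgroup G) →
        (ξ : ↥(Subgroup.centralizer ((P : Subgroup G) : Set G)) → ℂ) x =
          (ξ : ↥(Subgroup.centralizer ((P : Subgroup G) : Set G)) → ℂ) 1)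
      then (p : ℂ) * Cfsg.Agent.Lib.Helper80.DefOneCol.sec P
        (ξ : ↥(Subgroup.centralizer ((P : Subgroup G) : Set G)) → ℂ) Φ (z : G) *
          (ξ : ↥(Subgroup.centralizer ((P : Subgroup G) : Set G)) → ℂ) 1 else 0) := fun z =>
    Cfsg.Agent.Lib.Helper74.DefOneRow1.value_eq_sum P hP π hπP hπreg Φ hcf (z : G) z.2
  rw [Finset.sum_congr rfl (fun z _ => e1 z), Finset.sum_comm, Finset.mul_sum]
  refine Finset.sum_congr rfl fun ξ _ => ?_
  by_cases hker : ∀ x : ↥(Subgroup.centralizer ((P : Subgroup G) : Set G)),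
      (x : G) ∈ (P : Subgroup G) →
        (ξ : ↥(Subgroup.centralizer ((P : Subgroup G) : Set G)) → ℂ) x =
          (ξ : ↥(Subgroup.centralizer ((P : Subgroup G) : Set G)) → ℂ) 1
  · simp only [if_pos hker]
    have e2 : ∑ z : ↥(P : Subgroup G), Cfsg.Agent.Lib.Helper80.DefOneCol.sec P
        (ξ : ↥(Subgroup.centralizer ((P : Subgroup G) : Set G)) → ℂ) Φ (z : G) =
        classInner (fun c : ↥(Subgroup.centralizer ((P : Subgroup G) : Set G)) => Φ (c : G))
            (ξ : ↥(Subgroup.centralizer ((P : Subgroup G) : Set G)) → ℂ) := by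
      unfold Cfsg.Agent.Lib.Helper80.DefOneCol.sec classInner
      rw [← Finset.mul_sum]
      congr 1
      rw [Cfsg.Agent.Lib.Helper80.DefOneLoc.sum_decomp P hP π hπP hπreg
        (fun c => Φ (c : G) * conj ((ξ : ↥(Subgroup.centralizer ((P : Subgroup G) : Set G)) → ℂ) c))]
      refine Finset.sum_congr rfl fun z _ => ?_
      refine Finset.sum_congr rfl fun r _ => ?_
      by_cases hr : p ∣ orderOf r
      · simp [hr]
      · simp only [if_neg hr]
        have e5 : (ξ : ↥(Subgroup.centralizer ((P : Subgroup G) : Set G)) → ℂ)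
              (Cfsg.Agent.Lib.Helper80.DefOneLoc.inc P hP z * r) =
            (ξ : ↥(Subgroup.centralizer ((P : Subgroup G) : Set G)) → ℂ) r :=
          Cfsg.Agent.Lib.CT.Kernel.apply_mul_of_eq
            (Cfsg.Agent.Lib.Helper3.Irr.IsIrrCharacter.isCharacter ξ.2)
            (hker (Cfsg.Agent.Lib.Helper80.DefOneLoc.inc P hP z) z.2) r
        rw [e5]
        rfl
    rw [← e2, Finset.sum_mul, Finset.mul_sum]
    refine Finset.sum_congr rfl fun z _ => ?_
    ring
  · simp only [if_neg hker]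
    simp

end Cfsg.Agent.Lib.Helper35.BrK5
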