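import Mathlib
import Cfsg.Agent.Lib.Helper35.EPSUBTYPE

/-!
# SUBTYPE for an arbitrary ambient quadratic form (for S5990 / S5974 / S5988 twins)

`subtype_gen`: for ANY quadratic form `Q₀` on `ι → F` (`F` finite, every characteristic) and any
subspace `U` on which the polar form of `Q₀` is nondegenerate, `U` contains nondegenerate subspaces
of every even dimension `e < dim U` of plus type, and NOT of plus type (elliptic) for `2 ≤ e`.
Stated with the Prelude predicates `Cfsg.Geo.IsNondegenerateOn (polar ⇑Q₀)`, `Cfsg.Geo.IsPlusTypeOn ⇑Q₀`,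
so that `NDegP / PlusP / MemE` (plus form, `Q₀ = Helper44.NegPairs.plusQ d F`) and
`NDegM / PlusM` (minus form, `Q₀ = Helper44.NegPairs.minusQ (d - 1) F a b`) unfold to it.
-/

set_option autoImplicit false

universe u

namespace Cfsg.Agent.Lib.Helper35.SubTypeGen

open QuadraticMap
open Cfsg.Agent.Lib.Helper44.QSpace Cfsg.Agent.Lib.Helper44.NegPairs
open Cfsg.Agent.Lib.Helper35.EPSUBTYPE (exists_aniso sep_minus_all)

/-- the image of an isometric embedding of a nondegenerate space into `U` -/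
theorem sub_of_iso_gen {F : Type u} [Field F] {ι : Type} (Q₀ : QuadraticForm F (ι → F))
    {V₁ : Type u} [AddCommGroup V₁] [Module F V₁]
    (Q₁ : QuadraticForm F V₁) (hS₁ : Sep Q₁) (U : Submodule F (ι → F)) (j : V₁ →ₗ[F] ↥U)
    (hj : ∀ v, res Q₀ U (j v) = Q₁ v) :
    ∃ φ : V₁ →ₗ[F] (ι → F), Function.Injective φ ∧
      (∀ v, Q₀ (φ v) = Q₁ v) ∧
      LinearMap.range φ ≤ U ∧ Cfsg.Geo.IsNondegenerateOn (polar ⇑Q₀) (LinearMap.range φ) := by
  obtain ⟨φ, hφdef⟩ : ∃ φ : V₁ →ₗ[F] (ι → F), φ = U.subtype ∘ₗ j := ⟨_, rfl⟩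
  have hφ : ∀ v, Q₀ (φ v) = Q₁ v := by
    intro v
    rw [hφdef]
    exact hj v
  have hpol : ∀ v y, polar (⇑Q₀) (φ v) (φ y) = polar Q₁ v y := by
    intro v y
    unfold polar
    rw [← map_add, hφ, hφ, hφ]
  have hinj : Function.Injective φ := by
    rw [← LinearMap.ker_eq_bot, LinearMap.ker_eq_bot']
    intro v hv
    apply hS₁
    intro y
    rw [← hpol, hv]
    unfold polar
    rw [zero_add, map_zero]
    ring
  refine ⟨φ, hinj, hφ, ?_, ?_⟩
  · rintro _ ⟨v, rfl⟩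
    rw [hφdef]
    exact (j v).2
  · rintro _ ⟨v, rfl⟩ hw
    have hv : v ≠ 0 := by
      rintro rfl
      exact hw (map_zero _)
    obtain ⟨y, hy⟩ : ∃ y, polar Q₁ v y ≠ 0 := by
      by_contra hcon
      exact hv (hS₁ v (fun y => by_contra (fun h => hcon ⟨y, h⟩)))
    refine ⟨⟨φ y, ⟨y, rfl⟩, ?_⟩, ⟨φ y, ⟨y, rfl⟩, ?_⟩⟩
    · rw [hpol, polar_comm]
      exact hy
    · rw [hpol]
      exact hy

/-- SUBTYPE for an arbitrary ambient quadratic form, all characteristics. -/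
theorem subtype_gen {F : Type u} [Field F] [Fintype F] {ι : Type} [Finite ι]
    (Q₀ : QuadraticForm F (ι → F)) (e : ℕ) (U : Submodule F (ι → F))
    (hU : Cfsg.Geo.IsNondegenerateOn (polar ⇑Q₀) U) (he : Even e)
    (hlt : e < Module.finrank F ↥U) :
    (∃ W : Submodule F (ι → F), W ≤ U ∧ Module.finrank F ↥W = e ∧
      Cfsg.Geo.IsNondegenerateOn (polar ⇑Q₀) W ∧ Cfsg.Geo.IsPlusTypeOn ⇑Q₀ W) ∧
    (2 ≤ e → ∃ W : Submodule F (ι → F), W ≤ U ∧ Module.finrank F ↥W = e ∧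
      Cfsg.Geo.IsNondegenerateOn (polar ⇑Q₀) W ∧ ¬ Cfsg.Geo.IsPlusTypeOn ⇑Q₀ W) := by
  classical
  have hSU : Sep (res Q₀ U) := by
    intro x hx
    by_contra hne
    have hx0 : (x : ι → F) ≠ 0 := fun h => hne (Subtype.ext h)
    obtain ⟨-, ⟨y, hyU, hy⟩⟩ := hU (x : ι → F) x.2 hx0
    exact hy (hx ⟨y, hyU⟩)
  obtain ⟨k, rfl⟩ : ∃ k, e = 2 * k := by
    obtain ⟨k, hk⟩ := he
    exact ⟨k, by omega⟩
  constructor
  · have h1 : Module.finrank F (Fin k ⊕ Fin k → F) = 2 * k := by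
      rw [Module.finrank_fintype_fun_eq_card, Fintype.card_sum, Fintype.card_fin]
      omega
    obtain ⟨j, hj⟩ := Cfsg.Agent.Lib.Helper44.OEmb.exists_embedding k (Fin k ⊕ Fin k → F)
      (plusQ k F) ↥U (res Q₀ U) h1 (by rw [h1]; exact hlt) (sep_plusQ k) hSU
    obtain ⟨φ, hinj, hφ, hle, hnd⟩ := sub_of_iso_gen Q₀ (plusQ k F) (sep_plusQ k) U j hj
    obtain ⟨T₁, hT₁, hTS⟩ := Cfsg.Agent.Lib.Helper47.TPTSEX.exists_ts (F := F) k k le_rfl
    have hfr : Module.finrank F ↥(LinearMap.range φ) = 2 * k := by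
      rw [LinearMap.finrank_range_of_inj hinj, h1]
    refine ⟨LinearMap.range φ, hle, hfr, hnd, ?_⟩
    unfold Cfsg.Geo.IsPlusTypeOn
    refine ⟨T₁.map φ, ?_, ?_, ?_⟩
    · rintro _ ⟨t, -, rfl⟩
      exact ⟨t, rfl⟩
    · rintro _ ⟨t, ht, rfl⟩
      show Q₀ (φ t) = 0
      rw [hφ]
      exact hTS t ht
    · rw [hfr, ← (Submodule.equivMapOfInjective φ hinj T₁).finrank_eq, hT₁]
  · intro he2
    obtain ⟨m, rfl⟩ : ∃ m, k = m + 1 := ⟨k - 1, by omega⟩
    obtain ⟨ζ, hab⟩ := exists_aniso F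
    have hS₁ := sep_minus_all F m 1 ζ hab
    have h1 : Module.finrank F ((Fin m ⊕ Fin m) ⊕ Fin 2 → F) = 2 * (m + 1) := by
      rw [Module.finrank_fintype_fun_eq_card, Fintype.card_sum, Fintype.card_sum, Fintype.card_fin,
        Fintype.card_fin]
      omega
    obtain ⟨j, hj⟩ := Cfsg.Agent.Lib.Helper44.OEmb.exists_embedding (m + 1)
      ((Fin m ⊕ Fin m) ⊕ Fin 2 → F) (minusQ m F 1 ζ) ↥U (res Q₀ U) h1
      (by rw [h1]; exact hlt) hS₁ hSU
    obtain ⟨φ, hinj, hφ, hle, hnd⟩ := sub_of_iso_gen Q₀ (minusQ m F 1 ζ) hS₁ U j hj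
    have hfr : Module.finrank F ↥(LinearMap.range φ) = 2 * (m + 1) := by
      rw [LinearMap.finrank_range_of_inj hinj, h1]
    refine ⟨LinearMap.range φ, hle, hfr, hnd, ?_⟩
    rintro ⟨T, hTW, hTS, hTf⟩
    have hW : ∀ w ∈ T.comap φ, minusQ m F 1 ζ w = 0 := by
      intro w hw
      rw [← hφ]
      exact hTS (φ w) hw
    have hle' := Cfsg.Agent.Lib.Helper44.Inv8.minus_ts_le hS₁ hab hW
    have hmc : (T.comap φ).map φ = T := Submodule.map_comap_eq_of_le hTW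
    have hfin : Module.finrank F ↥(T.comap φ) = Module.finrank F ↥T := by
      rw [(Submodule.equivMapOfInjective φ hinj (T.comap φ)).finrank_eq, hmc]
    rw [hfr] at hTf
    omega

end Cfsg.Agent.Lib.Helper35.SubTypeGen
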