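import Mathlib
import Cfsg.Agent.Lib.Helper41.EMStmt
import Cfsg.Agent.Lib.Helper35.SubTypeGen

/-!
# S5990 piece SUBTYPE (call by helper41)

Minus-form port of the S5988 piece: a nondegenerate subspace `U` of the standard minus space
contains nondegenerate subspaces of every even dimension `e < dim U` of plus type, and elliptic ones
for `2 ≤ e` (all `q`).  One-line wrapper of the form-free `Helper35.SubTypeGen.subtype_gen`.
-/

set_option autoImplicit false

universe u

namespace Cfsg.Agent.Lib.Helper35.EMSUBTYPE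

open Cfsg.Agent.Lib.Helper41.EMStmt
open Cfsg.Agent.Lib.Helper45.OMiStmt (M Aniso FxM NDegM StabM)
open Cfsg.Agent.Lib.Helper41.TMTwoStmt (PlusM)

theorem main : SubTypeE.{u} := by
  intro F _ _ a₀ b₀ _ d e U hU he hlt
  obtain ⟨h1, h2⟩ := Cfsg.Agent.Lib.Helper35.SubTypeGen.subtype_gen
    (Cfsg.Agent.Lib.Helper44.NegPairs.minusQ (d - 1) F a₀ b₀) e U hU he hlt
  refine ⟨h1, fun he2 => ?_⟩
  obtain ⟨W, hWU, hfr, hnd, hnp⟩ := h2 he2
  exact ⟨W, hWU, hfr, hnd, hnp⟩

end Cfsg.Agent.Lib.Helper35.EMSUBTYPE
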