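-- The fibre product of two central extensions of a group `G`: the pairs `(x, y)` with the same
-- image. It is a central extension of `G` whose kernel is the product of the two kernels.
import Mathlib

set_option autoImplicit false

namespace Cfsg.Agent.Lib.Helper35.FibProd

open Subgroup
open scoped commutatorElement

variable {G X₁ X₂ : Type*} [Group G] [Group X₁] [Group X₂] (ξ₁ : X₁ →* G) (ξ₂ : X₂ →* G)

/-- The pairs with the same image. -/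
def Y : Subgroup (X₁ × X₂) where
  carrier := {p | ξ₁ p.1 = ξ₂ p.2}
  one_mem' := by
    show ξ₁ 1 = ξ₂ 1
    rw [map_one, map_one]
  mul_mem' := by
    intro a b ha hb
    have ha' : ξ₁ a.1 = ξ₂ a.2 := ha
    have hb' : ξ₁ b.1 = ξ₂ b.2 := hb
    show ξ₁ (a.1 * b.1) = ξ₂ (a.2 * b.2)
    rw [map_mul, map_mul, ha', hb']
  inv_mem' := by
    intro a ha
    have ha' : ξ₁ a.1 = ξ₂ a.2 := ha
    show ξ₁ a.1⁻¹ = ξ₂ a.2⁻¹
    rw [map_inv, map_inv, ha']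

theorem mem_Y {p : X₁ × X₂} : p ∈ Y ξ₁ ξ₂ ↔ ξ₁ p.1 = ξ₂ p.2 := Iff.rfl

/-- The projection onto `G`. -/
def η : ↥(Y ξ₁ ξ₂) →* G := ξ₁.comp ((MonoidHom.fst X₁ X₂).comp (Y ξ₁ ξ₂).subtype)

theorem η_apply (p : ↥(Y ξ₁ ξ₂)) : η ξ₁ ξ₂ p = ξ₁ p.1.1 := rfl

theorem η_surjective (h₁ : Function.Surjective ξ₁) (h₂ : Function.Surjective ξ₂) :
    Function.Surjective (η ξ₁ ξ₂) := by
  intro g
  obtain ⟨x, hx⟩ := h₁ g
  obtain ⟨y, hy⟩ := h₂ g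
  exact ⟨⟨(x, y), (mem_Y ξ₁ ξ₂).mpr (by rw [hx, hy])⟩, hx⟩

theorem mem_ker_iff (p : ↥(Y ξ₁ ξ₂)) :
    p ∈ (η ξ₁ ξ₂).ker ↔ p.1.1 ∈ ξ₁.ker ∧ p.1.2 ∈ ξ₂.ker := by
  rw [MonoidHom.mem_ker, MonoidHom.mem_ker, MonoidHom.mem_ker, η_apply]
  constructor
  · intro h
    exact ⟨h, by rw [← (mem_Y ξ₁ ξ₂).mp p.2, h]⟩
  · exact fun h => h.1

theorem ker_le_center (hc₁ : ξ₁.ker ≤ center X₁) (hc₂ : ξ₂.ker ≤ center X₂) :
    (η ξ₁ ξ₂).ker ≤ center ↥(Y ξ₁ ξ₂) := by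
  intro p hp
  obtain ⟨h1, h2⟩ := (mem_ker_iff ξ₁ ξ₂ p).mp hp
  rw [Subgroup.mem_center_iff]
  intro q
  apply Subtype.ext
  apply Prod.ext
  · exact Subgroup.mem_center_iff.mp (hc₁ h1) q.1.1
  · exact Subgroup.mem_center_iff.mp (hc₂ h2) q.1.2

/-- A pair of lifts as an element of the fibre product. -/
def mk (x : X₁) (y : X₂) (h : ξ₁ x = ξ₂ y) : ↥(Y ξ₁ ξ₂) := ⟨(x, y), h⟩

/-- The commutator of two pairs of lifts of commuting elements: it lies in the commutator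
subgroup and in the kernel, and its components are the commutators of the lifts. -/
theorem comm_mk (x x' : X₁) (y y' : X₂) (h : ξ₁ x = ξ₂ y) (h' : ξ₁ x' = ξ₂ y')
    (hcomm : ξ₁ x * ξ₁ x' = ξ₁ x' * ξ₁ x) :
    ⁅mk ξ₁ ξ₂ x y h, mk ξ₁ ξ₂ x' y' h'⁆ ∈
      _root_.commutator ↥(Y ξ₁ ξ₂) ⊓ (η ξ₁ ξ₂).ker ∧
    ((⁅mk ξ₁ ξ₂ x y h, mk ξ₁ ξ₂ x' y' h'⁆ : ↥(Y ξ₁ ξ₂)) : X₁ × X₂) =
      (⁅x, x'⁆, ⁅y, y'⁆) := by
  refine ⟨⟨?_, ?_⟩, rfl⟩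
  · rw [commutator_def]
    exact Subgroup.commutator_mem_commutator (Subgroup.mem_top _) (Subgroup.mem_top _)
  · show ⁅mk ξ₁ ξ₂ x y h, mk ξ₁ ξ₂ x' y' h'⁆ ∈ (η ξ₁ ξ₂).ker
    rw [MonoidHom.mem_ker, map_commutatorElement, commutatorElement_eq_one_iff_commute]
    exact hcomm

end Cfsg.Agent.Lib.Helper35.FibProd
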