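-- Central extensions of a finite group `G` acting on a labelled set, from combinatorial data:
-- pairs `(g, P)` with `g ∈ G` and `P` a permutation of `m * NB` points lying over the action of
-- `g` on `NB` blocks (given by masks of subsets of the labels), commuting with the rotation of
-- the blocks and preserving a graph in which every point has at most one neighbour in each
-- block.  The data are checked by evaluating boolean functions on tables packed into natural
-- numbers at the leaves of a binary search tree.  Words in the generators are lifted, and the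
-- commutator of the lifts of two commuting words is read off from the images of one point.
import Mathlib

set_option autoImplicit false

namespace Cfsg.Agent.Lib.Helper35.GCover

open scoped commutatorElement

/-! ### Packed tables and bounded quantifiers -/

/-- The field of `r` at bit offset `off` selected by the mask `msk`. -/
def fld (r off msk : ℕ) : ℕ := Nat.land (Nat.shiftRight r off) msk

/-- Shift of the point `y` by `i` inside its block of size `m`. -/
def shft (m y i : ℕ) : ℕ := Nat.add (Nat.mul m (Nat.div y m)) (Nat.mod (Nat.add y i) m)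

/-- Binary search trees with natural numbers at the leaves. -/
inductive BTree where
  | leaf (n : ℕ) : BTree
  | node (c : ℕ) (l r : BTree) : BTree

/-- The leaf at position `k`: the left subtree holds the positions below `c`. -/
noncomputable def BTree.get (t : BTree) (k : ℕ) : ℕ :=
  BTree.rec (motive := fun _ => ℕ) (fun n => n)
    (fun c _ _ ihl ihr => cond (Nat.blt k c) ihl ihr) t

/-- The boolean function `p` is true below `N`. -/
def allLt (N : ℕ) (p : ℕ → Bool) : Bool := (List.range N).all p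

theorem allLt_spec {N : ℕ} {p : ℕ → Bool} (h : allLt N p = true) {x : ℕ} (hx : x < N) :
    p x = true :=
  List.all_eq_true.mp h x (List.mem_range.mpr hx)

/-- A function increasing at each step is strictly increasing. -/
theorem strict_of_step (f : ℕ → ℕ) (n : ℕ) (h : ∀ k, k + 1 < n → f k < f (k + 1)) :
    ∀ k l, k < l → l < n → f k < f l := by
  intro k l
  induction l with
  | zero => intro hkl; omega
  | succ l ih =>
    intro hkl hl
    rcases Nat.lt_or_ge k l with h1 | h1
    · exact lt_trans (ih h1 (by omega)) (h l hl)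
    · have : k = l := by omega
      rw [this]; exact h l hl

theorem iter_lt {N : ℕ} {f : ℕ → ℕ} (h0 : ∀ x < N, f x < N) (k : ℕ) :
    ∀ x < N, f^[k] x < N := by
  induction k with
  | zero => intro x hx; exact hx
  | succ k ih => intro x hx; rw [Function.iterate_succ_apply']; exact h0 _ (ih x hx)

/-- A permutation of `Fin N` from a function of finite order. -/
def mkP {N : ℕ} (f : ℕ → ℕ) (k : ℕ) (h0 : ∀ x < N, f x < N) (h1 : ∀ x < N, f^[k + 1] x = x) :
    Equiv.Perm (Fin N) where
  toFun x := ⟨f x, h0 x x.2⟩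
  invFun x := ⟨f^[k] x, iter_lt h0 k x x.2⟩
  left_inv x := Fin.ext (by
    show f^[k] (f x) = x
    have h := h1 x x.2
    rw [Function.iterate_succ_apply] at h
    exact h)
  right_inv x := Fin.ext (by
    show f (f^[k] x) = x
    have h := h1 x x.2
    rw [Function.iterate_succ_apply'] at h
    exact h)

theorem pow_val {N : ℕ} (P : Equiv.Perm (Fin N)) (f : ℕ → ℕ) (hP : ∀ x, (P x).val = f x.val)
    (n : ℕ) : ∀ x : Fin N, ((P ^ n) x).val = f^[n] x.val := by
  induction n with
  | zero => intro x; rfl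
  | succ n ih =>
    intro x
    rw [pow_succ, Equiv.Perm.mul_apply, ih, hP, Function.iterate_succ_apply]

/-! ### Labelled actions -/

/-- A labelling of the points of a `G`-set by the numbers below `n0`, and `ng` elements of `G`
acting on the labels by the tables `t`. -/
structure Frame (G : Type*) (Ω : Type*) [Group G] [MulAction G Ω] where
  /-- Number of points. -/
  n0 : ℕ
  /-- Number of generators. -/
  ng : ℕ
  /-- The point with a given label. -/
  lbl : ℕ → Ω
  /-- The generators. -/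
  gen : ℕ → G
  /-- The action of the generators on the labels. -/
  t : ℕ → ℕ → ℕ
  surj : ∀ ω : Ω, ∃ i, i < n0 ∧ lbl i = ω
  inj : ∀ i j, i < n0 → j < n0 → lbl i = lbl j → i = j
  tlt : ∀ c i, c < ng → i < n0 → t c i < n0
  act : ∀ c i, c < ng → i < n0 → gen c • lbl i = lbl (t c i)

/-- The action of a word on the labels. -/
def wT (t : ℕ → ℕ → ℕ) : List ℕ → ℕ → ℕ
  | [], i => i
  | c :: w, i => t c (wT t w i)

/-- The letters of a word are below `ng`. -/
def okW (ng : ℕ) (w : List ℕ) : Bool := w.all (fun c => Nat.blt c ng)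

theorem okW_cons {ng : ℕ} {c : ℕ} {w : List ℕ} (h : okW ng (c :: w) = true) :
    c < ng ∧ okW ng w = true := by
  unfold okW at h ⊢
  rw [List.all_cons, Bool.and_eq_true] at h
  exact ⟨Nat.le_of_ble_eq_true h.1, h.2⟩

section FrameTheory

variable {G : Type*} {Ω : Type*} [Group G] [MulAction G Ω] (F : Frame G Ω)

/-- The element of `G` given by a word. -/
def wG : List ℕ → G
  | [] => 1
  | c :: w => F.gen c * wG w

theorem wG_append (w w' : List ℕ) : wG F (w ++ w') = wG F w * wG F w' := by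
  induction w with
  | nil => exact (one_mul _).symm
  | cons c w ih =>
    show F.gen c * wG F (w ++ w') = F.gen c * wG F w * wG F w'
    rw [ih, mul_assoc]

theorem wG_act (w : List ℕ) (hw : okW F.ng w = true) (i : ℕ) (hi : i < F.n0) :
    wT F.t w i < F.n0 ∧ wG F w • F.lbl i = F.lbl (wT F.t w i) := by
  induction w with
  | nil => exact ⟨hi, one_smul _ _⟩
  | cons c w ih =>
    obtain ⟨hc, hw'⟩ := okW_cons hw
    obtain ⟨h1, h2⟩ := ih hw'
    refine ⟨F.tlt c _ hc h1, ?_⟩
    show (F.gen c * wG F w) • F.lbl i = F.lbl (F.t c (wT F.t w i))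
    rw [mul_smul, h2, F.act c _ hc h1]

/-- Two words with the same action on the labels give the same element. -/
theorem wG_eq [FaithfulSMul G Ω] (w w' : List ℕ) (hw : okW F.ng w = true)
    (hw' : okW F.ng w' = true)
    (h : allLt F.n0 (fun i => Nat.beq (wT F.t w i) (wT F.t w' i)) = true) :
    wG F w = wG F w' := by
  apply FaithfulSMul.eq_of_smul_eq_smul (α := Ω)
  intro ω
  obtain ⟨i, hi, rfl⟩ := F.surj ω
  rw [(wG_act F w hw i hi).2, (wG_act F w' hw' i hi).2,
    Nat.eq_of_beq_eq_true (allLt_spec h hi)]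

end FrameTheory

/-! ### The data -/

/-- The combinatorial data of a cover. -/
structure Data where
  /-- Size of the blocks (order of the centre). -/
  m : ℕ
  /-- Number of blocks. -/
  NB : ℕ
  /-- Valency of the graph. -/
  v : ℕ
  /-- The lift of the generator `c` has order dividing `ko c + 1`. -/
  ko : ℕ → ℕ
  /-- Lifts of the generators. -/
  f : ℕ → ℕ → ℕ
  /-- Masks of the blocks. -/
  maskB : ℕ → ℕ
  /-- Neighbours of a point. -/
  nb : ℕ → ℕ → ℕ
  /-- Positions of the images of the neighbours under the lifts. -/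
  w : ℕ → ℕ → ℕ → ℕ
  /-- Parents in a spanning tree rooted at `0`. -/
  par : ℕ → ℕ
  /-- Position of a point among the neighbours of its parent. -/
  parj : ℕ → ℕ
  /-- Depths in the spanning tree. -/
  dep : ℕ → ℕ

namespace Data

variable (d : Data)

/-- Number of points. -/
def N : ℕ := d.m * d.NB

/-- The rotation of the blocks. -/
def zf (x : ℕ) : ℕ := shft d.m x 1

/-- Mask of the block of a point. -/
def mask (x : ℕ) : ℕ := d.maskB (x / d.m)

/-- Adjacency in the graph. -/
def adj (x y : ℕ) : Prop := ∃ j, j < d.v ∧ d.nb x j = y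

end Data

/-- The action of the lift of a word on the points. -/
def wF (d : Data) : List ℕ → ℕ → ℕ
  | [], x => x
  | c :: w, x => d.f c (wF d w x)

/-- The checked properties of the data. -/
structure Good (d : Data) (ng n0 : ℕ) (t : ℕ → ℕ → ℕ) : Prop where
  mpos : 0 < d.m
  NBpos : 0 < d.NB
  zlt : allLt d.N (fun x => Nat.blt (d.zf x) d.N) = true
  zpow : allLt d.N (fun x => Nat.beq (d.zf^[d.m] x) x) = true
  zzero : allLt d.m (fun i => Nat.beq (d.zf^[i] 0) i) = true
  zmask : allLt d.N (fun x => Nat.beq (d.mask (d.zf x)) (d.mask x)) = true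
  znb : allLt d.N (fun x => allLt d.v (fun j =>
    Nat.beq (d.zf (d.nb x j)) (d.nb (d.zf x) j))) = true
  flt : allLt ng (fun c => allLt d.N (fun x => Nat.blt (d.f c x) d.N)) = true
  fpow : allLt ng (fun c => allLt d.N (fun x => Nat.beq ((d.f c)^[d.ko c + 1] x) x)) = true
  fz : allLt ng (fun c => allLt d.N (fun x =>
    Nat.beq (d.f c (d.zf x)) (d.zf (d.f c x)))) = true
  fmask : allLt ng (fun c => allLt d.N (fun x => allLt n0 (fun i =>
    (d.mask (d.f c x)).testBit (t c i) == (d.mask x).testBit i))) = true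
  fnb : allLt ng (fun c => allLt d.N (fun x => allLt d.v (fun j =>
    Nat.blt (d.w c x j) d.v && Nat.beq (d.f c (d.nb x j)) (d.nb (d.f c x) (d.w c x j))))) = true
  masklt : allLt d.NB (fun k => Nat.blt (d.maskB k) (2 ^ n0)) = true
  masksorted : allLt (d.NB - 1) (fun k => Nat.blt (d.maskB k) (d.maskB (k + 1))) = true
  nbsorted : allLt d.N (fun x => allLt (d.v - 1) (fun j =>
    Nat.blt (d.nb x j / d.m) (d.nb x (j + 1) / d.m))) = true
  tree : allLt d.N (fun x => Nat.beq x 0 || (Nat.blt (d.par x) d.N && Nat.blt (d.parj x) d.v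
    && Nat.beq (d.nb (d.par x) (d.parj x)) x && Nat.blt (d.dep (d.par x)) (d.dep x))) = true

section Theory

variable {G : Type*} {Ω : Type*} [Group G] [MulAction G Ω] (F : Frame G Ω)
  (d : Data) (hd : Good d F.ng F.n0 F.t)
include hd

theorem Npos : 0 < d.N := Nat.mul_pos hd.mpos hd.NBpos

theorem zlt {x : ℕ} (hx : x < d.N) : d.zf x < d.N := Nat.le_of_ble_eq_true (allLt_spec hd.zlt hx)

theorem zpow {x : ℕ} (hx : x < d.N) : d.zf^[d.m] x = x :=
  Nat.eq_of_beq_eq_true (allLt_spec hd.zpow hx)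

theorem zzero {i : ℕ} (hi : i < d.m) : d.zf^[i] 0 = i :=
  Nat.eq_of_beq_eq_true (allLt_spec hd.zzero hi)

theorem zmask {x : ℕ} (hx : x < d.N) : d.mask (d.zf x) = d.mask x :=
  Nat.eq_of_beq_eq_true (allLt_spec hd.zmask hx)

theorem znb {x : ℕ} (hx : x < d.N) {j : ℕ} (hj : j < d.v) : d.zf (d.nb x j) = d.nb (d.zf x) j :=
  Nat.eq_of_beq_eq_true (allLt_spec (allLt_spec hd.znb hx) hj)

theorem flt {c : ℕ} (hc : c < F.ng) {x : ℕ} (hx : x < d.N) : d.f c x < d.N :=
  Nat.le_of_ble_eq_true (allLt_spec (allLt_spec hd.flt hc) hx)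

theorem fpow {c : ℕ} (hc : c < F.ng) {x : ℕ} (hx : x < d.N) : (d.f c)^[d.ko c + 1] x = x :=
  Nat.eq_of_beq_eq_true (allLt_spec (allLt_spec hd.fpow hc) hx)

theorem fz {c : ℕ} (hc : c < F.ng) {x : ℕ} (hx : x < d.N) : d.f c (d.zf x) = d.zf (d.f c x) :=
  Nat.eq_of_beq_eq_true (allLt_spec (allLt_spec hd.fz hc) hx)

theorem fmask {c : ℕ} (hc : c < F.ng) {x : ℕ} (hx : x < d.N) {i : ℕ} (hi : i < F.n0) :
    (d.mask (d.f c x)).testBit (F.t c i) = (d.mask x).testBit i :=
  eq_of_beq (allLt_spec (allLt_spec (allLt_spec hd.fmask hc) hx) hi)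

theorem fnb {c : ℕ} (hc : c < F.ng) {x : ℕ} (hx : x < d.N) {j : ℕ} (hj : j < d.v) :
    d.w c x j < d.v ∧ d.f c (d.nb x j) = d.nb (d.f c x) (d.w c x j) := by
  have h := allLt_spec (allLt_spec (allLt_spec hd.fnb hc) hx) hj
  simp only [Bool.and_eq_true] at h
  exact ⟨Nat.le_of_ble_eq_true h.1, Nat.eq_of_beq_eq_true h.2⟩

omit hd in
theorem div_lt {x : ℕ} (hx : x < d.N) : x / d.m < d.NB := Nat.div_lt_of_lt_mul hx

theorem masklt {x : ℕ} (hx : x < d.N) : d.mask x < 2 ^ F.n0 :=
  Nat.le_of_ble_eq_true (allLt_spec hd.masklt (div_lt d hx))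

theorem maskinj {x y : ℕ} (hx : x < d.N) (hy : y < d.N) (h : d.mask x = d.mask y) :
    x / d.m = y / d.m := by
  have hstep : ∀ k, k + 1 < d.NB → d.maskB k < d.maskB (k + 1) := fun k hk =>
    Nat.le_of_ble_eq_true (allLt_spec hd.masksorted (by omega))
  have hmono := strict_of_step d.maskB d.NB hstep
  rcases Nat.lt_trichotomy (x / d.m) (y / d.m) with h1 | h1 | h1
  · exact absurd h (ne_of_lt (hmono _ _ h1 (div_lt d hy)))
  · exact h1
  · exact absurd h (ne_of_gt (hmono _ _ h1 (div_lt d hx)))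

theorem nb_lt {x : ℕ} (hx : x < d.N) :
    ∀ j l, j < l → l < d.v → d.nb x j / d.m < d.nb x l / d.m := by
  apply strict_of_step (fun j => d.nb x j / d.m) d.v
  intro k hk
  exact Nat.le_of_ble_eq_true (allLt_spec (allLt_spec hd.nbsorted hx) (by omega))

theorem tree {x : ℕ} (hx : x < d.N) : x = 0 ∨ (d.par x < d.N ∧ d.parj x < d.v ∧
    d.nb (d.par x) (d.parj x) = x ∧ d.dep (d.par x) < d.dep x) := by
  have h := allLt_spec hd.tree hx
  simp only [Bool.or_eq_true, Bool.and_eq_true] at h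
  rcases h with h | ⟨⟨⟨h1, h2⟩, h3⟩, h4⟩
  · exact Or.inl (Nat.eq_of_beq_eq_true h)
  · exact Or.inr ⟨Nat.le_of_ble_eq_true h1, Nat.le_of_ble_eq_true h2, Nat.eq_of_beq_eq_true h3,
      Nat.le_of_ble_eq_true h4⟩

/-! ### The permutations -/

/-- The rotation of the blocks as a permutation. -/
def z0 : Equiv.Perm (Fin d.N) :=
  mkP d.zf (d.m - 1) (fun _ hx => zlt F d hd hx) (fun x hx => by
    rw [Nat.sub_add_cancel hd.mpos]; exact zpow F d hd hx)

/-- The lift of the generator `c` as a permutation. -/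
def Pf (c : ℕ) (hc : c < F.ng) : Equiv.Perm (Fin d.N) :=
  mkP (d.f c) (d.ko c) (fun _ hx => flt F d hd hc hx) (fun _ hx => fpow F d hd hc hx)

theorem z0_pow_val (i : ℕ) (x : Fin d.N) : ((z0 F d hd ^ i) x).val = d.zf^[i] x.val :=
  pow_val _ _ (fun _ => rfl) i x

/-- Membership condition of the cover. -/
structure Mem (g : G) (P : Equiv.Perm (Fin d.N)) : Prop where
  comm : ∀ x, P (z0 F d hd x) = z0 F d hd (P x)
  blk : ∀ (x : Fin d.N) (i j : ℕ), i < F.n0 → j < F.n0 → g • F.lbl i = F.lbl j →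
    (d.mask (P x).val).testBit j = (d.mask x.val).testBit i
  adj : ∀ x y : Fin d.N, d.adj x.val y.val → d.adj (P x).val (P y).val

theorem mem_one : Mem F d hd 1 1 := by
  refine ⟨fun _ => rfl, fun x i j hi hj h => ?_, fun _ _ h => h⟩
  rw [one_smul] at h
  rw [F.inj i j hi hj h]
  rfl

theorem mem_mul {g h : G} {P Q : Equiv.Perm (Fin d.N)} (h1 : Mem F d hd g P)
    (h2 : Mem F d hd h Q) : Mem F d hd (g * h) (P * Q) := by
  refine ⟨fun x => ?_, fun x i j hi hj hij => ?_, fun x y hxy => ?_⟩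
  · rw [Equiv.Perm.mul_apply, Equiv.Perm.mul_apply, h2.comm, h1.comm]
  · obtain ⟨k, hk, hkl⟩ := F.surj (h • F.lbl i)
    rw [mul_smul, ← hkl] at hij
    rw [Equiv.Perm.mul_apply, h1.blk (Q x) k j hk hj hij, h2.blk x i k hi hk hkl.symm]
  · rw [Equiv.Perm.mul_apply, Equiv.Perm.mul_apply]
    exact h1.adj _ _ (h2.adj _ _ hxy)

theorem mem_z : Mem F d hd 1 (z0 F d hd) := by
  refine ⟨fun _ => rfl, fun x i j hi hj h => ?_, fun x y hxy => ?_⟩
  · have h' : d.mask (z0 F d hd x).val = d.mask x.val := zmask F d hd x.2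
    rw [one_smul] at h
    rw [h', F.inj i j hi hj h]
  · obtain ⟨j, hj, hxy⟩ := hxy
    refine ⟨j, hj, ?_⟩
    show d.nb (d.zf x.val) j = d.zf y.val
    rw [← hxy, znb F d hd x.2 hj]

theorem mem_gen (c : ℕ) (hc : c < F.ng) : Mem F d hd (F.gen c) (Pf F d hd c hc) := by
  refine ⟨fun x => Fin.ext (fz F d hd hc x.2), fun x i j hi hj h => ?_, fun x y hxy => ?_⟩
  · rw [F.act c i hc hi] at h
    have e : j = F.t c i := (F.inj _ _ (F.tlt c i hc hi) hj h).symm
    rw [e]
    exact fmask F d hd hc x.2 hi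
  · obtain ⟨j, hj, hxy⟩ := hxy
    have h := fnb F d hd hc x.2 hj
    refine ⟨d.w c x.val j, h.1, ?_⟩
    show d.nb (d.f c x.val) (d.w c x.val j) = d.f c y.val
    rw [← hxy, h.2]

/-- An element over the identity preserves the blocks. -/
theorem blk_eq {P : Equiv.Perm (Fin d.N)} (h : Mem F d hd 1 P) (x : Fin d.N) :
    (P x).val / d.m = x.val / d.m := by
  apply maskinj F d hd (P x).2 x.2
  apply Nat.eq_of_testBit_eq
  intro i
  by_cases hi : i < F.n0
  · exact h.blk x i i hi hi (one_smul _ _)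
  · have hle : 2 ^ F.n0 ≤ 2 ^ i := Nat.pow_le_pow_right (by norm_num) (not_lt.mp hi)
    rw [Nat.testBit_lt_two_pow (lt_of_lt_of_le (masklt F d hd (P x).2) hle),
      Nat.testBit_lt_two_pow (lt_of_lt_of_le (masklt F d hd x.2) hle)]

/-- A block- and graph-preserving permutation fixing the point `0` is trivial. -/
theorem fix_all (Q : Equiv.Perm (Fin d.N)) (h0 : (Q ⟨0, Npos F d hd⟩).val = 0)
    (hblk : ∀ x, (Q x).val / d.m = x.val / d.m)
    (hadj : ∀ x y : Fin d.N, d.adj x.val y.val → d.adj (Q x).val (Q y).val) : Q = 1 := by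
  have key : ∀ n : ℕ, ∀ v : Fin d.N, d.dep v.val = n → (Q v).val = v.val := by
    intro n
    induction n using Nat.strong_induction_on with
    | _ n ih =>
      intro v hv
      rcases tree F d hd v.2 with h | ⟨hp, hj, hnb, hdep⟩
      · have e : v = ⟨0, Npos F d hd⟩ := Fin.ext h
        rw [e]; exact h0
      · have hu : (Q ⟨d.par v.val, hp⟩).val = d.par v.val :=
          ih (d.dep (d.par v.val)) (hv ▸ hdep) ⟨d.par v.val, hp⟩ rfl
        obtain ⟨j', hj', hnb'⟩ := hadj ⟨d.par v.val, hp⟩ v ⟨d.parj v.val, hj, hnb⟩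
        rw [hu] at hnb'
        have hb : d.nb (d.par v.val) j' / d.m = d.nb (d.par v.val) (d.parj v.val) / d.m := by
          rw [hnb', hnb]; exact hblk v
        have hjj : j' = d.parj v.val := by
          rcases Nat.lt_trichotomy j' (d.parj v.val) with h1 | h1 | h1
          · exact absurd hb (ne_of_lt (nb_lt F d hd hp _ _ h1 hj))
          · exact h1
          · exact absurd hb (ne_of_gt (nb_lt F d hd hp _ _ h1 hj'))
        rw [← hnb', hjj, hnb]
  exact Equiv.ext (fun v => Fin.ext (key _ v rfl))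

/-! ### The group -/

/-- The pairs satisfying the membership condition, as a submonoid. -/
def XM : Submonoid (G × Equiv.Perm (Fin d.N)) where
  carrier := {p | Mem F d hd p.1 p.2}
  mul_mem' := fun ha hb => mem_mul F d hd ha hb
  one_mem' := mem_one F d hd

variable [Finite G]

/-- The cover: the pairs satisfying the membership condition. -/
def X : Subgroup (G × Equiv.Perm (Fin d.N)) :=
  { XM F d hd with
    inv_mem' := by
      intro p hp
      have hpos : 0 < orderOf p := orderOf_pos p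
      have e : p⁻¹ = p ^ (orderOf p - 1) := by
        symm
        apply eq_inv_of_mul_eq_one_left
        rw [← pow_succ, Nat.sub_add_cancel hpos, pow_orderOf_eq_one]
      rw [e]
      exact (XM F d hd).pow_mem hp _ }

theorem mem_X {p : G × Equiv.Perm (Fin d.N)} :
    p ∈ X F d hd ↔ Mem F d hd p.1 p.2 := Iff.rfl

/-- The projection onto `G`. -/
def proj : ↥(X F d hd) →* G := (MonoidHom.fst _ _).comp (X F d hd).subtype

/-- The central element. -/
def zX : ↥(X F d hd) := ⟨(1, z0 F d hd), mem_z F d hd⟩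

theorem zX_mem_ker : zX F d hd ∈ (proj F d hd).ker := rfl

theorem zX_pow_fst (i : ℕ) :
    ((zX F d hd ^ i : ↥(X F d hd)) : G × Equiv.Perm (Fin d.N)).1 = 1 := by
  show (1 : G) ^ i = 1
  exact one_pow i

theorem zX_pow_snd (i : ℕ) :
    ((zX F d hd ^ i : ↥(X F d hd)) : G × Equiv.Perm (Fin d.N)).2 = z0 F d hd ^ i := rfl

theorem zX_order : orderOf (zX F d hd) = d.m := by
  rw [orderOf_eq_iff hd.mpos]
  constructor
  · apply Subtype.ext
    apply Prod.ext
    · exact zX_pow_fst F d hd d.m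
    · rw [zX_pow_snd]
      apply Equiv.ext
      intro x
      apply Fin.ext
      rw [z0_pow_val]
      exact zpow F d hd x.2
  · intro k hk hk0 h
    have h2 : ((z0 F d hd ^ k) ⟨0, Npos F d hd⟩).val = 0 := by
      rw [← zX_pow_snd, h]; rfl
    rw [z0_pow_val, show ((⟨0, Npos F d hd⟩ : Fin d.N) : ℕ) = 0 from rfl, zzero F d hd hk] at h2
    omega

theorem zX_central (q : ↥(X F d hd)) : q * zX F d hd = zX F d hd * q := by
  apply Subtype.ext
  apply Prod.ext
  · show q.1.1 * 1 = 1 * q.1.1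
    rw [mul_one, one_mul]
  · show q.1.2 * z0 F d hd = z0 F d hd * q.1.2
    exact Equiv.ext (fun x => (mem_X F d hd).mp q.2 |>.comm x)

/-- The kernel consists of the powers of `zX`. -/
theorem ker_cases (p : ↥(X F d hd)) (hp : p ∈ (proj F d hd).ker) :
    ∃ i : ℕ, p = zX F d hd ^ i := by
  have h1 : p.1.1 = 1 := hp
  have hm : Mem F d hd p.1.1 p.1.2 := p.2
  rw [h1] at hm
  have hi : (p.1.2 ⟨0, Npos F d hd⟩).val < d.m := by
    have h2 := blk_eq F d hd hm ⟨0, Npos F d hd⟩
    rw [show ((⟨0, Npos F d hd⟩ : Fin d.N) : ℕ) = 0 from rfl, Nat.zero_div] at h2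
    exact (Nat.div_eq_zero_iff_lt hd.mpos).mp h2
  refine ⟨(p.1.2 ⟨0, Npos F d hd⟩).val, ?_⟩
  have hq1 : (((zX F d hd ^ (p.1.2 ⟨0, Npos F d hd⟩).val)⁻¹ * p : ↥(X F d hd)) :
      G × Equiv.Perm (Fin d.N)).1 = 1 := by
    show ((zX F d hd ^ (p.1.2 ⟨0, Npos F d hd⟩).val : ↥(X F d hd)) :
      G × Equiv.Perm (Fin d.N)).1⁻¹ * p.1.1 = 1
    rw [zX_pow_fst, h1, inv_one, one_mul]
  have hqm : Mem F d hd (1 : G)
      (((zX F d hd ^ (p.1.2 ⟨0, Npos F d hd⟩).val)⁻¹ * p : ↥(X F d hd)) :
        G × Equiv.Perm (Fin d.N)).2 := by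
    have := ((zX F d hd ^ (p.1.2 ⟨0, Npos F d hd⟩).val)⁻¹ * p : ↥(X F d hd)).2
    rw [mem_X, hq1] at this
    exact this
  have hq0 : ((((zX F d hd ^ (p.1.2 ⟨0, Npos F d hd⟩).val)⁻¹ * p : ↥(X F d hd)) :
      G × Equiv.Perm (Fin d.N)).2 ⟨0, Npos F d hd⟩).val = 0 := by
    show (((z0 F d hd ^ (p.1.2 ⟨0, Npos F d hd⟩).val)⁻¹ * p.1.2) ⟨0, Npos F d hd⟩).val = 0
    have e : p.1.2 ⟨0, Npos F d hd⟩
        = (z0 F d hd ^ (p.1.2 ⟨0, Npos F d hd⟩).val) ⟨0, Npos F d hd⟩ := by
      apply Fin.ext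
      rw [z0_pow_val]
      exact (zzero F d hd hi).symm
    rw [Equiv.Perm.mul_apply]
    nth_rewrite 2 [e]
    exact congrArg Fin.val (Equiv.symm_apply_apply _ _)
  have hq := fix_all F d hd _ hq0 (blk_eq F d hd hqm) hqm.adj
  have hqq : (zX F d hd ^ (p.1.2 ⟨0, Npos F d hd⟩).val)⁻¹ * p = 1 :=
    Subtype.ext (Prod.ext hq1 hq)
  exact (inv_mul_eq_one.mp hqq).symm

theorem ker_le_center : (proj F d hd).ker ≤ Subgroup.center ↥(X F d hd) := by
  intro p hp
  obtain ⟨i, rfl⟩ := ker_cases F d hd p hp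
  rw [Subgroup.mem_center_iff]
  intro q
  exact (Commute.pow_right (zX_central F d hd q) i).eq

theorem proj_surjective
    (hgen : Subgroup.closure {g : G | ∃ c, c < F.ng ∧ g = F.gen c} = ⊤) :
    Function.Surjective (proj F d hd) := by
  intro g
  have hS : (⊤ : Subgroup G) ≤ (X F d hd).map (MonoidHom.fst _ _) := by
    rw [← hgen, Subgroup.closure_le]
    rintro x ⟨c, hc, rfl⟩
    exact ⟨(F.gen c, Pf F d hd c hc), mem_gen F d hd c hc, rfl⟩
  obtain ⟨p, hp, hpg⟩ := hS (Subgroup.mem_top g)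
  exact ⟨⟨p, hp⟩, hpg⟩

/-! ### Lifts of words -/

/-- The lifted generators. -/
noncomputable def gX (c : ℕ) : ↥(X F d hd) :=
  if hc : c < F.ng then ⟨(F.gen c, Pf F d hd c hc), mem_gen F d hd c hc⟩ else 1

/-- The lift of a word. -/
noncomputable def wX : List ℕ → ↥(X F d hd)
  | [] => 1
  | c :: w => gX F d hd c * wX w

theorem proj_wX (w : List ℕ) (hw : okW F.ng w = true) :
    proj F d hd (wX F d hd w) = wG F w := by
  induction w with
  | nil => rfl
  | cons c w ih =>
    obtain ⟨hc, hw'⟩ := okW_cons hw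
    show proj F d hd (gX F d hd c * wX F d hd w) = F.gen c * wG F w
    rw [map_mul, ih hw']
    congr 1
    unfold gX
    rw [dif_pos hc]
    rfl

theorem wX_snd (w : List ℕ) (hw : okW F.ng w = true) (x : Fin d.N) :
    (((wX F d hd w : ↥(X F d hd)) : G × Equiv.Perm (Fin d.N)).2 x).val = wF d w x.val := by
  induction w with
  | nil => rfl
  | cons c w ih =>
    obtain ⟨hc, hw'⟩ := okW_cons hw
    have e : (((wX F d hd (c :: w) : ↥(X F d hd)) : G × Equiv.Perm (Fin d.N)).2 x).val
        = d.f c (((wX F d hd w : ↥(X F d hd)) : G × Equiv.Perm (Fin d.N)).2 x).val := by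
      show (((gX F d hd c * wX F d hd w : ↥(X F d hd)) : G × Equiv.Perm (Fin d.N)).2 x).val = _
      unfold gX
      rw [dif_pos hc]
      rfl
    rw [e, ih hw']
    rfl

/-- An element of the kernel is the power of the central element given by the image of the
point `0`. -/
theorem ker_val (p : ↥(X F d hd)) (hp : p ∈ (proj F d hd).ker) :
    p = zX F d hd ^ (p.1.2 ⟨0, Npos F d hd⟩).val := by
  obtain ⟨i, rfl⟩ := ker_cases F d hd p hp
  have e : zX F d hd ^ i = zX F d hd ^ (i % d.m) := by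
    rw [← zX_order F d hd, pow_mod_orderOf]
  have hv : (((zX F d hd ^ (i % d.m) : ↥(X F d hd)) : G × Equiv.Perm (Fin d.N)).2
      ⟨0, Npos F d hd⟩).val = i % d.m := by
    rw [zX_pow_snd, z0_pow_val]
    exact zzero F d hd (Nat.mod_lt _ hd.mpos)
  rw [e, hv]

/-- The commutator of the lifts of two commuting words, from the images of one point. -/
theorem comm_eval (wp wq : List ℕ) (hwp : okW F.ng wp = true) (hwq : okW F.ng wq = true)
    (hcomm : wG F wp * wG F wq = wG F wq * wG F wp)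
    (y k : ℕ) (hy : y < d.N) (h1 : wF d wq (wF d wp y) = 0) (h2 : wF d wp (wF d wq y) = k) :
    ⁅wX F d hd wp, wX F d hd wq⁆ = zX F d hd ^ k := by
  have hk : ⁅wX F d hd wp, wX F d hd wq⁆ ∈ (proj F d hd).ker := by
    rw [MonoidHom.mem_ker, map_commutatorElement, commutatorElement_eq_one_iff_commute]
    show proj F d hd (wX F d hd wp) * proj F d hd (wX F d hd wq)
      = proj F d hd (wX F d hd wq) * proj F d hd (wX F d hd wp)
    rw [proj_wX F d hd wp hwp, proj_wX F d hd wq hwq]
    exact hcomm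
  rw [ker_val F d hd _ hk]
  congr 1
  have e0 : (((wX F d hd wq : ↥(X F d hd)) : G × Equiv.Perm (Fin d.N)).2
      * ((wX F d hd wp : ↥(X F d hd)) : G × Equiv.Perm (Fin d.N)).2) ⟨y, hy⟩
      = ⟨0, Npos F d hd⟩ := by
    apply Fin.ext
    rw [Equiv.Perm.mul_apply, wX_snd F d hd wq hwq, wX_snd F d hd wp hwp]
    exact h1
  have e1 : (((wX F d hd wp : ↥(X F d hd)) : G × Equiv.Perm (Fin d.N)).2)⁻¹
      ((((wX F d hd wq : ↥(X F d hd)) : G × Equiv.Perm (Fin d.N)).2)⁻¹ ⟨0, Npos F d hd⟩)
      = ⟨y, hy⟩ := by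
    rw [← e0, Equiv.Perm.mul_apply]
    simp
  show ((((wX F d hd wp : ↥(X F d hd)) : G × Equiv.Perm (Fin d.N)).2
      * ((wX F d hd wq : ↥(X F d hd)) : G × Equiv.Perm (Fin d.N)).2
      * (((wX F d hd wp : ↥(X F d hd)) : G × Equiv.Perm (Fin d.N)).2)⁻¹
      * (((wX F d hd wq : ↥(X F d hd)) : G × Equiv.Perm (Fin d.N)).2)⁻¹) ⟨0, Npos F d hd⟩).val = k
  rw [Equiv.Perm.mul_apply, Equiv.Perm.mul_apply, Equiv.Perm.mul_apply, e1,
    wX_snd F d hd wp hwp, wX_snd F d hd wq hwq]
  exact h2

end Theory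

end Cfsg.Agent.Lib.Helper35.GCover
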