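-- The kernel of every stem extension of M12 has order dividing 2.  The point stabiliser M11 has
-- trivial multiplier, so point stabilisers lift canonically to any central extension; the two
-- lifts of a two-point stabiliser (of order 720) differ by a homomorphism into the kernel whose
-- image `B` has order at most 2, and modulo `B` the triply transitive double-coset
-- decomposition gives a complement.
import Cfsg.Agent.Lib.Helper35.M12MData
import Cfsg.Agent.Lib.Helper35.StemD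
import Cfsg.Agent.Lib.Helper35.PermTab
import Cfsg.Agent.Lib.Helper35.M11Aut
import Cfsg.Agent.Lib.Helper7.M12Simple
import Cfsg.Agent.Lib.Helper66.Hopf
import Cfsg.Agent.S2034

set_option autoImplicit false

namespace Cfsg.Agent.Lib.Helper35.M12Mult

open Cfsg Cfsg.Spor Cfsg.Agent.Lib.Helper7.GolayBase Cfsg.Agent.Lib.Helper7.GolayPerm
  Cfsg.Agent.Lib.Helper7.GolayRigid Cfsg.Agent.Lib.Helper7.M12Core
  Cfsg.Agent.Lib.Helper7.M11Twist
  Cfsg.Agent.Lib.Helper35.PermTab Cfsg.Agent.Lib.Helper35.M12Base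
  Cfsg.Agent.Lib.Helper35.M11Aut
  Cfsg.Agent.Lib.Helper35.Stem Cfsg.Agent.Lib.Helper35.StemB Cfsg.Agent.Lib.Helper35.StemC
  Cfsg.Agent.Lib.Helper35.StemD
open scoped commutatorElement Pointwise

/-! ### Paths of tables -/

/-- Every table is a generator times the next table, and the last table is the identity. -/
def pathB (gens : List (List Nat)) : List (List Nat) → Bool
  | [] => true
  | [t] => t == idT
  | t :: t' :: rest => gens.any (fun g => t == tmul g t') && pathB gens (t' :: rest)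

theorem pathB_sound (S : Set (Equiv.Perm GolayPt)) (gens : List (List Nat))
    (hS' : ∀ t ∈ gens, ∃ g ∈ S, tab g = t) :
    ∀ L : List (List Nat), pathB gens L = true →
      ∀ t ∈ L, ∃ h ∈ Subgroup.closure S, tab h = t := by
  intro L
  induction L with
  | nil => intro _ t ht; simp at ht
  | cons t0 rest ih =>
    intro hp t ht
    cases rest with
    | nil =>
      simp only [pathB, beq_iff_eq] at hp
      rw [List.mem_singleton] at ht
      exact ⟨1, Subgroup.one_mem _, by rw [ht, hp, tab_one]⟩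
    | cons t1 rest' =>
      simp only [pathB, Bool.and_eq_true, List.any_eq_true, beq_iff_eq] at hp
      obtain ⟨⟨g, hg, h0⟩, hrest⟩ := hp
      rcases List.mem_cons.mp ht with rfl | ht
      · obtain ⟨x, hx, hxg⟩ := hS' g hg
        obtain ⟨h', hh', hh't⟩ := ih hrest t1 List.mem_cons_self
        exact ⟨x * h', Subgroup.mul_mem _ (Subgroup.subset_closure hx) hh',
          by rw [tab_mul, hxg, hh't, h0]⟩
      · exact ih hrest t ht

theorem card_closure_ge (S : Set (Equiv.Perm GolayPt)) (gens L : List (List Nat))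
    (hS' : ∀ t ∈ gens, ∃ g ∈ S, tab g = t) (hp : pathB gens L = true) (hnd : L.Nodup) :
    L.length ≤ Nat.card (Subgroup.closure S) := by
  have key := pathB_sound S gens hS' L hp
  let f : L.toFinset → Subgroup.closure S := fun t =>
    ⟨(key t.1 (List.mem_toFinset.mp t.2)).choose,
      (key t.1 (List.mem_toFinset.mp t.2)).choose_spec.1⟩
  have hf : Function.Injective f := by
    intro a b hab
    have ha := (key a.1 (List.mem_toFinset.mp a.2)).choose_spec.2
    have hb := (key b.1 (List.mem_toFinset.mp b.2)).choose_spec.2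
    apply Subtype.ext
    rw [← ha, ← hb]
    exact congrArg (fun x : Subgroup.closure S => tab (x : Equiv.Perm GolayPt)) hab
  have h1 := Nat.card_le_card_of_injective f hf
  rwa [Nat.card_eq_fintype_card, Fintype.card_coe, List.toFinset_card_of_nodup hnd] at h1

/-! ### Explicit elements of the two-point stabiliser -/

theorem rows_rep : ∀ r ∈ M12MData.rows, ∃ g ∈ M24, Rep g r.2.2 := by
  intro r hr
  rw [Cfsg.Agent.Lib.Helper7.M24Main.M24_eq_H]
  exact chk_sound Cfsg.Agent.Lib.Helper7.M24Core.H Cfsg.Agent.Lib.Helper7.M24Data.tabs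
    Cfsg.Agent.Lib.Helper7.M24Core.tabs_rep M12MData.rows [] (by simp) M12MData.rows_chk r hr

theorem ofT_spec12 {t : List Nat} (ht : t ∈ M12MData.rows.map (fun r => r.2.2)) :
    ofT t ∈ M24 ∧ tab (ofT t) = t := by
  obtain ⟨r, hr, rfl⟩ := List.mem_map.mp ht
  obtain ⟨g, hg, hrep⟩ := rows_rep r hr
  rw [ofT_eq hrep]
  exact ⟨hg, (eq_tab_of_rep hrep).symm⟩

/-- The stabiliser in `M12` of the points `0` and `1` of the dodecad. -/
def K : Subgroup (Equiv.Perm GolayPt) :=
  Spor.M11 ⊓ MulAction.stabilizer (Equiv.Perm GolayPt) (pt 1)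

theorem pt_zero : pt 0 = (some 0 : GolayPt) := rfl

theorem mem_K_of_tab {g : Equiv.Perm GolayPt} (hg : g ∈ M24) {t : List Nat} (ht : tab g = t)
    (h : (presT d0 t && hit [0] 1 1 t) = true) : g ∈ K := by
  rw [Bool.and_eq_true] at h
  have hrep : Rep g t := ht ▸ rep_tab g
  obtain ⟨h1, h2⟩ := hit_spec hrep (F := [0]) (by decide) (by decide) h.2
  refine Subgroup.mem_inf.mpr ⟨mem_M11.mpr ⟨hg, smul_eq_of_pres (pres_of_presT hrep h.1), ?_⟩,
    MulAction.mem_stabilizer_iff.mpr h2⟩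
  exact h1 0 (by simp)

/-- Generator of order five, a commutator. -/
noncomputable def x : Equiv.Perm GolayPt := ofT M12MData.xT
/-- Generator of order eight. -/
noncomputable def y : Equiv.Perm GolayPt := ofT M12MData.yT
/-- An involution with `w y w⁻¹ = y ^ 3`. -/
noncomputable def w : Equiv.Perm GolayPt := ofT M12MData.wT
/-- First entry of the commutator. -/
noncomputable def p : Equiv.Perm GolayPt := ofT M12MData.pT
/-- Second entry of the commutator. -/
noncomputable def q : Equiv.Perm GolayPt := ofT M12MData.qT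

theorem x_spec : x ∈ M24 ∧ tab x = M12MData.xT := ofT_spec12 (by decide +kernel)
theorem y_spec : y ∈ M24 ∧ tab y = M12MData.yT := ofT_spec12 (by decide +kernel)
theorem w_spec : w ∈ M24 ∧ tab w = M12MData.wT := ofT_spec12 (by decide +kernel)
theorem p_spec : p ∈ M24 ∧ tab p = M12MData.pT := ofT_spec12 (by decide +kernel)
theorem q_spec : q ∈ M24 ∧ tab q = M12MData.qT := ofT_spec12 (by decide +kernel)

theorem x_mem : x ∈ K := mem_K_of_tab x_spec.1 x_spec.2 (by decide +kernel)
theorem y_mem : y ∈ K := mem_K_of_tab y_spec.1 y_spec.2 (by decide +kernel)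
theorem w_mem : w ∈ K := mem_K_of_tab w_spec.1 w_spec.2 (by decide +kernel)
theorem p_mem : p ∈ K := mem_K_of_tab p_spec.1 p_spec.2 (by decide +kernel)
theorem q_mem : q ∈ K := mem_K_of_tab q_spec.1 q_spec.2 (by decide +kernel)

theorem x_eq : x = ⁅p, q⁆ := by
  have h : x * q * p = p * q := by
    apply tab_injective
    rw [tab_mul, tab_mul, tab_mul, x_spec.2, p_spec.2, q_spec.2]; decide +kernel
  rw [commutatorElement_def, ← h]; group

theorem y_sq : y * y = ⁅w, y⁆ := by
  have h : y * y * y * w = w * y := by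
    apply tab_injective
    rw [tab_mul, tab_mul, tab_mul, tab_mul, y_spec.2, w_spec.2]; decide +kernel
  rw [commutatorElement_def, ← h]; group

theorem xy_ne : x * y ≠ y * x := by
  intro h
  have := congrArg tab h
  rw [tab_mul, tab_mul, x_spec.2, y_spec.2] at this
  revert this
  decide +kernel

theorem xinv_tab : tab x⁻¹ = M12MData.xinvT :=
  tab_inv_of_mul (h := x * x * x * x)
    (by rw [tab_mul, tab_mul, tab_mul, x_spec.2]; decide +kernel)
    (by rw [x_spec.2]; decide +kernel)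

theorem yinv_tab : tab y⁻¹ = M12MData.yinvT :=
  tab_inv_of_mul (h := y * y * y * y * y * y * y)
    (by rw [tab_mul, tab_mul, tab_mul, tab_mul, tab_mul, tab_mul, y_spec.2]; decide +kernel)
    (by rw [y_spec.2]; decide +kernel)

theorem pt_one_mem : pt 1 ∈ mk d0 := by
  rw [mem_mk]; decide +kernel

theorem card_K : Nat.card ↥K = 720 := card_stab_in pt_one_mem (by decide)

/-- The sort key: the images of three further points of the dodecad. -/
def key3 (t : List Nat) : Nat := t.getD 2 0 + 24 * t.getD 3 0 + 576 * t.getD 4 0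

theorem KL_nodup : M12MData.KL.Nodup :=
  List.Nodup.of_map key3 (by decide +kernel)

theorem KL_path : pathB [M12MData.xT, M12MData.xinvT, M12MData.yT, M12MData.yinvT]
    M12MData.KL = true := by decide +kernel

theorem KL_length : M12MData.KL.length = 720 := by decide +kernel

/-- The two-point stabiliser is generated by `x` and `y`. -/
theorem K_le_closure : K ≤ Subgroup.closure ({x, y} : Set (Equiv.Perm GolayPt)) := by
  have h1 : Subgroup.closure ({x, x⁻¹, y, y⁻¹} : Set (Equiv.Perm GolayPt)) ≤ K := by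
    rw [Subgroup.closure_le]
    rintro g (rfl | rfl | rfl | rfl)
    · exact x_mem
    · exact K.inv_mem x_mem
    · exact y_mem
    · exact K.inv_mem y_mem
  have h2 : Nat.card ↥K ≤
      Nat.card (Subgroup.closure ({x, x⁻¹, y, y⁻¹} : Set (Equiv.Perm GolayPt))) := by
    rw [card_K, ← KL_length]
    refine card_closure_ge _ [M12MData.xT, M12MData.xinvT, M12MData.yT, M12MData.yinvT] _ ?_
      KL_path KL_nodup
    intro t ht
    simp only [List.mem_cons, List.not_mem_nil, or_false] at ht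
    rcases ht with rfl | rfl | rfl | rfl
    · exact ⟨x, by simp, x_spec.2⟩
    · exact ⟨x⁻¹, by simp, xinv_tab⟩
    · exact ⟨y, by simp, y_spec.2⟩
    · exact ⟨y⁻¹, by simp, yinv_tab⟩
  rw [← Subgroup.eq_of_le_of_card_ge h1 h2, Subgroup.closure_le]
  rintro g (rfl | rfl | rfl | rfl)
  · exact Subgroup.subset_closure (by simp)
  · exact Subgroup.inv_mem _ (Subgroup.subset_closure (by simp))
  · exact Subgroup.subset_closure (by simp)
  · exact Subgroup.inv_mem _ (Subgroup.subset_closure (by simp))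

/-! ### `M11` is perfect -/

theorem m11_perfect : Spor.M11 ≤ ⁅Spor.M11, Spor.M11⁆ := by
  intro g hg
  have hsimple := Cfsg.Agent.Lib.Helper7.M12Simple.m11_simple (mk d0) mk_d0_mem (some 0) zero_mem
  set T : Subgroup ↥M24 :=
    MulAction.stabilizer ↥M24 (mk d0) ⊓ MulAction.stabilizer ↥M24 (some 0 : GolayPt) with hT
  let φ : ↥T →* Equiv.Perm GolayPt := M24.subtype.comp T.subtype
  have hφ : ∀ z : ↥T, φ z ∈ Spor.M11 := fun z => mem_M11.mpr ⟨z.1.2, z.2.1, z.2.2⟩
  have toT : ∀ g ∈ Spor.M11, ∃ z : ↥T, φ z = g := fun g hg =>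
    ⟨⟨⟨g, (mem_M11.mp hg).1⟩, ⟨(mem_M11.mp hg).2.1, (mem_M11.mp hg).2.2⟩⟩, rfl⟩
  have hcomm : commutator ↥T = ⊤ := by
    rcases (inferInstance : (commutator ↥T).Normal).eq_bot_or_eq_top with h | h
    · exfalso
      obtain ⟨z1, hz1⟩ := toT x (Subgroup.mem_inf.mp x_mem).1
      obtain ⟨z2, hz2⟩ := toT y (Subgroup.mem_inf.mp y_mem).1
      have h1 : ⁅z1, z2⁆ ∈ commutator ↥T := by
        rw [commutator_def]
        exact Subgroup.commutator_mem_commutator (Subgroup.mem_top _) (Subgroup.mem_top _)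
      rw [h, Subgroup.mem_bot, commutatorElement_eq_one_iff_mul_comm] at h1
      have h2 := congrArg φ h1
      rw [map_mul, map_mul, hz1, hz2] at h2
      exact xy_ne h2
    · exact h
  obtain ⟨z, rfl⟩ := toT g hg
  have h1 : φ z ∈ (commutator ↥T).map φ := ⟨z, by rw [hcomm]; exact Subgroup.mem_top _, rfl⟩
  rw [commutator_def, Subgroup.map_commutator] at h1
  have hle : (⊤ : Subgroup ↥T).map φ ≤ Spor.M11 := by
    rintro _ ⟨z, -, rfl⟩
    exact hφ z
  exact Subgroup.commutator_mono hle hle h1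

/-! ### Canonical lifts in a central extension of `M12` -/

theorem mem_M12 {g : Equiv.Perm GolayPt} : g ∈ Spor.M12 ↔ g ∈ M24 ∧ g • mk d0 = mk d0 := by
  rw [M12_eq]; exact mem_SD

theorem M11_def : Spor.M11 =
    Spor.M12 ⊓ MulAction.stabilizer (Equiv.Perm GolayPt) (some 0 : GolayPt) := rfl

section Lift

variable {Γ : Type} [Group Γ] (σ : Γ →* ↥Spor.M12)

theorem L_zero_inf_ker (hs : Function.Surjective σ) (hc : σ.ker ≤ Subgroup.center Γ) :
    L (incl σ) (some 0 : GolayPt) ⊓ (incl σ).ker = ⊥ := by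
  set X : Subgroup Γ :=
    (MulAction.stabilizer (Equiv.Perm GolayPt) (some 0 : GolayPt)).comap (incl σ) with hX
  let ξ : ↥X →* ↥Spor.M11 := ((incl σ).comp X.subtype).codRestrict Spor.M11
    (fun x => by
      rw [M11_def]
      exact Subgroup.mem_inf.mpr ⟨(σ x.1).2, Subgroup.mem_comap.mp x.2⟩)
  have hξ : Function.Surjective ξ := by
    rintro ⟨g, hg⟩
    have hg' := hg
    rw [M11_def] at hg'
    obtain ⟨hg12, hgn⟩ := Subgroup.mem_inf.mp hg'
    obtain ⟨u, hu⟩ := incl_lift σ hs hg12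
    exact ⟨⟨u, Subgroup.mem_comap.mpr (by rw [hu]; exact hgn)⟩, Subtype.ext hu⟩
  have hξc : ξ.ker ≤ Subgroup.center ↥X := by
    intro x hx
    have h1 : incl σ x.1 = 1 := congrArg Subtype.val (MonoidHom.mem_ker.mp hx)
    have h2 : x.1 ∈ Subgroup.center Γ :=
      hc (by rw [← incl_ker]; exact MonoidHom.mem_ker.mpr h1)
    rw [Subgroup.mem_center_iff]
    intro y
    exact Subtype.ext (Subgroup.mem_center_iff.mp h2 y.1)
  have key := Cfsg.Agent.Lib.Helper66.Hopf.commutator_inf_ker_eq_bot_of_trivial ↥Spor.M11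
    Cfsg.Agent.S2034.result ξ hξ hξc
  rw [eq_bot_iff]
  rintro z ⟨hzL, hzk⟩
  rw [Subgroup.mem_bot]
  have hzL' : z ∈ (commutator ↥X).map X.subtype := by
    rw [Subgroup.map_subtype_commutator]; exact hzL
  obtain ⟨y, hy, rfl⟩ := hzL'
  have hyk : y ∈ ξ.ker := MonoidHom.mem_ker.mpr (Subtype.ext (MonoidHom.mem_ker.mp hzk))
  have : y ∈ commutator ↥X ⊓ ξ.ker := Subgroup.mem_inf.mpr ⟨hy, hyk⟩
  rw [key, Subgroup.mem_bot] at this
  rw [this]; rfl

theorem L_zero_lift (hs : Function.Surjective σ) :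
    ∀ x ∈ (incl σ).range, x • (some 0 : GolayPt) = some 0 →
      ∃ u ∈ L (incl σ) (some 0 : GolayPt), incl σ u = x := by
  intro x hx hxn
  rw [incl_range σ hs] at hx
  have hx11 : x ∈ Spor.M11 := by
    rw [M11_def]; exact Subgroup.mem_inf.mpr ⟨hx, MulAction.mem_stabilizer_iff.mpr hxn⟩
  have h1 := m11_perfect hx11
  have h2 : (L (incl σ) (some 0 : GolayPt)).map (incl σ) = ⁅Spor.M11, Spor.M11⁆ := by
    unfold L
    rw [Subgroup.map_commutator, Subgroup.map_comap_eq, incl_range σ hs]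
    rfl
  rw [← h2] at h1
  obtain ⟨u, hu, rfl⟩ := h1
  exact ⟨u, hu, rfl⟩

theorem exists_map_zero {β : GolayPt} (hβ : β ∈ mk d0) :
    ∃ g ∈ Spor.M12, g (some 0 : GolayPt) = β := by
  obtain ⟨g, hg, h⟩ := exists_map_in1 mk_d0_mem zero_mem hβ
  exact ⟨g, by rw [M12_eq]; exact hg, h⟩

theorem L_inf_ker (hs : Function.Surjective σ) (hc : σ.ker ≤ Subgroup.center Γ)
    {β : GolayPt} (hβ : β ∈ mk d0) : L (incl σ) β ⊓ (incl σ).ker = ⊥ := by
  obtain ⟨g, hg, hgβ⟩ := exists_map_zero hβ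
  obtain ⟨v, hv⟩ := incl_lift σ hs hg
  exact L_inf_ker_of_conj (L_zero_inf_ker σ hs hc) v (by rw [hv]; exact hgβ)

theorem L_lift (hs : Function.Surjective σ) {β : GolayPt} (hβ : β ∈ mk d0) :
    ∀ x ∈ (incl σ).range, x • β = β → ∃ u ∈ L (incl σ) β, incl σ u = x := by
  obtain ⟨g, hg, hgβ⟩ := exists_map_zero hβ
  obtain ⟨v, hv⟩ := incl_lift σ hs hg
  exact exists_lift_of_conj (L_zero_lift σ hs) v (by rw [hv]; exact hgβ)

end Lift

theorem pt_mem : ∀ i ∈ [0, 1, 2, 3], pt i ∈ mk d0 := by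
  intro i hi
  rw [mem_mk]
  revert i
  decide +kernel

theorem pt_ne : ∀ i ∈ [0, 1, 2, 3], ∀ j ∈ [0, 1, 2, 3], i ≠ j → pt i ≠ pt j := by
  intro i hi j hj hij h
  have hi' : i < 24 := (by decide : ∀ i ∈ [0, 1, 2, 3], i < 24) i hi
  have hj' : j < 24 := (by decide : ∀ i ∈ [0, 1, 2, 3], i < 24) j hj
  have := congrArg idx h
  rw [idx_pt hi', idx_pt hj'] at this
  exact hij this

/-- The kernel of a stem extension of `M12` has order dividing 2. -/
theorem m12_bound (Γ : Type) [Group Γ] [Finite Γ] (σ : Γ →* ↥Spor.M12)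
    (hσ : IsStemExtension σ) : Nat.card σ.ker ∣ 2 := by
  obtain ⟨hsurj, hcen, hcomm⟩ := hσ
  have hc : (incl σ).ker ≤ Subgroup.center Γ := by rw [incl_ker]; exact hcen
  have hr : (incl σ).range = Spor.M12 := incl_range σ hsurj
  have hL1 : ∀ β ∈ ((mk d0 : Finset GolayPt) : Set GolayPt), L (incl σ) β ⊓ (incl σ).ker = ⊥ :=
    fun β hβ => L_inf_ker σ hsurj hcen (Finset.mem_coe.mp hβ)
  have hL2 : ∀ β ∈ ((mk d0 : Finset GolayPt) : Set GolayPt), ∀ x ∈ (incl σ).range, x • β = β →
      ∃ u ∈ L (incl σ) β, incl σ u = x :=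
    fun β hβ => L_lift σ hsurj (Finset.mem_coe.mp hβ)
  have h0 : pt 0 ∈ ((mk d0 : Finset GolayPt) : Set GolayPt) :=
    Finset.mem_coe.mpr (pt_mem 0 (by simp))
  have h1 : pt 1 ∈ ((mk d0 : Finset GolayPt) : Set GolayPt) :=
    Finset.mem_coe.mpr (pt_mem 1 (by simp))
  have h2 : pt 2 ∈ ((mk d0 : Finset GolayPt) : Set GolayPt) :=
    Finset.mem_coe.mpr (pt_mem 2 (by simp))
  have h3 : pt 3 ∈ ((mk d0 : Finset GolayPt) : Set GolayPt) :=
    Finset.mem_coe.mpr (pt_mem 3 (by simp))
  -- transitivity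
  have hD : ∀ x ∈ (incl σ).range, ∀ β ∈ ((mk d0 : Finset GolayPt) : Set GolayPt),
      x • β ∈ ((mk d0 : Finset GolayPt) : Set GolayPt) := by
    intro x hx β hβ
    rw [hr] at hx
    exact Finset.mem_coe.mpr ((apply_mem_iff (mem_M12.mp hx).2 β).mpr (Finset.mem_coe.mp hβ))
  have h2t : ∀ a ∈ ((mk d0 : Finset GolayPt) : Set GolayPt),
      ∀ b ∈ ((mk d0 : Finset GolayPt) : Set GolayPt),
      ∀ a' ∈ ((mk d0 : Finset GolayPt) : Set GolayPt),
      ∀ b' ∈ ((mk d0 : Finset GolayPt) : Set GolayPt), a ≠ b → a' ≠ b' →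
      ∃ x ∈ (incl σ).range, x • a = a' ∧ x • b = b' := by
    intro a ha b hb a' ha' b' hb' hab hab'
    obtain ⟨g, hg, e1, e2⟩ := exists_map_in2 mk_d0_mem (Finset.mem_coe.mp ha)
      (Finset.mem_coe.mp hb) (Finset.mem_coe.mp ha') (Finset.mem_coe.mp hb') hab hab'
    exact ⟨g, by rw [hr, M12_eq]; exact hg, e1, e2⟩
  have h3t : ∀ a ∈ ((mk d0 : Finset GolayPt) : Set GolayPt),
      ∀ b ∈ ((mk d0 : Finset GolayPt) : Set GolayPt),
      ∀ c ∈ ((mk d0 : Finset GolayPt) : Set GolayPt),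
      ∀ a' ∈ ((mk d0 : Finset GolayPt) : Set GolayPt),
      ∀ b' ∈ ((mk d0 : Finset GolayPt) : Set GolayPt),
      ∀ c' ∈ ((mk d0 : Finset GolayPt) : Set GolayPt), a ≠ b → a ≠ c → b ≠ c →
      a' ≠ b' → a' ≠ c' → b' ≠ c' →
      ∃ x ∈ (incl σ).range, x • a = a' ∧ x • b = b' ∧ x • c = c' := by
    intro a ha b hb c hc' a' ha' b' hb' c' hc'' hab hac hbc hab' hac' hbc'
    obtain ⟨g, hg, hm⟩ := exists_map_in mk_d0_mem [a, b, c] [a', b', c']
      (by simp [hab, hac, hbc]) (by simp [hab', hac', hbc'])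
      (by
        intro z hz
        simp only [List.mem_cons, List.not_mem_nil, or_false] at hz
        rcases hz with rfl | rfl | rfl
        · exact Finset.mem_coe.mp ha
        · exact Finset.mem_coe.mp hb
        · exact Finset.mem_coe.mp hc')
      (by
        intro z hz
        simp only [List.mem_cons, List.not_mem_nil, or_false] at hz
        rcases hz with rfl | rfl | rfl
        · exact Finset.mem_coe.mp ha'
        · exact Finset.mem_coe.mp hb'
        · exact Finset.mem_coe.mp hc'')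
      rfl (by simp)
    simp only [List.map_cons, List.map_nil, List.cons.injEq, and_true] at hm
    exact ⟨g, by rw [hr, M12_eq]; exact hg, hm.1, hm.2.1, hm.2.2⟩
  -- lifts of the generators of the two-point stabiliser
  have hK12 : K ≤ Spor.M12 := fun g hg => by
    have := (Subgroup.mem_inf.mp hg).1
    rw [M11_def] at this
    exact (Subgroup.mem_inf.mp this).1
  have hfix0 : ∀ g ∈ K, g • (pt 0 : GolayPt) = pt 0 := fun g hg =>
    (mem_M11.mp (Subgroup.mem_inf.mp hg).1).2.2
  have hfix1 : ∀ g ∈ K, g • (pt 1 : GolayPt) = pt 1 := fun g hg =>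
    MulAction.mem_stabilizer_iff.mp (Subgroup.mem_inf.mp hg).2
  obtain ⟨pl, hpl⟩ := incl_lift σ hsurj (hK12 p_mem)
  obtain ⟨ql, hql⟩ := incl_lift σ hsurj (hK12 q_mem)
  obtain ⟨wl, hwl⟩ := incl_lift σ hsurj (hK12 w_mem)
  obtain ⟨u, hu, hτu⟩ := hL2 (pt 0) h0 y (by rw [hr]; exact hK12 y_mem) (hfix0 y y_mem)
  obtain ⟨u', hu', hτu'⟩ := hL2 (pt 1) h1 y (by rw [hr]; exact hK12 y_mem) (hfix1 y y_mem)
  have hbk : u⁻¹ * u' ∈ (incl σ).ker :=
    MonoidHom.mem_ker.mpr (by rw [map_mul, map_inv, hτu, hτu', inv_mul_cancel])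
  have hbcen := Subgroup.mem_center_iff.mp (hc hbk)
  -- the difference of the two lifts of `y` is an involution
  have hb2 : (u⁻¹ * u') * (u⁻¹ * u') = 1 := by
    have e0 : u * u = ⁅wl, u⁆ := by
      apply eq_of_mem_L (hL1 (pt 0) h0) (mul_mem hu hu)
        (commutator_mem_L (by rw [hwl]; exact hfix0 w w_mem) (by rw [hτu]; exact hfix0 y y_mem))
      rw [map_mul, map_commutatorElement, hτu, hwl, y_sq]
    have e1 : u' * u' = ⁅wl, u'⁆ := by
      apply eq_of_mem_L (hL1 (pt 1) h1) (mul_mem hu' hu')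
        (commutator_mem_L (by rw [hwl]; exact hfix1 w w_mem) (by rw [hτu']; exact hfix1 y y_mem))
      rw [map_mul, map_commutatorElement, hτu', hwl, y_sq]
    have e2 : ⁅wl, u'⁆ = ⁅wl, u⁆ := commutator_eq_of_map_eq (incl σ) hc rfl (by rw [hτu, hτu'])
    have e3 : u' * u' = u * u := by rw [e1, e2, e0]
    have e4 : u' = u * (u⁻¹ * u') := by group
    calc (u⁻¹ * u') * (u⁻¹ * u') = u⁻¹ * (u' * (u⁻¹ * u')) := by group
      _ = u⁻¹ * ((u⁻¹ * u') * u') := by rw [hbcen u']
      _ = u⁻¹ * u⁻¹ * (u' * u') := by group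
      _ = 1 := by rw [e3]; group
  have hB : Subgroup.zpowers (u⁻¹ * u') ≤ (incl σ).ker := by
    rw [Subgroup.zpowers_le]; exact hbk
  -- agreement of the lifts modulo `B` on the two-point stabiliser
  have hpair := pair_of_gens hc hB (hL1 (pt 0) h0) (hL1 (pt 1) h1)
    ({x, y} : Set (Equiv.Perm GolayPt))
    (by
      rintro s (rfl | rfl)
      · refine ⟨⁅pl, ql⁆, commutator_mem_L (by rw [hpl]; exact hfix0 p p_mem)
          (by rw [hql]; exact hfix0 q q_mem), ⁅pl, ql⁆,
          commutator_mem_L (by rw [hpl]; exact hfix1 p p_mem) (by rw [hql]; exact hfix1 q q_mem),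
          by rw [map_commutatorElement, hpl, hql, x_eq],
          by rw [map_commutatorElement, hpl, hql, x_eq], ?_⟩
        rw [inv_mul_cancel]; exact one_mem _
      · exact ⟨u, hu, u', hu', hτu, hτu', Subgroup.mem_zpowers _⟩)
    (by
      intro g hg hg0 hg1
      rw [hr] at hg
      apply K_le_closure
      refine Subgroup.mem_inf.mpr ⟨?_, MulAction.mem_stabilizer_iff.mpr hg1⟩
      rw [M11_def]
      exact Subgroup.mem_inf.mpr ⟨hg, MulAction.mem_stabilizer_iff.mpr hg0⟩)
  have hcons := cons_of_pair hc _ hL1 h2t (pt 0) (pt 1) h0 h1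
    (pt_ne 0 (by simp) 1 (by simp) (by decide)) hpair
  obtain ⟨Γ₁, hΓ₁, hmap⟩ := exists_complement_mod hc hB _ hL1 hL2 hcons hD h2t h3t
    (pt 0) (pt 1) (pt 2) (pt 3) h0 h1 h2 h3
    (pt_ne 0 (by simp) 1 (by simp) (by decide)) (pt_ne 0 (by simp) 2 (by simp) (by decide))
    (pt_ne 1 (by simp) 2 (by simp) (by decide)) (pt_ne 0 (by simp) 3 (by simp) (by decide))
    (pt_ne 1 (by simp) 3 (by simp) (by decide)) (pt_ne 2 (by simp) 3 (by simp) (by decide))
  have hker := ker_le_of_complement_mod hc Γ₁ hΓ₁ hmap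
  have hle : σ.ker ≤ Subgroup.zpowers (u⁻¹ * u') := by
    intro z hz
    exact hker (Subgroup.mem_inf.mpr ⟨hcomm hz, by rw [incl_ker]; exact hz⟩)
  have hdvd := Subgroup.card_dvd_of_le hle
  rw [Nat.card_zpowers] at hdvd
  exact hdvd.trans (orderOf_dvd_of_pow_eq_one (by rw [pow_two]; exact hb2))

end Cfsg.Agent.Lib.Helper35.M12Mult
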