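-- Explicit elements of M22 for its Schur multiplier: two generators, a dihedral group of order 8
-- complementing the elementary abelian group E of order 16 in a Sylow 2-subgroup, conjugators
-- for pairs of elements of E, a Sylow 3-subgroup, and generation by the two generators.
import Cfsg.Agent.Lib.Helper35.M22MData
import Cfsg.Agent.Lib.Helper35.M23MElts
import Cfsg.Agent.Lib.Helper35.M22Aut
import Cfsg.Agent.Lib.Helper35.M23Gen
import Cfsg.Agent.Lib.Helper35.StemB

set_option autoImplicit false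

namespace Cfsg.Agent.Lib.Helper35.M22Elts

open Cfsg Cfsg.Spor Cfsg.Agent.Lib.Helper7.GolayBase Cfsg.Agent.Lib.Helper7.GolayPerm
  Cfsg.Agent.Lib.Helper35.PermTab Cfsg.Agent.Lib.Helper35.M22MData
  Cfsg.Agent.Lib.Helper35.M23Aut Cfsg.Agent.Lib.Helper35.M22Aut

open Cfsg.Agent.Lib.Helper35.M23MData (e1T e2T e3T e4T cT EL)
open Cfsg.Agent.Lib.Helper35.M23MElts (e1 e2 e3 e4 c E e1_spec e2_spec e3_spec e4_spec c_spec
  E_iff E_card E_ofT E_all cinv_tab E_c E_c' E_fpf E_sq)
open Cfsg.Agent.Lib.Helper35.M23Gen (wordT wordP tab_wordP wordP_mem tpow tab_pow orderOf_of_tab)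

theorem rows_rep : ∀ r ∈ M22MData.rows, ∃ g ∈ M24, Rep g r.2.2 := by
  intro r hr
  rw [Cfsg.Agent.Lib.Helper7.M24Main.M24_eq_H]
  exact chk_sound Cfsg.Agent.Lib.Helper7.M24Core.H Cfsg.Agent.Lib.Helper7.M24Data.tabs
    Cfsg.Agent.Lib.Helper7.M24Core.tabs_rep M22MData.rows [] (by simp) rows_chk r hr

theorem tab_getD (g : Equiv.Perm GolayPt) {i : ℕ} (hi : i < 24) :
    (tab g).getD i 0 = idx (g (pt i)) := by
  have h := (rep_tab g).2 (pt i)
  rwa [idx_pt hi] at h

/-- An element of `M23` whose table fixes the index `0` lies in `M22`. -/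
theorem mem_M22_of_tab {g : Equiv.Perm GolayPt} (hg : g ∈ M23) (h0 : (tab g).getD 0 0 = 0) :
    g ∈ M22 := by
  rw [mem_M22]
  have h23 := mem_M23.mp hg
  refine ⟨h23.1, h23.2, ?_⟩
  have h1 := tab_getD g (show 0 < 24 by norm_num)
  rw [h0] at h1
  have h2 : idx (some 0 : GolayPt) = 0 := rfl
  have h3 : pt 0 = (some 0 : GolayPt) := by rw [← h2, pt_idx]
  rw [h3] at h1
  exact idx_injective (h1.symm.trans h2.symm)

/-- Tables of the program fixing the indices 23 and 0 are tables of elements of `M22`. -/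
theorem ofT_spec {t : List Nat} (ht : t ∈ M22MData.rows.map (fun r => r.2.2))
    (h23 : t.getD 23 0 = 23) (h0 : t.getD 0 0 = 0) : ofT t ∈ M22 ∧ tab (ofT t) = t := by
  obtain ⟨r, hr, rfl⟩ := List.mem_map.mp ht
  obtain ⟨g, hg, hrep⟩ := rows_rep r hr
  rw [ofT_eq hrep]
  have htab : tab g = r.2.2 := (eq_tab_of_rep hrep).symm
  refine ⟨?_, htab⟩
  apply mem_M22_of_tab
  · refine mem_M23.mpr ⟨hg, ?_⟩
    have h1 := hrep.2 none
    have h2 : idx (none : GolayPt) = 23 := rfl
    rw [h2, h23] at h1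
    exact idx_injective (h1.symm.trans h2.symm)
  · rw [htab]; exact h0

/-- First generator (an involution). -/
noncomputable def ga : Equiv.Perm GolayPt := ofT gaT
/-- Second generator (of order four). -/
noncomputable def gb : Equiv.Perm GolayPt := ofT gbT
/-- Element of order four of the dihedral group. -/
noncomputable def r : Equiv.Perm GolayPt := ofT rT
/-- Involution of the dihedral group. -/
noncomputable def s : Equiv.Perm GolayPt := ofT sT
/-- Conjugator. -/
noncomputable def g0 : Equiv.Perm GolayPt := ofT g0T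
/-- Conjugator. -/
noncomputable def t1 : Equiv.Perm GolayPt := ofT t1T
/-- Conjugator. -/
noncomputable def t2 : Equiv.Perm GolayPt := ofT t2T
/-- Conjugator. -/
noncomputable def t3 : Equiv.Perm GolayPt := ofT t3T
/-- Conjugator. -/
noncomputable def t4 : Equiv.Perm GolayPt := ofT t4T
/-- Conjugator. -/
noncomputable def t5 : Equiv.Perm GolayPt := ofT t5T
/-- Second generator of the Sylow 3-subgroup. -/
noncomputable def cp : Equiv.Perm GolayPt := ofT cpT

theorem ga_spec : ga ∈ M22 ∧ tab ga = gaT := ofT_spec (by decide +kernel) (by decide) (by decide)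
theorem gb_spec : gb ∈ M22 ∧ tab gb = gbT := ofT_spec (by decide +kernel) (by decide) (by decide)
theorem r_spec : r ∈ M22 ∧ tab r = rT := ofT_spec (by decide +kernel) (by decide) (by decide)
theorem s_spec : s ∈ M22 ∧ tab s = sT := ofT_spec (by decide +kernel) (by decide) (by decide)
theorem g0_spec : g0 ∈ M22 ∧ tab g0 = g0T := ofT_spec (by decide +kernel) (by decide) (by decide)
theorem t1_spec : t1 ∈ M22 ∧ tab t1 = t1T := ofT_spec (by decide +kernel) (by decide) (by decide)
theorem t2_spec : t2 ∈ M22 ∧ tab t2 = t2T := ofT_spec (by decide +kernel) (by decide) (by decide)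
theorem t3_spec : t3 ∈ M22 ∧ tab t3 = t3T := ofT_spec (by decide +kernel) (by decide) (by decide)
theorem t4_spec : t4 ∈ M22 ∧ tab t4 = t4T := ofT_spec (by decide +kernel) (by decide) (by decide)
theorem t5_spec : t5 ∈ M22 ∧ tab t5 = t5T := ofT_spec (by decide +kernel) (by decide) (by decide)
theorem cp_spec : cp ∈ M22 ∧ tab cp = cpT := ofT_spec (by decide +kernel) (by decide) (by decide)

theorem e1_mem : e1 ∈ M22 := mem_M22_of_tab e1_spec.1 (by rw [e1_spec.2]; decide)
theorem e2_mem : e2 ∈ M22 := mem_M22_of_tab e2_spec.1 (by rw [e2_spec.2]; decide)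
theorem e3_mem : e3 ∈ M22 := mem_M22_of_tab e3_spec.1 (by rw [e3_spec.2]; decide)
theorem e4_mem : e4 ∈ M22 := mem_M22_of_tab e4_spec.1 (by rw [e4_spec.2]; decide)
theorem c_mem : c ∈ M22 := mem_M22_of_tab c_spec.1 (by rw [c_spec.2]; decide)

theorem E_le : E ≤ M22 := by
  unfold E
  rw [Subgroup.closure_le]
  rintro g (rfl | rfl | rfl | rfl)
  · exact e1_mem
  · exact e2_mem
  · exact e3_mem
  · exact e4_mem

/-! ### Table facts -/

theorem rinv_tab : tab r⁻¹ = tmul rT (tmul rT rT) :=
  tab_inv_of_mul (h := r * (r * r)) (by rw [tab_mul, tab_mul, r_spec.2])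
    (by rw [r_spec.2]; decide +kernel)

theorem s_sq : s * s = 1 := by
  apply tab_injective; rw [tab_mul, s_spec.2, tab_one]; decide +kernel

theorem s_inv : s⁻¹ = s := inv_eq_of_mul_eq_one_left s_sq

theorem E_r : ∀ e ∈ E, r * e * r⁻¹ ∈ E := E_all _ (fun t ht e he => by
  rw [E_iff, tab_mul, tab_mul, he, r_spec.2, rinv_tab]
  exact (by decide +kernel : ∀ t ∈ EL, tmul (tmul rT t) (tmul rT (tmul rT rT)) ∈ EL) t ht)

theorem E_r' : ∀ e ∈ E, r⁻¹ * e * r ∈ E := E_all _ (fun t ht e he => by
  rw [E_iff, tab_mul, tab_mul, he, r_spec.2, rinv_tab]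
  exact (by decide +kernel : ∀ t ∈ EL, tmul (tmul (tmul rT (tmul rT rT)) t) rT ∈ EL) t ht)

theorem E_s : ∀ e ∈ E, s * e * s⁻¹ ∈ E := E_all _ (fun t ht e he => by
  rw [s_inv, E_iff, tab_mul, tab_mul, he, s_spec.2]
  exact (by decide +kernel : ∀ t ∈ EL, tmul (tmul sT t) sT ∈ EL) t ht)

theorem r_c : (r * c * r⁻¹) * c = c * (r * c * r⁻¹) := by
  apply tab_injective
  simp only [tab_mul, r_spec.2, c_spec.2, rinv_tab]; decide +kernel

theorem r_c' : (r⁻¹ * c * r) * c = c * (r⁻¹ * c * r) := by
  apply tab_injective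
  simp only [tab_mul, r_spec.2, c_spec.2, rinv_tab]; decide +kernel

theorem s_r : s * r * s⁻¹ = r⁻¹ := by
  apply tab_injective
  rw [s_inv, tab_mul, tab_mul, s_spec.2, r_spec.2, rinv_tab]; decide +kernel

theorem r_pow4 : r ^ 4 = 1 := by
  apply tab_injective
  rw [tab_pow, r_spec.2, tab_one]; decide +kernel

theorem r_sq_ne : r ^ 2 ≠ 1 := by
  intro h
  have h1 := congrArg tab h
  rw [tab_pow, r_spec.2, tab_one] at h1
  revert h1; decide +kernel

/-! ### The dihedral group and the Sylow 2-subgroup -/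

/-- The dihedral group of order 8. -/
noncomputable def D : Subgroup (Equiv.Perm GolayPt) := Subgroup.closure {r, s}

theorem D_eq : D = Subgroup.closure ({r, r⁻¹, s} : Set (Equiv.Perm GolayPt)) := by
  unfold D
  apply le_antisymm
  · apply Subgroup.closure_mono
    rintro g (rfl | rfl) <;> simp
  · rw [Subgroup.closure_le]
    rintro g (rfl | rfl | rfl)
    · exact Subgroup.subset_closure (by simp)
    · exact Subgroup.inv_mem _ (Subgroup.subset_closure (by simp))
    · exact Subgroup.subset_closure (by simp)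

theorem D_gens : ∀ g ∈ ({r, r⁻¹, s} : Set (Equiv.Perm GolayPt)),
    tab g ∈ [rT, tmul rT (tmul rT rT), sT] := by
  rintro g (rfl | rfl | rfl)
  · rw [r_spec.2]; simp
  · rw [rinv_tab]; simp
  · rw [s_spec.2]; simp

theorem D_gens' : ∀ t ∈ [rT, tmul rT (tmul rT rT), sT],
    ∃ g ∈ ({r, r⁻¹, s} : Set (Equiv.Perm GolayPt)), tab g = t := by
  intro t ht
  simp only [List.mem_cons, List.not_mem_nil, or_false] at ht
  rcases ht with rfl | rfl | rfl
  · exact ⟨r, by simp, r_spec.2⟩
  · exact ⟨r⁻¹, by simp, rinv_tab⟩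
  · exact ⟨s, by simp, s_spec.2⟩

theorem D8L_gen : genB [rT, tmul rT (tmul rT rT), sT] D8L = true := by decide +kernel

theorem D_iff (h : Equiv.Perm GolayPt) : h ∈ D ↔ tab h ∈ D8L := by
  rw [D_eq]
  exact mem_closure_iff _ [rT, tmul rT (tmul rT rT), sT] D8L D_gens D_gens' (by decide +kernel)
    (by decide +kernel) (by decide +kernel) D8L_gen h

theorem D_card : Nat.card D = 8 := by
  rw [D_eq]
  exact card_closure _ [rT, tmul rT (tmul rT rT), sT] D8L D_gens D_gens' (by decide +kernel)
    (by decide +kernel) (by decide +kernel) D8L_gen (by decide +kernel)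

theorem D_le : D ≤ M22 := by
  unfold D
  rw [Subgroup.closure_le]
  rintro g (rfl | rfl)
  · exact r_spec.1
  · exact s_spec.1

theorem E_inf_D : E ⊓ D = ⊥ := by
  rw [eq_bot_iff]
  rintro x ⟨hE, hD⟩
  rw [Subgroup.mem_bot]
  apply tab_injective
  rw [tab_one]
  exact (by decide +kernel : ∀ t ∈ EL, t ∈ D8L → t = idT) _ ((E_iff x).mp hE) ((D_iff x).mp hD)

theorem D_le_normalizer : D ≤ Subgroup.normalizer (E : Set (Equiv.Perm GolayPt)) := by
  unfold D
  rw [Subgroup.closure_le]
  rintro g (rfl | rfl)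
  · rw [SetLike.mem_coe, Subgroup.mem_normalizer_iff]
    intro h
    refine ⟨E_r h, fun hh => ?_⟩
    have := E_r' _ hh
    have e : r⁻¹ * (r * h * r⁻¹) * r = h := by group
    rwa [e] at this
  · rw [SetLike.mem_coe, Subgroup.mem_normalizer_iff]
    intro h
    refine ⟨E_s h, fun hh => ?_⟩
    have := E_s _ hh
    rw [s_inv] at this
    have e : s * (s * h * s⁻¹) * s = (s * s) * h * (s⁻¹ * s) := by group
    rw [s_inv] at e
    rwa [e, s_sq, one_mul, mul_one] at this

theorem card_P : Nat.card ↥(E ⊔ D) = 128 := by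
  rw [StemB.card_sup_of_le_normalizer D_le_normalizer E_inf_D, E_card, D_card]

theorem P_le : E ⊔ D ≤ M22 := sup_le E_le D_le

/-! ### Fusion -/

/-- The image of `s` under the conjugator. -/
noncomputable def vs : Equiv.Perm GolayPt := ofT vsT
/-- The image of `r ^ 2` under the conjugator. -/
noncomputable def vr : Equiv.Perm GolayPt := ofT vrT

theorem vs_spec : vs ∈ E ∧ tab vs = vsT := E_ofT (by decide +kernel)
theorem vr_spec : vr ∈ E ∧ tab vr = vrT := E_ofT (by decide +kernel)

theorem g0_s : g0 * s = vs * g0 := by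
  apply tab_injective
  rw [tab_mul, tab_mul, g0_spec.2, s_spec.2, vs_spec.2]; decide +kernel

theorem g0_r2 : g0 * (r * r) = vr * g0 := by
  apply tab_injective
  simp only [tab_mul, g0_spec.2, r_spec.2, vr_spec.2]; decide +kernel

theorem t1_e1 : t1 * e1 = e2 * t1 := by
  apply tab_injective
  simp only [tab_mul, t1_spec.2, e1_spec.2, e2_spec.2]; decide +kernel
theorem t1_e3 : t1 * e3 = e4 * t1 := by
  apply tab_injective
  simp only [tab_mul, t1_spec.2, e3_spec.2, e4_spec.2]; decide +kernel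
theorem t2_e1 : t2 * e1 = e1 * t2 := by
  apply tab_injective
  simp only [tab_mul, t2_spec.2, e1_spec.2]; decide +kernel
theorem t2_e3 : t2 * e3 = (e3 * e2) * t2 := by
  apply tab_injective
  simp only [tab_mul, t2_spec.2, e3_spec.2, e2_spec.2]; decide +kernel
theorem t3_e1 : t3 * e1 = e1 * t3 := by
  apply tab_injective
  simp only [tab_mul, t3_spec.2, e1_spec.2]; decide +kernel
theorem t3_e3 : t3 * e3 = (e3 * e4) * t3 := by
  apply tab_injective
  simp only [tab_mul, t3_spec.2, e3_spec.2, e4_spec.2]; decide +kernel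
theorem t4_e1 : t4 * e1 = e2 * t4 := by
  apply tab_injective
  simp only [tab_mul, t4_spec.2, e1_spec.2, e2_spec.2]; decide +kernel
theorem t4_e3 : t4 * e3 = (e4 * e3) * t4 := by
  apply tab_injective
  simp only [tab_mul, t4_spec.2, e3_spec.2, e4_spec.2]; decide +kernel
theorem t5_e1 : t5 * e1 = (e1 * e4) * t5 := by
  apply tab_injective
  simp only [tab_mul, t5_spec.2, e1_spec.2, e4_spec.2]; decide +kernel
theorem t5_e3 : t5 * e3 = e3 * t5 := by
  apply tab_injective
  simp only [tab_mul, t5_spec.2, e3_spec.2]; decide +kernel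

/-! ### Commutator elements of `E` -/

/-- `[e1, s]`. -/
noncomputable def u1 : Equiv.Perm GolayPt := e1 * (s * e1 * s⁻¹)
/-- `[e2, s]`. -/
noncomputable def u2 : Equiv.Perm GolayPt := e2 * (s * e2 * s⁻¹)
/-- `[e1, r s]`. -/
noncomputable def u3 : Equiv.Perm GolayPt := e1 * ((r * s) * e1 * (r * s)⁻¹)

theorem u1_tab : tab u1 = u1T := by
  unfold u1
  rw [s_inv]
  simp only [tab_mul, e1_spec.2, s_spec.2]; decide +kernel

theorem u2_tab : tab u2 = u2T := by
  unfold u2
  rw [s_inv]
  simp only [tab_mul, e2_spec.2, s_spec.2]; decide +kernel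

theorem u3_tab : tab u3 = u3T := by
  unfold u3
  rw [mul_inv_rev, s_inv]
  simp only [tab_mul, e1_spec.2, s_spec.2, r_spec.2, rinv_tab]; decide +kernel

/-- The subgroup generated by the commutator elements. -/
noncomputable def U : Subgroup (Equiv.Perm GolayPt) := Subgroup.closure {u1, u2, u3}

theorem U_gens : ∀ g ∈ ({u1, u2, u3} : Set (Equiv.Perm GolayPt)), tab g ∈ [u1T, u2T, u3T] := by
  rintro g (rfl | rfl | rfl)
  · rw [u1_tab]; simp
  · rw [u2_tab]; simp
  · rw [u3_tab]; simp

theorem U_gens' : ∀ t ∈ [u1T, u2T, u3T],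
    ∃ g ∈ ({u1, u2, u3} : Set (Equiv.Perm GolayPt)), tab g = t := by
  intro t ht
  simp only [List.mem_cons, List.not_mem_nil, or_false] at ht
  rcases ht with rfl | rfl | rfl
  · exact ⟨u1, by simp, u1_tab⟩
  · exact ⟨u2, by simp, u2_tab⟩
  · exact ⟨u3, by simp, u3_tab⟩

theorem U_iff (h : Equiv.Perm GolayPt) : h ∈ U ↔ tab h ∈ UL :=
  mem_closure_iff _ [u1T, u2T, u3T] UL U_gens U_gens' (by decide +kernel) (by decide +kernel)
    (by decide +kernel) (by decide +kernel) h

theorem E_cov : ∀ e ∈ E, e ∈ U ∨ e * e1 ∈ U := E_all _ (fun t ht e he => by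
  rw [U_iff, U_iff, tab_mul, he, e1_spec.2]
  exact (by decide +kernel : ∀ t ∈ EL, t ∈ UL ∨ tmul t e1T ∈ UL) t ht)

/-! ### The Sylow 3-subgroup -/

theorem c_cp : c * cp = cp * c := by
  apply tab_injective
  rw [tab_mul, tab_mul, c_spec.2, cp_spec.2]; decide +kernel

theorem c_order : orderOf c = 3 :=
  orderOf_of_tab Nat.prime_three (by rw [c_spec.2]; decide +kernel) (by rw [c_spec.2]; decide +kernel)

theorem cp_order : orderOf cp = 3 :=
  orderOf_of_tab Nat.prime_three (by rw [cp_spec.2]; decide +kernel)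
    (by rw [cp_spec.2]; decide +kernel)

theorem cp_ne : ∀ i < 3, cp ≠ c ^ i := by
  intro i hi h
  have h1 := congrArg tab h
  rw [tab_pow, cp_spec.2, c_spec.2] at h1
  interval_cases i <;> revert h1 <;> decide +kernel

/-! ### Generation -/

/-- The group generated by the two generators. -/
noncomputable def K : Subgroup (Equiv.Perm GolayPt) := Subgroup.closure {ga, gb}

theorem K_le : K ≤ M22 := by
  unfold K
  rw [Subgroup.closure_le]
  rintro g (rfl | rfl)
  · exact ga_spec.1
  · exact gb_spec.1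

theorem mem_K {w : List Bool} {g : Equiv.Perm GolayPt} {gT : List Nat} (hg : tab g = gT)
    (h : wordT w gaT gbT = gT) : g ∈ K := by
  have e : g = wordP w ga gb := by
    apply tab_injective
    rw [tab_wordP, ga_spec.2, gb_spec.2, h, hg]
  rw [e]; exact wordP_mem _ _ _

theorem gen_ab : K = M22 := by
  have hfin : Finite M22 := inferInstance
  apply Subgroup.eq_of_le_of_card_ge K_le
  rw [card_M22]
  have hc : c ∈ K := mem_K (w := x_c) c_spec.2 (by decide +kernel)
  have hcp : cp ∈ K := mem_K (w := x_cp) cp_spec.2 (by decide +kernel)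
  have h128 : 128 ∣ Nat.card K := by
    have hle : E ⊔ D ≤ K := by
      apply sup_le
      · unfold E
        rw [Subgroup.closure_le]
        rintro g (rfl | rfl | rfl | rfl)
        · exact mem_K (w := x_e1) e1_spec.2 (by decide +kernel)
        · exact mem_K (w := x_e2) e2_spec.2 (by decide +kernel)
        · exact mem_K (w := x_e3) e3_spec.2 (by decide +kernel)
        · exact mem_K (w := x_e4) e4_spec.2 (by decide +kernel)
      · unfold D
        rw [Subgroup.closure_le]
        rintro g (rfl | rfl)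
        · exact mem_K (w := x_r) r_spec.2 (by decide +kernel)
        · exact mem_K (w := x_s) s_spec.2 (by decide +kernel)
    have h := Subgroup.card_dvd_of_le hle
    rwa [card_P] at h
  have h3 : 3 ∣ Nat.card K := by
    have h := orderOf_dvd_natCard (⟨c, hc⟩ : K)
    rwa [Subgroup.orderOf_mk, c_order] at h
  have h5 : 5 ∣ Nat.card K := by
    have hm : ga * gb * gb ∈ K := K.mul_mem (K.mul_mem (Subgroup.subset_closure (by simp))
      (Subgroup.subset_closure (by simp))) (Subgroup.subset_closure (by simp))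
    have ho : orderOf (ga * gb * gb) = 5 :=
      orderOf_of_tab Nat.prime_five
        (by simp only [tab_mul, ga_spec.2, gb_spec.2]; decide +kernel)
        (by simp only [tab_mul, ga_spec.2, gb_spec.2]; decide +kernel)
    have h := orderOf_dvd_natCard (⟨_, hm⟩ : K)
    rwa [Subgroup.orderOf_mk, ho] at h
  have h7 : 7 ∣ Nat.card K := by
    have hm : wordP x_o7 ga gb ∈ K := wordP_mem _ _ _
    have ho : orderOf (wordP x_o7 ga gb) = 7 :=
      orderOf_of_tab (by norm_num)
        (by rw [tab_wordP, ga_spec.2, gb_spec.2]; decide +kernel)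
        (by rw [tab_wordP, ga_spec.2, gb_spec.2]; decide +kernel)
    have h := orderOf_dvd_natCard (⟨_, hm⟩ : K)
    rwa [Subgroup.orderOf_mk, ho] at h
  have h11 : 11 ∣ Nat.card K := by
    have hm : ga * gb ∈ K := K.mul_mem (Subgroup.subset_closure (by simp))
      (Subgroup.subset_closure (by simp))
    have ho : orderOf (ga * gb) = 11 :=
      orderOf_of_tab (by norm_num)
        (by simp only [tab_mul, ga_spec.2, gb_spec.2]; decide +kernel)
        (by simp only [tab_mul, ga_spec.2, gb_spec.2]; decide +kernel)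
    have h := orderOf_dvd_natCard (⟨_, hm⟩ : K)
    rwa [Subgroup.orderOf_mk, ho] at h
  have h9 : 9 ∣ Nat.card K := by
    have hle : Subgroup.closure ({c, c⁻¹, cp, cp⁻¹} : Set (Equiv.Perm GolayPt)) ≤ K := by
      rw [Subgroup.closure_le]
      rintro g (rfl | rfl | rfl | rfl)
      · exact hc
      · exact K.inv_mem hc
      · exact hcp
      · exact K.inv_mem hcp
    have h := Subgroup.card_dvd_of_le hle
    have hcard : Nat.card (Subgroup.closure ({c, c⁻¹, cp, cp⁻¹} : Set (Equiv.Perm GolayPt))) = 9 := by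
      have cpinv : tab cp⁻¹ = tmul cpT cpT :=
        tab_inv_of_mul (h := cp * cp) (by rw [tab_mul, cp_spec.2])
          (by rw [cp_spec.2]; decide +kernel)
      refine card_closure _ [cT, tmul cT cT, cpT, tmul cpT cpT] Q9L ?_ ?_ (by decide +kernel)
        (by decide +kernel) (by decide +kernel) (by decide +kernel) (by decide +kernel)
      · rintro g (rfl | rfl | rfl | rfl)
        · rw [c_spec.2]; simp
        · rw [cinv_tab]; simp
        · rw [cp_spec.2]; simp
        · rw [cpinv]; simp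
      · intro t ht
        simp only [List.mem_cons, List.not_mem_nil, or_false] at ht
        rcases ht with rfl | rfl | rfl | rfl
        · exact ⟨c, by simp, c_spec.2⟩
        · exact ⟨c⁻¹, by simp, cinv_tab⟩
        · exact ⟨cp, by simp, cp_spec.2⟩
        · exact ⟨cp⁻¹, by simp, cpinv⟩
    rwa [hcard] at h
  have h1 : 128 * 9 ∣ Nat.card K :=
    Nat.Coprime.mul_dvd_of_dvd_of_dvd (by norm_num) h128 h9
  have h2 : 128 * 9 * 5 ∣ Nat.card K :=
    Nat.Coprime.mul_dvd_of_dvd_of_dvd (by norm_num) h1 h5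
  have h3' : 128 * 9 * 5 * 7 ∣ Nat.card K :=
    Nat.Coprime.mul_dvd_of_dvd_of_dvd (by norm_num) h2 h7
  have h4 : 128 * 9 * 5 * 7 * 11 ∣ Nat.card K :=
    Nat.Coprime.mul_dvd_of_dvd_of_dvd (by norm_num) h3' h11
  have hpos : 0 < Nat.card K := Nat.card_pos
  exact Nat.le_of_dvd hpos (by norm_num at h4 ⊢; exact h4)

end Cfsg.Agent.Lib.Helper35.M22Elts
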