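-- Explicit elements of the pointwise stabiliser `L` of three points in M24 (a group isomorphic
-- to PSL(3, 4)) for its Schur multiplier: an elementary abelian group `E` of order 16 with a
-- complement `V` of order four in a Sylow 2-subgroup, a basis of `E` adapted to an element of
-- order three, conjugators, a Sylow 3-subgroup, and an element of M24 normalising `L`.
import Cfsg.Agent.Lib.Helper35.M21Data
import Cfsg.Agent.Lib.Helper35.M22Elts
import Cfsg.Agent.Lib.Helper7.M24Main

set_option autoImplicit false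

namespace Cfsg.Agent.Lib.Helper35.M21Elts

open Cfsg Cfsg.Spor Cfsg.Agent.Lib.Helper7.GolayBase Cfsg.Agent.Lib.Helper7.GolayPerm
  Cfsg.Agent.Lib.Helper35.PermTab Cfsg.Agent.Lib.Helper35.M21Data
  Cfsg.Agent.Lib.Helper35.M23Aut Cfsg.Agent.Lib.Helper35.M22Aut
open Cfsg.Agent.Lib.Helper7.ChainGen (FixL)
open Cfsg.Agent.Lib.Helper35.M22MData (gaT gbT)
open Cfsg.Agent.Lib.Helper35.M23MData (e1T e2T e3T e4T cT EL)
open Cfsg.Agent.Lib.Helper35.M23MElts (e1 e2 e3 e4 c E e1_spec e2_spec e3_spec e4_spec c_spec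
  E_iff E_card E_ofT E_all cinv_tab E_c E_c' E_fpf E_sq)
open Cfsg.Agent.Lib.Helper35.M23Gen (wordT wordP tab_wordP wordP_mem tpow tab_pow orderOf_of_tab)
open Cfsg.Agent.Lib.Helper35.M22Elts (ga gb ga_spec gb_spec K K_le tab_getD e1_mem e2_mem
  e3_mem e4_mem c_mem c_order)

/-- The pointwise stabiliser of three points in `M24`. -/
abbrev L : Subgroup (Equiv.Perm GolayPt) := M24 ⊓ FixL [1, 0, 23]

theorem pt0 : pt 0 = (some 0 : GolayPt) := by
  have h2 : idx (some 0 : GolayPt) = 0 := rfl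
  rw [← h2, pt_idx]

theorem pt23 : pt 23 = (none : GolayPt) := rfl

theorem L_le : L ≤ M22 := by
  intro g hg
  rw [mem_M22]
  refine ⟨hg.1, ?_, ?_⟩
  · have h := hg.2 23 (by simp)
    rw [pt23] at h
    exact h
  · have h := hg.2 0 (by simp)
    rw [pt0] at h
    exact h

/-- An element of `M22` whose table fixes the index `1` lies in `L`. -/
theorem mem_L_of_tab {g : Equiv.Perm GolayPt} (hg : g ∈ M22) (h1 : (tab g).getD 1 0 = 1) :
    g ∈ L := by
  have h := mem_M22.mp hg
  refine ⟨h.1, ?_⟩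
  intro f hf
  simp only [List.mem_cons, List.not_mem_nil, or_false] at hf
  rcases hf with rfl | rfl | rfl
  · have h2 := tab_getD g (show 1 < 24 by norm_num)
    rw [h1] at h2
    have h3 := pt_idx (g (pt 1))
    rw [← h2] at h3
    exact h3.symm
  · rw [pt0]; exact h.2.2
  · rw [pt23]; exact h.2.1

theorem card_L : Nat.card ↥L = 20160 := Cfsg.Agent.Lib.Helper7.M24Main.card3

/-! ### The elements -/

/-- The involution generating the complement together with its conjugate. -/
noncomputable def s : Equiv.Perm GolayPt := wordP y_s ga gb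
/-- Conjugator for the fusion of the complement into `E`. -/
noncomputable def g0 : Equiv.Perm GolayPt := wordP y_g0 ga gb
/-- Conjugator. -/
noncomputable def t2 : Equiv.Perm GolayPt := wordP y_t2 ga gb
/-- Conjugator. -/
noncomputable def t3 : Equiv.Perm GolayPt := wordP y_t3 ga gb
/-- Second generator of a Sylow 3-subgroup. -/
noncomputable def cp : Equiv.Perm GolayPt := wordP y_cp ga gb

theorem word_mem (w : List Bool) : wordP w ga gb ∈ M22 := K_le (wordP_mem w ga gb)

theorem s_tab : tab s = lsT := by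
  unfold s; rw [tab_wordP, ga_spec.2, gb_spec.2]; decide +kernel
theorem g0_tab : tab g0 = lg0T := by
  unfold g0; rw [tab_wordP, ga_spec.2, gb_spec.2]; decide +kernel
theorem t2_tab : tab t2 = lt2T := by
  unfold t2; rw [tab_wordP, ga_spec.2, gb_spec.2]; decide +kernel
theorem t3_tab : tab t3 = lt3T := by
  unfold t3; rw [tab_wordP, ga_spec.2, gb_spec.2]; decide +kernel
theorem cp_tab : tab cp = lcpT := by
  unfold cp; rw [tab_wordP, ga_spec.2, gb_spec.2]; decide +kernel

theorem s_mem : s ∈ L := mem_L_of_tab (word_mem _) (by rw [s_tab]; decide)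
theorem g0_mem : g0 ∈ L := mem_L_of_tab (word_mem _) (by rw [g0_tab]; decide)
theorem t2_mem : t2 ∈ L := mem_L_of_tab (word_mem _) (by rw [t2_tab]; decide)
theorem t3_mem : t3 ∈ L := mem_L_of_tab (word_mem _) (by rw [t3_tab]; decide)
theorem cp_mem : cp ∈ L := mem_L_of_tab (word_mem _) (by rw [cp_tab]; decide)
theorem c_memL : c ∈ L := mem_L_of_tab c_mem (by rw [c_spec.2]; decide)

theorem E_leL : E ≤ L := by
  unfold E
  rw [Subgroup.closure_le]
  rintro g (rfl | rfl | rfl | rfl)
  · exact mem_L_of_tab e1_mem (by rw [e1_spec.2]; decide)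
  · exact mem_L_of_tab e2_mem (by rw [e2_spec.2]; decide)
  · exact mem_L_of_tab e3_mem (by rw [e3_spec.2]; decide)
  · exact mem_L_of_tab e4_mem (by rw [e4_spec.2]; decide)

theorem e1_E : e1 ∈ E := Subgroup.subset_closure (by simp)
theorem e2_E : e2 ∈ E := Subgroup.subset_closure (by simp)
theorem e3_E : e3 ∈ E := Subgroup.subset_closure (by simp)
theorem e4_E : e4 ∈ E := Subgroup.subset_closure (by simp)

/-! ### The adapted basis -/

/-- Adapted basis of `E`. -/
noncomputable def b1 : Equiv.Perm GolayPt := e2 * e3 * e4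
/-- Adapted basis of `E`. -/
noncomputable def b2 : Equiv.Perm GolayPt := e1 * e2
/-- Adapted basis of `E`. -/
noncomputable def b3 : Equiv.Perm GolayPt := e2 * e4
/-- Adapted basis of `E`. -/
noncomputable def b4 : Equiv.Perm GolayPt := e1 * e3

theorem b1_tab : tab b1 = tmul (tmul e2T e3T) e4T := by
  unfold b1; rw [tab_mul, tab_mul, e2_spec.2, e3_spec.2, e4_spec.2]
theorem b2_tab : tab b2 = tmul e1T e2T := by
  unfold b2; rw [tab_mul, e1_spec.2, e2_spec.2]
theorem b3_tab : tab b3 = tmul e2T e4T := by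
  unfold b3; rw [tab_mul, e2_spec.2, e4_spec.2]
theorem b4_tab : tab b4 = tmul e1T e3T := by
  unfold b4; rw [tab_mul, e1_spec.2, e3_spec.2]

theorem E_eq : E = Subgroup.closure ({b1, b2, b3, b4} : Set (Equiv.Perm GolayPt)) := by
  apply le_antisymm
  · have h1 : b1 ∈ Subgroup.closure ({b1, b2, b3, b4} : Set (Equiv.Perm GolayPt)) :=
      Subgroup.subset_closure (by simp)
    have h2 : b2 ∈ Subgroup.closure ({b1, b2, b3, b4} : Set (Equiv.Perm GolayPt)) :=
      Subgroup.subset_closure (by simp)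
    have h3 : b3 ∈ Subgroup.closure ({b1, b2, b3, b4} : Set (Equiv.Perm GolayPt)) :=
      Subgroup.subset_closure (by simp)
    have h4 : b4 ∈ Subgroup.closure ({b1, b2, b3, b4} : Set (Equiv.Perm GolayPt)) :=
      Subgroup.subset_closure (by simp)
    have x1 : e1 = b1 * b3 * b4 := by
      apply tab_injective
      simp only [tab_mul, b1_tab, b3_tab, b4_tab, e1_spec.2]; decide +kernel
    have x2 : e2 = b1 * b2 * b3 * b4 := by
      apply tab_injective
      simp only [tab_mul, b1_tab, b2_tab, b3_tab, b4_tab, e2_spec.2]; decide +kernel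
    have x3 : e3 = b1 * b3 := by
      apply tab_injective
      simp only [tab_mul, b1_tab, b3_tab, e3_spec.2]; decide +kernel
    have x4 : e4 = b1 * b2 * b4 := by
      apply tab_injective
      simp only [tab_mul, b1_tab, b2_tab, b4_tab, e4_spec.2]; decide +kernel
    unfold E
    rw [Subgroup.closure_le]
    rintro g (rfl | rfl | rfl | rfl)
    · rw [SetLike.mem_coe, x1]
      exact Subgroup.mul_mem _ (Subgroup.mul_mem _ h1 h3) h4
    · rw [SetLike.mem_coe, x2]
      exact Subgroup.mul_mem _ (Subgroup.mul_mem _ (Subgroup.mul_mem _ h1 h2) h3) h4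
    · rw [SetLike.mem_coe, x3]
      exact Subgroup.mul_mem _ h1 h3
    · rw [SetLike.mem_coe, x4]
      exact Subgroup.mul_mem _ (Subgroup.mul_mem _ h1 h2) h4
  · rw [Subgroup.closure_le]
    rintro g (rfl | rfl | rfl | rfl)
    · exact E.mul_mem (E.mul_mem e2_E e3_E) e4_E
    · exact E.mul_mem e1_E e2_E
    · exact E.mul_mem e2_E e4_E
    · exact E.mul_mem e1_E e3_E

theorem c_b1 : c * b1 = b2 * c := by
  apply tab_injective
  simp only [tab_mul, b1_tab, b2_tab, c_spec.2]; decide +kernel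

theorem c_b3 : c * b3 = (b3 * b4) * c := by
  apply tab_injective
  simp only [tab_mul, b3_tab, b4_tab, c_spec.2]; decide +kernel

theorem c_b4 : c * b4 = b3 * c := by
  apply tab_injective
  simp only [tab_mul, b3_tab, b4_tab, c_spec.2]; decide +kernel

theorem t2_b2 : t2 * b2 = b2 * t2 := by
  apply tab_injective
  simp only [tab_mul, b2_tab, t2_tab]; decide +kernel

theorem t2_b3 : t2 * b3 = (b3 * b1) * t2 := by
  apply tab_injective
  simp only [tab_mul, b1_tab, b3_tab, t2_tab]; decide +kernel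

theorem t3_b1 : t3 * b1 = (b1 * b3) * t3 := by
  apply tab_injective
  simp only [tab_mul, b1_tab, b3_tab, t3_tab]; decide +kernel

theorem t3_b4 : t3 * b4 = b4 * t3 := by
  apply tab_injective
  simp only [tab_mul, b4_tab, t3_tab]; decide +kernel

/-! ### The complement -/

theorem s_sq : s * s = 1 := by
  apply tab_injective; rw [tab_mul, s_tab, tab_one]; decide +kernel

theorem s_inv : s⁻¹ = s := inv_eq_of_mul_eq_one_left s_sq

theorem E_s : ∀ e ∈ E, s * e * s⁻¹ ∈ E := E_all _ (fun t ht e he => by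
  rw [s_inv, E_iff, tab_mul, tab_mul, he, s_tab]
  exact (by decide +kernel : ∀ t ∈ EL, tmul (tmul lsT t) lsT ∈ EL) t ht)

theorem sp_tab : tab (c * s * c⁻¹) = lspT := by
  rw [tab_mul, tab_mul, c_spec.2, s_tab, cinv_tab]; decide +kernel

theorem sp_sq : (c * s * c⁻¹) * (c * s * c⁻¹) = 1 := by
  apply tab_injective; rw [tab_mul, sp_tab, tab_one]; decide +kernel

theorem E_sp : ∀ e ∈ E, (c * s * c⁻¹) * e * (c * s * c⁻¹)⁻¹ ∈ E := by
  intro e he
  have h := E_c _ (E_s _ (E_c' e he))
  have x : (c * s * c⁻¹) * e * (c * s * c⁻¹)⁻¹ = c * (s * (c⁻¹ * e * c) * s⁻¹) * c⁻¹ := by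
    group
  rw [x]; exact h

/-- The complement of `E` in a Sylow 2-subgroup. -/
noncomputable def V : Subgroup (Equiv.Perm GolayPt) := Subgroup.closure {s, c * s * c⁻¹}

theorem V_gens : ∀ g ∈ ({s, c * s * c⁻¹} : Set (Equiv.Perm GolayPt)), tab g ∈ [lsT, lspT] := by
  rintro g (rfl | rfl)
  · rw [s_tab]; simp
  · rw [sp_tab]; simp

theorem V_gens' : ∀ t ∈ [lsT, lspT],
    ∃ g ∈ ({s, c * s * c⁻¹} : Set (Equiv.Perm GolayPt)), tab g = t := by
  intro t ht
  simp only [List.mem_cons, List.not_mem_nil, or_false] at ht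
  rcases ht with rfl | rfl
  · exact ⟨s, by simp, s_tab⟩
  · exact ⟨c * s * c⁻¹, by simp, sp_tab⟩

theorem V_iff (h : Equiv.Perm GolayPt) : h ∈ V ↔ tab h ∈ V4L :=
  mem_closure_iff _ [lsT, lspT] V4L V_gens V_gens' (by decide +kernel) (by decide +kernel)
    (by decide +kernel) (by decide +kernel) h

theorem V_card : Nat.card V = 4 :=
  card_closure _ [lsT, lspT] V4L V_gens V_gens' (by decide +kernel) (by decide +kernel)
    (by decide +kernel) (by decide +kernel) (by decide +kernel)

theorem E_inf_V : E ⊓ V = ⊥ := by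
  rw [eq_bot_iff]
  rintro x ⟨hE, hV⟩
  rw [Subgroup.mem_bot]
  apply tab_injective
  rw [tab_one]
  exact (by decide +kernel : ∀ t ∈ EL, t ∈ V4L → t = idT) _ ((E_iff x).mp hE) ((V_iff x).mp hV)

/-- An involution mapping `E` into itself normalises `E`. -/
theorem mem_normalizer_of_sq {g : Equiv.Perm GolayPt} (hg : g * g = 1)
    (h : ∀ e ∈ E, g * e * g⁻¹ ∈ E) : g ∈ Subgroup.normalizer (E : Set (Equiv.Perm GolayPt)) := by
  have hi : g⁻¹ = g := inv_eq_of_mul_eq_one_left hg
  rw [Subgroup.mem_normalizer_iff]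
  intro x
  refine ⟨h x, fun hh => ?_⟩
  have h1 := h _ hh
  rw [hi] at h1
  have e : g * (g * x * g) * g = (g * g) * x * (g * g) := by group
  rwa [e, hg, one_mul, mul_one] at h1

theorem V_le_normalizer : V ≤ Subgroup.normalizer (E : Set (Equiv.Perm GolayPt)) := by
  unfold V
  rw [Subgroup.closure_le]
  rintro g (rfl | rfl)
  · exact mem_normalizer_of_sq s_sq E_s
  · exact mem_normalizer_of_sq sp_sq E_sp

theorem card_P : Nat.card ↥(E ⊔ V) = 64 := by
  rw [StemB.card_sup_of_le_normalizer V_le_normalizer E_inf_V, E_card, V_card]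

theorem V_leL : V ≤ L := by
  unfold V
  rw [Subgroup.closure_le]
  rintro g (rfl | rfl)
  · exact s_mem
  · exact L.mul_mem (L.mul_mem c_memL s_mem) (L.inv_mem c_memL)

theorem P_le : E ⊔ V ≤ L := sup_le E_leL V_leL

/-! ### Fusion -/

/-- The conjugate of `s` in `E`. -/
noncomputable def vf1 : Equiv.Perm GolayPt := ofT lvf1T
/-- The conjugate of `c s c⁻¹` in `E`. -/
noncomputable def vf2 : Equiv.Perm GolayPt := ofT lvf2T

theorem vf1_spec : vf1 ∈ E ∧ tab vf1 = lvf1T := E_ofT (by decide +kernel)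
theorem vf2_spec : vf2 ∈ E ∧ tab vf2 = lvf2T := E_ofT (by decide +kernel)

theorem g0_s : g0 * s = vf1 * g0 := by
  apply tab_injective
  rw [tab_mul, tab_mul, g0_tab, s_tab, vf1_spec.2]; decide +kernel

theorem g0_cs : g0 * (c * s) = vf2 * (g0 * c) := by
  apply tab_injective
  simp only [tab_mul, g0_tab, s_tab, c_spec.2, vf2_spec.2]; decide +kernel

/-! ### Commutator elements of `E` -/

/-- `[e1, s]`. -/
noncomputable def u1 : Equiv.Perm GolayPt := e1 * (s * e1 * s⁻¹)
/-- `[e3, s]`. -/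
noncomputable def u2 : Equiv.Perm GolayPt := e3 * (s * e3 * s⁻¹)

theorem u1_tab : tab u1 = lu1T := by
  unfold u1
  rw [s_inv]
  simp only [tab_mul, e1_spec.2, s_tab]; decide +kernel

theorem u2_tab : tab u2 = lu2T := by
  unfold u2
  rw [s_inv]
  simp only [tab_mul, e3_spec.2, s_tab]; decide +kernel

/-- The subgroup generated by the commutator elements. -/
noncomputable def U : Subgroup (Equiv.Perm GolayPt) := Subgroup.closure {u1, u2}

theorem U_gens : ∀ g ∈ ({u1, u2} : Set (Equiv.Perm GolayPt)), tab g ∈ [lu1T, lu2T] := by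
  rintro g (rfl | rfl)
  · rw [u1_tab]; simp
  · rw [u2_tab]; simp

theorem U_gens' : ∀ t ∈ [lu1T, lu2T],
    ∃ g ∈ ({u1, u2} : Set (Equiv.Perm GolayPt)), tab g = t := by
  intro t ht
  simp only [List.mem_cons, List.not_mem_nil, or_false] at ht
  rcases ht with rfl | rfl
  · exact ⟨u1, by simp, u1_tab⟩
  · exact ⟨u2, by simp, u2_tab⟩

theorem U_iff (h : Equiv.Perm GolayPt) : h ∈ U ↔ tab h ∈ U4L :=
  mem_closure_iff _ [lu1T, lu2T] U4L U_gens U_gens' (by decide +kernel) (by decide +kernel)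
    (by decide +kernel) (by decide +kernel) h

theorem E_cov : ∀ e ∈ E, e ∈ U ∨ e * e1 ∈ U ∨ e * e3 ∈ U ∨ e * (e1 * e3) ∈ U :=
  E_all _ (fun t ht e he => by
    rw [U_iff, U_iff, U_iff, U_iff, tab_mul, tab_mul, tab_mul, tab_mul, he, e1_spec.2, e3_spec.2]
    exact (by decide +kernel : ∀ t ∈ EL, t ∈ U4L ∨ tmul t e1T ∈ U4L ∨ tmul t e3T ∈ U4L ∨
      tmul t (tmul e1T e3T) ∈ U4L) t ht)

/-! ### The Sylow 3-subgroup -/

theorem c_cp : c * cp = cp * c := by
  apply tab_injective
  rw [tab_mul, tab_mul, c_spec.2, cp_tab]; decide +kernel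

theorem cp_order : orderOf cp = 3 :=
  orderOf_of_tab Nat.prime_three (by rw [cp_tab]; decide +kernel)
    (by rw [cp_tab]; decide +kernel)

theorem cp_ne : ∀ i < 3, cp ≠ c ^ i := by
  intro i hi h
  have h1 := congrArg tab h
  rw [tab_pow, cp_tab, c_spec.2] at h1
  interval_cases i <;> revert h1 <;> decide +kernel

/-! ### The element normalising `L` -/

theorem rowsN_rep : ∀ r ∈ rowsN, ∃ g ∈ M24, Rep g r.2.2 := by
  intro r hr
  rw [Cfsg.Agent.Lib.Helper7.M24Main.M24_eq_H]
  exact chk_sound Cfsg.Agent.Lib.Helper7.M24Core.H Cfsg.Agent.Lib.Helper7.M24Data.tabs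
    Cfsg.Agent.Lib.Helper7.M24Core.tabs_rep rowsN [] (by simp) rowsN_chk r hr

/-- An element of `M24` permuting the three fixed points cyclically. -/
noncomputable def n : Equiv.Perm GolayPt := ofT lnT

theorem n_spec : n ∈ M24 ∧ tab n = lnT := by
  obtain ⟨g, hg, hrep⟩ := rowsN_rep (2, 1, lnT) (by simp [rowsN])
  have e : n = g := ofT_eq hrep
  rw [e]
  exact ⟨hg, (eq_tab_of_rep hrep).symm⟩

theorem n_pt {i j : ℕ} (hi : i < 24) (h : lnT.getD i 0 = j) : n (pt i) = pt j := by
  have h2 := tab_getD n hi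
  rw [n_spec.2, h] at h2
  have h3 := pt_idx (n (pt i))
  rw [← h2] at h3
  exact h3.symm

theorem n_inv_pt {i j : ℕ} (hi : i < 24) (h : lnT.getD i 0 = j) : n⁻¹ (pt j) = pt i := by
  rw [← n_pt hi h]
  exact Equiv.symm_apply_apply _ _

/-- Conjugation by `n` maps `L` into itself. -/
theorem n_conj : ∀ g ∈ L, n * g * n⁻¹ ∈ L := by
  intro g hg
  refine ⟨M24.mul_mem (M24.mul_mem n_spec.1 hg.1) (M24.inv_mem n_spec.1), ?_⟩
  intro f hf
  simp only [List.mem_cons, List.not_mem_nil, or_false] at hf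
  rcases hf with rfl | rfl | rfl
  · show n (g (n⁻¹ (pt 1))) = pt 1
    rw [n_inv_pt (i := 0) (by norm_num) (by decide), hg.2 0 (by simp)]
    exact n_pt (by norm_num) (by decide)
  · show n (g (n⁻¹ (pt 0))) = pt 0
    rw [n_inv_pt (i := 23) (by norm_num) (by decide), hg.2 23 (by simp)]
    exact n_pt (by norm_num) (by decide)
  · show n (g (n⁻¹ (pt 23))) = pt 23
    rw [n_inv_pt (i := 1) (by norm_num) (by decide), hg.2 1 (by simp)]
    exact n_pt (by norm_num) (by decide)

/-- A word whose table is conjugate under `n` to the table of another word. -/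
theorem word_conj {w w' : List Bool}
    (h : tmul (wordT w' gaT gbT) lnT = tmul lnT (wordT w gaT gbT)) :
    wordP w' ga gb = n * wordP w ga gb * n⁻¹ := by
  have e : wordP w' ga gb * n = n * wordP w ga gb := by
    apply tab_injective
    rw [tab_mul, tab_mul, tab_wordP, tab_wordP, ga_spec.2, gb_spec.2, n_spec.2]
    exact h
  rw [← e, mul_inv_cancel_right]

/-- A word whose table fixes the index `1` is an element of `L`. -/
theorem word_memL {w : List Bool} (h : (wordT w gaT gbT).getD 1 0 = 1) : wordP w ga gb ∈ L :=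
  mem_L_of_tab (word_mem w) (by rw [tab_wordP, ga_spec.2, gb_spec.2]; exact h)

/-- Two words with commuting tables commute. -/
theorem word_comm {w w' : List Bool}
    (h : tmul (wordT w gaT gbT) (wordT w' gaT gbT) = tmul (wordT w' gaT gbT) (wordT w gaT gbT)) :
    wordP w ga gb * wordP w' ga gb = wordP w' ga gb * wordP w ga gb := by
  apply tab_injective
  rw [tab_mul, tab_mul, tab_wordP, tab_wordP, ga_spec.2, gb_spec.2]
  exact h

end Cfsg.Agent.Lib.Helper35.M21Elts
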