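-- Central extensions over a 2-group `E ⋊ D₈` with `E` elementary abelian, normalised by a
-- fixed-point-free element of order three: the commutator subgroup of the preimage meets the
-- kernel in a group of order at most two if the lifts of `E` commute, and of order dividing
-- four if `E` has rank four with enough conjugators between pairs of generators.
import Mathlib
import Cfsg.Agent.Lib.Helper35.StemB
import Cfsg.Agent.Lib.Helper66.StemLocal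

set_option autoImplicit false

namespace Cfsg.Agent.Lib.Helper35.StemF

open Subgroup Cfsg.Agent.Lib.Helper35 Cfsg.Agent.Lib.Helper66
open scoped commutatorElement

variable {Γ Q : Type*} [Group Γ] [Group Q]

/-- The hypotheses on the image: `E` of exponent two covered by the extension, an element
`τ C` acting without fixed points on `E`, a dihedral pair `τ R`, `τ S` normalising `E`, fusion of
`τ S` and `τ R ^ 2` into `E`, and commutators generating `E` up to the element `e0`. -/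
structure HypQ (τ : Γ →* Q) (E : Subgroup Q) (C R S G0 : Γ) (T : Set Q) (e0 : Q) : Prop where
  hc : τ.ker ≤ center Γ
  lift : ∀ e ∈ E, ∃ a : Γ, τ a = e
  sq : ∀ e ∈ E, e * e = 1
  cE : ∀ e ∈ E, τ C * e * (τ C)⁻¹ ∈ E
  cE' : ∀ e ∈ E, (τ C)⁻¹ * e * τ C ∈ E
  fpf : ∀ e ∈ E, e * (τ C * e * (τ C)⁻¹) * ((τ C)⁻¹ * e * τ C) = 1
  rE : ∀ e ∈ E, τ R * e * (τ R)⁻¹ ∈ E
  rE' : ∀ e ∈ E, (τ R)⁻¹ * e * τ R ∈ E
  sE : ∀ e ∈ E, τ S * e * (τ S)⁻¹ ∈ E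
  rc : (τ R * τ C * (τ R)⁻¹) * τ C = τ C * (τ R * τ C * (τ R)⁻¹)
  rc' : ((τ R)⁻¹ * τ C * τ R) * τ C = τ C * ((τ R)⁻¹ * τ C * τ R)
  s2 : τ S * τ S = 1
  sr : τ S * τ R * (τ S)⁻¹ = (τ R)⁻¹
  r2 : τ R * τ R ∉ E
  vs : ∃ v ∈ E, τ G0 * τ S = v * τ G0
  vr : ∃ v ∈ E, τ G0 * (τ R * τ R) = v * τ G0
  he0 : e0 ∈ E
  hT : ∀ t ∈ T, ∃ v ∈ E, t = v * (τ S * v * (τ S)⁻¹) ∨
    t = v * ((τ R * τ S) * v * (τ R * τ S)⁻¹)
  cov : ∀ e ∈ E, e ∈ closure T ∨ e * e0 ∈ closure T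

/-- The hypotheses of the first theorem: moreover the lifts of `E` commute. -/
structure HypA (τ : Γ →* Q) (E : Subgroup Q) (C R S G0 : Γ) (T : Set Q) (e0 : Q) : Prop
    extends HypQ τ E C R S G0 T e0 where
  comm : ∀ a b : Γ, τ a ∈ E → τ b ∈ E → a * b = b * a

section General

/-- Conjugation by `g` maps `H ⊔ K` into `W` if it maps `H` and `K` into `W`. -/
theorem conj_sup (g : Γ) (H K W : Subgroup Γ) (hH : ∀ v ∈ H, g * v * g⁻¹ ∈ W)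
    (hK : ∀ v ∈ K, g * v * g⁻¹ ∈ W) : ∀ v ∈ H ⊔ K, g * v * g⁻¹ ∈ W := by
  have hle : H ⊔ K ≤ W.comap (MulAut.conj g).toMonoidHom :=
    sup_le (fun v hv => by simpa using hH v hv) (fun v hv => by simpa using hK v hv)
  intro v hv
  simpa using hle hv

/-- The powers of an element of order at most two. -/
theorem zpowers_of_sq {w : Γ} (hw : w * w = 1) {y : Γ} (hy : y ∈ zpowers w) : y = 1 ∨ y = w := by
  obtain ⟨k, rfl⟩ := Subgroup.mem_zpowers_iff.mp hy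
  have h2 : w ^ (2 : ℤ) = 1 := by
    rw [show (2 : ℤ) = 1 + 1 from rfl, zpow_add, zpow_one]; exact hw
  rcases Int.even_or_odd' k with ⟨j, rfl | rfl⟩
  · left; rw [zpow_mul, h2, one_zpow]
  · right; rw [zpow_add, zpow_mul, h2, one_zpow, one_mul, zpow_one]

end General

section A

variable {τ : Γ →* Q} {E : Subgroup Q} {C R S G0 : Γ} {T : Set Q} {e0 : Q}

theorem kc (h : HypQ τ E C R S G0 T e0) {k : Γ} (hk : k ∈ τ.ker) (g : Γ) : g * k = k * g :=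
  StemB.ker_comm h.hc hk g

theorem E_comm (h : HypQ τ E C R S G0 T e0) {e f : Q} (he : e ∈ E) (hf : f ∈ E) :
    e * f = f * e := by
  have e1 : e⁻¹ = e := inv_eq_of_mul_eq_one_left (h.sq e he)
  have f1 : f⁻¹ = f := inv_eq_of_mul_eq_one_left (h.sq f hf)
  have h3 := inv_eq_of_mul_eq_one_left (h.sq (e * f) (E.mul_mem he hf))
  rw [mul_inv_rev, e1, f1] at h3
  exact h3.symm

theorem E_inv (h : HypQ τ E C R S G0 T e0) {e : Q} (he : e ∈ E) : e⁻¹ = e :=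
  inv_eq_of_mul_eq_one_left (h.sq e he)

theorem tC (h : HypQ τ E C R S G0 T e0) {a : Γ} (ha : τ a ∈ E) : τ (C * a * C⁻¹) ∈ E := by
  simpa only [map_mul, map_inv] using h.cE _ ha

theorem tC' (h : HypQ τ E C R S G0 T e0) {a : Γ} (ha : τ a ∈ E) : τ (C⁻¹ * a * C) ∈ E := by
  simpa only [map_mul, map_inv] using h.cE' _ ha

theorem tR (h : HypQ τ E C R S G0 T e0) {a : Γ} (ha : τ a ∈ E) : τ (R * a * R⁻¹) ∈ E := by
  simpa only [map_mul, map_inv] using h.rE _ ha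

theorem tR' (h : HypQ τ E C R S G0 T e0) {a : Γ} (ha : τ a ∈ E) : τ (R⁻¹ * a * R) ∈ E := by
  simpa only [map_mul, map_inv] using h.rE' _ ha

theorem tS (h : HypQ τ E C R S G0 T e0) {a : Γ} (ha : τ a ∈ E) : τ (S * a * S⁻¹) ∈ E := by
  simpa only [map_mul, map_inv] using h.sE _ ha

theorem S2_ker (h : HypQ τ E C R S G0 T e0) : S * S ∈ τ.ker := by
  rw [MonoidHom.mem_ker, map_mul]; exact h.s2

/-- The commutators of the lifts of `E` with the element of order three. -/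
def E0 (h : HypA τ E C R S G0 T e0) : Subgroup Γ where
  carrier := {x | ∃ e : Γ, τ e ∈ E ∧ x = C * e * C⁻¹ * e⁻¹}
  one_mem' := ⟨1, by rw [map_one]; exact E.one_mem, by group⟩
  mul_mem' := by
    rintro _ _ ⟨e, he, rfl⟩ ⟨f, hf, rfl⟩
    refine ⟨e * f, by rw [map_mul]; exact E.mul_mem he hf, ?_⟩
    have h1 : e⁻¹ * (C * f * C⁻¹) = (C * f * C⁻¹) * e⁻¹ :=
      h.comm _ _ (by rw [map_inv]; exact E.inv_mem he) (tC h.toHypQ hf)
    have h2 : e⁻¹ * f⁻¹ = f⁻¹ * e⁻¹ :=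
      h.comm _ _ (by rw [map_inv]; exact E.inv_mem he) (by rw [map_inv]; exact E.inv_mem hf)
    calc C * e * C⁻¹ * e⁻¹ * (C * f * C⁻¹ * f⁻¹)
        = C * e * C⁻¹ * (e⁻¹ * (C * f * C⁻¹)) * f⁻¹ := by group
      _ = C * e * C⁻¹ * ((C * f * C⁻¹) * e⁻¹) * f⁻¹ := by rw [h1]
      _ = C * (e * f) * C⁻¹ * (e⁻¹ * f⁻¹) := by group
      _ = C * (e * f) * C⁻¹ * (e * f)⁻¹ := by rw [h2]; group
  inv_mem' := by
    rintro _ ⟨e, he, rfl⟩
    refine ⟨e⁻¹, by rw [map_inv]; exact E.inv_mem he, ?_⟩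
    have h1 : e * (C * e⁻¹ * C⁻¹) = (C * e⁻¹ * C⁻¹) * e :=
      h.comm _ _ he (tC h.toHypQ (by rw [map_inv]; exact E.inv_mem he))
    calc (C * e * C⁻¹ * e⁻¹)⁻¹ = e * (C * e⁻¹ * C⁻¹) := by group
      _ = (C * e⁻¹ * C⁻¹) * e := h1
      _ = C * e⁻¹ * C⁻¹ * e⁻¹⁻¹ := by group

variable (h : HypA τ E C R S G0 T e0)
include h

theorem E0_le {x : Γ} (hx : x ∈ E0 h) : τ x ∈ E := by
  obtain ⟨e, he, rfl⟩ := hx
  rw [map_mul, map_inv]
  exact E.mul_mem (tC h.toHypQ he) (E.inv_mem he)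

theorem E0_ker {x : Γ} (hx : x ∈ E0 h) (hx1 : τ x = 1) : x = 1 := by
  obtain ⟨e, he, rfl⟩ := hx
  have h1 : τ C * τ e * (τ C)⁻¹ = τ e := by
    have h0 : τ C * τ e * (τ C)⁻¹ * (τ e)⁻¹ = 1 := by
      simpa only [map_mul, map_inv] using hx1
    exact mul_inv_eq_one.mp h0
  have h2 : (τ C)⁻¹ * τ e * τ C = τ e := by
    calc (τ C)⁻¹ * τ e * τ C = (τ C)⁻¹ * (τ C * τ e * (τ C)⁻¹) * τ C := by rw [h1]
      _ = τ e := by group
  have h3 := h.fpf _ he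
  rw [h1, h2, h.sq _ he, one_mul] at h3
  have hk : e ∈ τ.ker := h3
  have h4 := kc h.toHypQ hk C
  calc C * e * C⁻¹ * e⁻¹ = (C * e) * C⁻¹ * e⁻¹ := by group
    _ = (e * C) * C⁻¹ * e⁻¹ := by rw [h4]
    _ = 1 := by group

theorem E0_lift {v : Q} (hv : v ∈ E) : ∃ f ∈ E0 h, τ f = v := by
  obtain ⟨a, rfl⟩ := h.lift v hv
  have he' : τ C * τ a * (τ C)⁻¹ ∈ E := h.cE _ hv
  have hx : τ C * (τ C * τ a * (τ C)⁻¹) * (τ C)⁻¹ ∈ E := h.cE _ he'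
  have h3 := h.fpf _ he'
  have h4 : (τ C)⁻¹ * (τ C * τ a * (τ C)⁻¹) * τ C = τ a := by group
  rw [h4] at h3
  have h5 : (τ C * τ a * (τ C)⁻¹) * (τ C * (τ C * τ a * (τ C)⁻¹) * (τ C)⁻¹) = τ a := by
    rw [eq_inv_of_mul_eq_one_left h3]; exact E_inv h.toHypQ hv
  refine ⟨C * (C * a * C⁻¹) * C⁻¹ * (C * a * C⁻¹)⁻¹, ⟨C * a * C⁻¹, tC h.toHypQ hv, rfl⟩, ?_⟩
  simp only [map_mul, map_inv]
  rw [E_inv h.toHypQ he', E_comm h.toHypQ hx he']
  exact h5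

theorem E0_sq {f : Γ} (hf : f ∈ E0 h) : f * f = 1 :=
  E0_ker h ((E0 h).mul_mem hf hf) (by rw [map_mul]; exact h.sq _ (E0_le h hf))

theorem E0_inj {f g : Γ} (hf : f ∈ E0 h) (hg : g ∈ E0 h) (hfg : τ f = τ g) : f = g := by
  have h1 := E0_ker h ((E0 h).mul_mem hf ((E0 h).inv_mem hg))
    (by rw [map_mul, map_inv, hfg, mul_inv_cancel])
  exact mul_inv_eq_one.mp h1

theorem E0_decomp {a : Γ} (ha : τ a ∈ E) : ∃ f ∈ E0 h, ∃ k ∈ τ.ker, a = f * k := by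
  obtain ⟨f, hf, hfa⟩ := E0_lift h ha
  refine ⟨f, hf, f⁻¹ * a, ?_, by group⟩
  rw [MonoidHom.mem_ker, map_mul, map_inv, hfa, inv_mul_cancel]

/-- An element normalising the lifts of `E` and commuting with `C` modulo the kernel normalises
`E0`. -/
theorem E0_conj (g : Γ) (hgE : ∀ a : Γ, τ a ∈ E → τ (g * a * g⁻¹) ∈ E)
    (hgc : τ g * τ C = τ C * τ g) {f : Γ} (hf : f ∈ E0 h) : g * f * g⁻¹ ∈ E0 h := by
  obtain ⟨e, he, rfl⟩ := hf
  refine ⟨g * e * g⁻¹, hgE e he, ?_⟩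
  have hk : g * C * g⁻¹ * C⁻¹ ∈ τ.ker := by
    rw [MonoidHom.mem_ker]
    simp only [map_mul, map_inv]
    rw [hgc]; group
  have hkc := kc h.toHypQ hk (C * (g * e * g⁻¹) * C⁻¹)
  calc g * (C * e * C⁻¹ * e⁻¹) * g⁻¹
      = (g * C * g⁻¹ * C⁻¹) * (C * (g * e * g⁻¹) * C⁻¹) * (g * C * g⁻¹ * C⁻¹)⁻¹
        * (g * e * g⁻¹)⁻¹ := by group
    _ = (C * (g * e * g⁻¹) * C⁻¹) * (g * C * g⁻¹ * C⁻¹) * (g * C * g⁻¹ * C⁻¹)⁻¹
        * (g * e * g⁻¹)⁻¹ := by rw [hkc]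
    _ = C * (g * e * g⁻¹) * C⁻¹ * (g * e * g⁻¹)⁻¹ := by group

/-- An element normalising the lifts of `E` whose conjugate of `C` commutes with `C` modulo the
kernel normalises `E0`. -/
theorem E0_conj2 (g : Γ) (hgE : ∀ a : Γ, τ a ∈ E → τ (g * a * g⁻¹) ∈ E)
    (hgE' : ∀ a : Γ, τ a ∈ E → τ (g⁻¹ * a * g) ∈ E)
    (hgc : (τ g * τ C * (τ g)⁻¹) * τ C = τ C * (τ g * τ C * (τ g)⁻¹)) {f : Γ} (hf : f ∈ E0 h) :
    g * f * g⁻¹ ∈ E0 h := by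
  obtain ⟨e, he, rfl⟩ := hf
  obtain ⟨f', hf', k, hk, hek⟩ := E0_decomp h (hgE e he)
  have h1 := E0_conj h (g * C * g⁻¹) (fun a ha => by
      have h0 := hgE _ (tC h.toHypQ (hgE' a ha))
      have e0 : g * C * g⁻¹ * a * (g * C * g⁻¹)⁻¹ = g * (C * (g⁻¹ * a * g) * C⁻¹) * g⁻¹ := by
        group
      rw [e0]; exact h0)
    (by simpa only [map_mul, map_inv] using hgc) hf'
  have hkc := kc h.toHypQ hk (g * C * g⁻¹)⁻¹
  have h2 : g * (C * e * C⁻¹ * e⁻¹) * g⁻¹ = (g * C * g⁻¹) * f' * (g * C * g⁻¹)⁻¹ * f'⁻¹ := by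
    calc g * (C * e * C⁻¹ * e⁻¹) * g⁻¹
        = (g * C * g⁻¹) * (g * e * g⁻¹) * (g * C * g⁻¹)⁻¹ * (g * e * g⁻¹)⁻¹ := by group
      _ = (g * C * g⁻¹) * (f' * k) * (g * C * g⁻¹)⁻¹ * (f' * k)⁻¹ := by rw [hek]
      _ = (g * C * g⁻¹) * f' * (k * (g * C * g⁻¹)⁻¹) * k⁻¹ * f'⁻¹ := by group
      _ = (g * C * g⁻¹) * f' * ((g * C * g⁻¹)⁻¹ * k) * k⁻¹ * f'⁻¹ := by rw [hkc]
      _ = (g * C * g⁻¹) * f' * (g * C * g⁻¹)⁻¹ * f'⁻¹ := by group
  rw [h2]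
  exact (E0 h).mul_mem h1 ((E0 h).inv_mem hf')

theorem E0_R {f : Γ} (hf : f ∈ E0 h) : R * f * R⁻¹ ∈ E0 h :=
  E0_conj2 h R (fun _ ha => tR h.toHypQ ha) (fun _ ha => tR' h.toHypQ ha) h.rc hf

theorem E0_R' {f : Γ} (hf : f ∈ E0 h) : R⁻¹ * f * R ∈ E0 h := by
  have h1 := E0_conj2 h R⁻¹ (fun a ha => by simpa only [inv_inv] using tR' h.toHypQ ha)
    (fun a ha => by simpa only [inv_inv] using tR h.toHypQ ha)
    (by simpa only [map_inv, inv_inv] using h.rc') hf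
  simpa only [inv_inv] using h1

/-- The elements of `E0` whose conjugate by `S` lies in `E0`. -/
def K0 : Subgroup Γ where
  carrier := {f | f ∈ E0 h ∧ S * f * S⁻¹ ∈ E0 h}
  one_mem' := ⟨(E0 h).one_mem, by
    have e : S * 1 * S⁻¹ = (1 : Γ) := by group
    rw [e]; exact (E0 h).one_mem⟩
  mul_mem' := by
    rintro a b ⟨ha, ha'⟩ ⟨hb, hb'⟩
    refine ⟨(E0 h).mul_mem ha hb, ?_⟩
    have e : S * (a * b) * S⁻¹ = (S * a * S⁻¹) * (S * b * S⁻¹) := by group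
    rw [e]; exact (E0 h).mul_mem ha' hb'
  inv_mem' := by
    rintro a ⟨ha, ha'⟩
    refine ⟨(E0 h).inv_mem ha, ?_⟩
    have e : S * a⁻¹ * S⁻¹ = (S * a * S⁻¹)⁻¹ := by group
    rw [e]; exact (E0 h).inv_mem ha'

/-- A lift in `E0` of `v * (g v g⁻¹)` fixed by `g`, for `g` with square in the kernel. -/
theorem fix_lift (g : Γ) (hg2 : g * g ∈ τ.ker) (hgE : ∀ a : Γ, τ a ∈ E → τ (g * a * g⁻¹) ∈ E)
    {v : Q} (hv : v ∈ E) :
    ∃ f ∈ E0 h, τ f = v * (τ g * v * (τ g)⁻¹) ∧ g * f * g⁻¹ = f := by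
  obtain ⟨a, rfl⟩ := h.lift v hv
  have hn : τ (a * (g * a * g⁻¹)) ∈ E := by
    rw [map_mul]; exact E.mul_mem hv (hgE a hv)
  obtain ⟨f, hf, k, hk, hfk⟩ := E0_decomp h hn
  have hg2c := kc h.toHypQ hg2 a
  have hcomm : (g * a * g⁻¹) * a = a * (g * a * g⁻¹) := h.comm _ _ (hgE a hv) hv
  have hfix : g * (a * (g * a * g⁻¹)) * g⁻¹ = a * (g * a * g⁻¹) := by
    calc g * (a * (g * a * g⁻¹)) * g⁻¹ = (g * a * g⁻¹) * ((g * g) * a) * (g * g)⁻¹ := by group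
      _ = (g * a * g⁻¹) * (a * (g * g)) * (g * g)⁻¹ := by rw [hg2c]
      _ = (g * a * g⁻¹) * a := by group
      _ = a * (g * a * g⁻¹) := hcomm
  have hf' : f = a * (g * a * g⁻¹) * k⁻¹ := by rw [hfk]; group
  have hkc' := kc h.toHypQ (τ.ker.inv_mem hk) g⁻¹
  refine ⟨f, hf, ?_, ?_⟩
  · have h1 : τ (a * (g * a * g⁻¹)) = τ f := by
      rw [hfk, τ.map_mul f k, MonoidHom.mem_ker.mp hk, mul_one]
    rw [← h1]; simp only [map_mul, map_inv]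
  · calc g * f * g⁻¹ = g * (a * (g * a * g⁻¹) * k⁻¹) * g⁻¹ := by rw [← hf']
      _ = g * (a * (g * a * g⁻¹)) * (k⁻¹ * g⁻¹) := by group
      _ = g * (a * (g * a * g⁻¹)) * (g⁻¹ * k⁻¹) := by rw [hkc']
      _ = (g * (a * (g * a * g⁻¹)) * g⁻¹) * k⁻¹ := by group
      _ = a * (g * a * g⁻¹) * k⁻¹ := by rw [hfix]
      _ = f := hf'.symm

theorem RS2_ker : (R * S) * (R * S) ∈ τ.ker := by
  rw [MonoidHom.mem_ker]
  simp only [map_mul]
  have h1 : τ S * τ R = (τ R)⁻¹ * τ S := by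
    have := h.sr
    calc τ S * τ R = (τ S * τ R * (τ S)⁻¹) * τ S := by group
      _ = (τ R)⁻¹ * τ S := by rw [this]
  calc τ R * τ S * (τ R * τ S) = τ R * (τ S * τ R) * τ S := by group
    _ = τ R * ((τ R)⁻¹ * τ S) * τ S := by rw [h1]
    _ = τ S * τ S := by group
    _ = 1 := h.s2

theorem K0_T {t : Q} (ht : t ∈ T) : ∃ f ∈ K0 h, τ f = t := by
  obtain ⟨v, hv, rfl | rfl⟩ := h.hT t ht
  · obtain ⟨f, hf, hfv, hfix⟩ := fix_lift h S (S2_ker h.toHypQ) (fun _ ha => tS h.toHypQ ha) hv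
    exact ⟨f, ⟨hf, by rw [hfix]; exact hf⟩, hfv⟩
  · obtain ⟨f, hf, hfv, hfix⟩ := fix_lift h (R * S) (RS2_ker h) (fun a ha => by
      have e : R * S * a * (R * S)⁻¹ = R * (S * a * S⁻¹) * R⁻¹ := by group
      rw [e]; exact tR h.toHypQ (tS h.toHypQ ha)) hv
    refine ⟨f, ⟨hf, ?_⟩, by rw [hfv, map_mul]⟩
    have e : S * f * S⁻¹ = R⁻¹ * (R * S * f * (R * S)⁻¹) * R := by group
    rw [e, hfix]; exact E0_R' h hf

theorem K0_cl {x : Q} (hx : x ∈ closure T) : ∃ f ∈ K0 h, τ f = x := by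
  have hle : closure T ≤ (K0 h).map τ := by
    rw [closure_le]
    intro t ht
    exact K0_T h ht
  exact hle hx

theorem K0_of {f : Γ} (hf : f ∈ E0 h) (hfT : τ f ∈ closure T) : f ∈ K0 h := by
  obtain ⟨k, hk, hkf⟩ := K0_cl h hfT
  have := E0_inj h hk.1 hf hkf
  rwa [this] at hk

/-- The central element of order at most two measuring the failure of `S` to normalise `E0`. -/
theorem exists_zeta : ∃ z ∈ τ.ker, z * z = 1 ∧
    ∀ f ∈ E0 h, ∃ f' ∈ E0 h, S * f * S⁻¹ = f' ∨ S * f * S⁻¹ = f' * z := by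
  obtain ⟨F0, hF0, hF0e⟩ := E0_lift h h.he0
  obtain ⟨f0, hf0, hf0e⟩ := E0_lift h (h.sE e0 h.he0)
  have hXE : τ (S * F0 * S⁻¹) ∈ E := tS h.toHypQ (E0_le h hF0)
  have hYE : τ f0⁻¹ ∈ E := by rw [map_inv]; exact E.inv_mem (E0_le h hf0)
  have hXY : (S * F0 * S⁻¹) * f0⁻¹ = f0⁻¹ * (S * F0 * S⁻¹) := h.comm _ _ hXE hYE
  have hXX : (S * F0 * S⁻¹) * (S * F0 * S⁻¹) = 1 := by
    calc (S * F0 * S⁻¹) * (S * F0 * S⁻¹) = S * (F0 * F0) * S⁻¹ := by group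
      _ = 1 := by rw [E0_sq h hF0]; group
  have hYY : f0⁻¹ * f0⁻¹ = 1 := E0_sq h ((E0 h).inv_mem hf0)
  have hzz : ((S * F0 * S⁻¹) * f0⁻¹) * ((S * F0 * S⁻¹) * f0⁻¹) = 1 := by
    calc ((S * F0 * S⁻¹) * f0⁻¹) * ((S * F0 * S⁻¹) * f0⁻¹)
        = (S * F0 * S⁻¹) * (f0⁻¹ * (S * F0 * S⁻¹)) * f0⁻¹ := by group
      _ = (S * F0 * S⁻¹) * ((S * F0 * S⁻¹) * f0⁻¹) * f0⁻¹ := by rw [hXY]
      _ = ((S * F0 * S⁻¹) * (S * F0 * S⁻¹)) * (f0⁻¹ * f0⁻¹) := by group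
      _ = 1 := by rw [hXX, hYY, one_mul]
  refine ⟨(S * F0 * S⁻¹) * f0⁻¹, ?_, hzz, ?_⟩
  · rw [MonoidHom.mem_ker]
    simp only [map_mul, map_inv]
    rw [hF0e, hf0e, mul_inv_cancel]
  · intro f hf
    rcases h.cov _ (E0_le h hf) with hT | hT
    · exact ⟨S * f * S⁻¹, (K0_of h hf hT).2, Or.inl rfl⟩
    · have hmem : f * F0 ∈ K0 h :=
        K0_of h ((E0 h).mul_mem hf hF0) (by rw [map_mul, hF0e]; exact hT)
      refine ⟨S * (f * F0) * S⁻¹ * f0⁻¹, (E0 h).mul_mem hmem.2 ((E0 h).inv_mem hf0), Or.inr ?_⟩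
      calc S * f * S⁻¹ = S * f * S⁻¹ * 1 := by rw [mul_one]
        _ = S * f * S⁻¹ * (((S * F0 * S⁻¹) * f0⁻¹) * ((S * F0 * S⁻¹) * f0⁻¹)) := by rw [hzz]
        _ = S * (f * F0) * S⁻¹ * f0⁻¹ * (S * F0 * S⁻¹ * f0⁻¹) := by group

/-- `E0` together with the central element. -/
def M (z : Γ) : Subgroup Γ := E0 h ⊔ zpowers z

theorem mem_M {z : Γ} (hz : z ∈ τ.ker) {x : Γ} (hx : x ∈ M h z) :
    ∃ f ∈ E0 h, ∃ k ∈ zpowers z, x = f * k := by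
  have hle : zpowers z ≤ normalizer (E0 h : Set Γ) :=
    ((zpowers_le (H := center Γ)).mpr (h.hc hz)).trans (Subgroup.center_le_normalizer _)
  exact StemB.exists_mul_of_mem_sup hle hx

omit h in
theorem zpowers_ker {z : Γ} (hz : z ∈ τ.ker) {k : Γ} (hk : k ∈ zpowers z) : k ∈ τ.ker :=
  (zpowers_le (H := τ.ker)).mpr hz hk

theorem M_conj {z : Γ} (hz : z ∈ τ.ker) (g : Γ) (hg : ∀ f ∈ E0 h, g * f * g⁻¹ ∈ M h z)
    {x : Γ} (hx : x ∈ M h z) : g * x * g⁻¹ ∈ M h z := by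
  obtain ⟨f, hf, k, hk, rfl⟩ := mem_M h hz hx
  have hkc := kc h.toHypQ (zpowers_ker hz hk) g⁻¹
  have e : g * (f * k) * g⁻¹ = (g * f * g⁻¹) * k := by
    calc g * (f * k) * g⁻¹ = g * f * (k * g⁻¹) := by group
      _ = g * f * (g⁻¹ * k) := by rw [hkc]
      _ = (g * f * g⁻¹) * k := by group
  rw [e]
  exact (M h z).mul_mem (hg f hf) (le_sup_right (a := E0 h) hk)

theorem M_le {z : Γ} (hz : z ∈ τ.ker) {x : Γ} (hx : x ∈ M h z) : τ x ∈ E := by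
  obtain ⟨f, hf, k, hk, rfl⟩ := mem_M h hz hx
  rw [map_mul, MonoidHom.mem_ker.mp (zpowers_ker hz hk), mul_one]
  exact E0_le h hf

theorem M_ker {z : Γ} (hz : z ∈ τ.ker) {x : Γ} (hx : x ∈ M h z) (hx1 : τ x = 1) :
    x ∈ zpowers z := by
  obtain ⟨f, hf, k, hk, rfl⟩ := mem_M h hz hx
  rw [map_mul, MonoidHom.mem_ker.mp (zpowers_ker hz hk), mul_one] at hx1
  rw [E0_ker h hf hx1, one_mul]
  exact hk

theorem M_R {z : Γ} (hz : z ∈ τ.ker) {x : Γ} (hx : x ∈ M h z) : R * x * R⁻¹ ∈ M h z :=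
  M_conj h hz R (fun _ hf => le_sup_left (b := zpowers z) (E0_R h hf)) hx

theorem M_R' {z : Γ} (hz : z ∈ τ.ker) {x : Γ} (hx : x ∈ M h z) : R⁻¹ * x * R ∈ M h z := by
  have := M_conj h hz R⁻¹ (fun f hf => le_sup_left (b := zpowers z)
    (by simpa only [inv_inv] using E0_R' h hf)) hx
  simpa only [inv_inv] using this

theorem M_S {z : Γ} (hz : z ∈ τ.ker)
    (hzS : ∀ f ∈ E0 h, ∃ f' ∈ E0 h, S * f * S⁻¹ = f' ∨ S * f * S⁻¹ = f' * z)
    {x : Γ} (hx : x ∈ M h z) : S * x * S⁻¹ ∈ M h z := by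
  refine M_conj h hz S (fun f hf => ?_) hx
  obtain ⟨f', hf', e | e⟩ := hzS f hf
  · rw [e]; exact le_sup_left (b := zpowers z) hf'
  · rw [e]
    exact (M h z).mul_mem (le_sup_left (b := zpowers z) hf')
      (le_sup_right (a := E0 h) (mem_zpowers z))

theorem M_S' {z : Γ} (hz : z ∈ τ.ker)
    (hzS : ∀ f ∈ E0 h, ∃ f' ∈ E0 h, S * f * S⁻¹ = f' ∨ S * f * S⁻¹ = f' * z)
    {x : Γ} (hx : x ∈ M h z) : S⁻¹ * x * S ∈ M h z := by
  have hk := kc h.toHypQ (S2_ker h.toHypQ) x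
  have e : S⁻¹ * x * S = S * x * S⁻¹ := by
    calc S⁻¹ * x * S = S * ((S * S)⁻¹ * (x * (S * S))) * S⁻¹ := by group
      _ = S * ((S * S)⁻¹ * ((S * S) * x)) * S⁻¹ := by rw [hk]
      _ = S * x * S⁻¹ := by group
  rw [e]
  exact M_S h hz hzS hx

/-- Commutators of lifts of `E` with an element normalising `M` lie in `M`. -/
theorem comm_mem_M {z : Γ} (g : Γ) (hg : ∀ f ∈ E0 h, g * f * g⁻¹ ∈ M h z) {a : Γ}
    (ha : τ a ∈ E) : ⁅a, g⁆ ∈ M h z := by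
  obtain ⟨f, hf, k, hk, rfl⟩ := E0_decomp h ha
  have hkc := kc h.toHypQ hk g
  have e : ⁅f * k, g⁆ = f * (g * f * g⁻¹)⁻¹ := by
    rw [commutatorElement_def]
    calc f * k * g * (f * k)⁻¹ * g⁻¹ = f * (k * g) * k⁻¹ * f⁻¹ * g⁻¹ := by group
      _ = f * (g * k) * k⁻¹ * f⁻¹ * g⁻¹ := by rw [hkc]
      _ = f * (g * f * g⁻¹)⁻¹ := by group
  rw [e]
  exact (M h z).mul_mem (le_sup_left (b := zpowers z) hf) ((M h z).inv_mem (hg f hf))

/-! ### The dihedral part -/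

theorem S_R2 : S * (R * R) = (R * R) * S := by
  obtain ⟨v, hv, hvs⟩ := h.vs
  obtain ⟨v', hv', hvr⟩ := h.vr
  have ha : τ (G0 * S * G0⁻¹) ∈ E := by
    simp only [map_mul, map_inv]
    rw [hvs, mul_inv_cancel_right]; exact hv
  have hb : τ (G0 * (R * R) * G0⁻¹) ∈ E := by
    simp only [map_mul, map_inv]
    have : τ G0 * (τ R * τ R) * (τ G0)⁻¹ = v' := by rw [hvr, mul_inv_cancel_right]
    exact this ▸ hv'
  have h1 := h.comm _ _ ha hb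
  have h2 : G0 * (S * (R * R)) * G0⁻¹ = G0 * ((R * R) * S) * G0⁻¹ := by
    calc G0 * (S * (R * R)) * G0⁻¹ = G0 * S * G0⁻¹ * (G0 * (R * R) * G0⁻¹) := by group
      _ = G0 * (R * R) * G0⁻¹ * (G0 * S * G0⁻¹) := h1
      _ = G0 * ((R * R) * S) * G0⁻¹ := by group
  exact mul_left_cancel (mul_right_cancel h2)

theorem w_R : R * (S * R * S⁻¹ * R⁻¹) * R⁻¹ = S * R * S⁻¹ * R⁻¹ := by
  have hk : S * R * S⁻¹ * R ∈ τ.ker := by
    rw [MonoidHom.mem_ker]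
    simp only [map_mul, map_inv]
    rw [h.sr, inv_mul_cancel]
  have hkc := kc h.toHypQ hk R
  calc R * (S * R * S⁻¹ * R⁻¹) * R⁻¹ = R * (S * R * S⁻¹ * R) * R⁻¹ * R⁻¹ * R⁻¹ := by group
    _ = (S * R * S⁻¹ * R) * R * R⁻¹ * R⁻¹ * R⁻¹ := by rw [hkc]
    _ = S * R * S⁻¹ * R⁻¹ := by group

theorem w_S : S * (S * R * S⁻¹ * R⁻¹) * S⁻¹ = (S * R * S⁻¹ * R⁻¹)⁻¹ := by
  have h2 := kc h.toHypQ (S2_ker h.toHypQ) R
  calc S * (S * R * S⁻¹ * R⁻¹) * S⁻¹ = (S * S * R) * S⁻¹ * R⁻¹ * S⁻¹ := by group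
    _ = (R * (S * S)) * S⁻¹ * R⁻¹ * S⁻¹ := by rw [h2]
    _ = (S * R * S⁻¹ * R⁻¹)⁻¹ := by group

theorem w_sq : (S * R * S⁻¹ * R⁻¹) * (S * R * S⁻¹ * R⁻¹) = 1 := by
  have hw : R⁻¹ * (S * R * S⁻¹ * R⁻¹) = (S * R * S⁻¹ * R⁻¹) * R⁻¹ := by
    have := w_R h
    calc R⁻¹ * (S * R * S⁻¹ * R⁻¹) = R⁻¹ * (R * (S * R * S⁻¹ * R⁻¹) * R⁻¹) := by rw [this]
      _ = (S * R * S⁻¹ * R⁻¹) * R⁻¹ := by group
  have hc := S_R2 h
  calc (S * R * S⁻¹ * R⁻¹) * (S * R * S⁻¹ * R⁻¹)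
      = S * R * S⁻¹ * (R⁻¹ * (S * R * S⁻¹ * R⁻¹)) := by group
    _ = S * R * S⁻¹ * ((S * R * S⁻¹ * R⁻¹) * R⁻¹) := by rw [hw]
    _ = (S * (R * R)) * S⁻¹ * R⁻¹ * R⁻¹ := by group
    _ = ((R * R) * S) * S⁻¹ * R⁻¹ * R⁻¹ := by rw [hc]
    _ = 1 := by group

theorem w_not : τ (S * R * S⁻¹ * R⁻¹) ∉ E := by
  intro hw
  simp only [map_mul, map_inv] at hw
  rw [h.sr] at hw
  have := E.inv_mem hw
  rw [mul_inv_rev, inv_inv] at this
  exact h.r2 this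

theorem w_M {z : Γ} (hz : z ∈ τ.ker)
    (hzS : ∀ f ∈ E0 h, ∃ f' ∈ E0 h, S * f * S⁻¹ = f' ∨ S * f * S⁻¹ = f' * z)
    {x : Γ} (hx : x ∈ M h z) :
    (S * R * S⁻¹ * R⁻¹) * x * (S * R * S⁻¹ * R⁻¹)⁻¹ ∈ M h z := by
  have e : (S * R * S⁻¹ * R⁻¹) * x * (S * R * S⁻¹ * R⁻¹)⁻¹
      = S * (R * (S⁻¹ * (R⁻¹ * x * R) * S) * R⁻¹) * S⁻¹ := by group
  rw [e]
  exact M_S h hz hzS (M_R h hz (M_S' h hz hzS (M_R' h hz hx)))

/-! ### Assembly -/

/-- Conjugation by `g` preserves `M ⊔ ⟨w⟩` if it preserves `M` and maps `w` into `M ⊔ ⟨w⟩`. -/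
theorem W_conj {z : Γ} (g : Γ) (hgM : ∀ x ∈ M h z, g * x * g⁻¹ ∈ M h z)
    (hgw : g * (S * R * S⁻¹ * R⁻¹) * g⁻¹ ∈ M h z ⊔ zpowers (S * R * S⁻¹ * R⁻¹)) :
    ∀ v ∈ M h z ⊔ zpowers (S * R * S⁻¹ * R⁻¹),
      g * v * g⁻¹ ∈ M h z ⊔ zpowers (S * R * S⁻¹ * R⁻¹) := by
  apply conj_sup
  · intro v hv
    exact le_sup_left (b := zpowers (S * R * S⁻¹ * R⁻¹)) (hgM v hv)
  · intro v hv
    rcases zpowers_of_sq (w_sq h) hv with rfl | rfl
    · have e : g * 1 * g⁻¹ = (1 : Γ) := by group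
      rw [e]; exact Subgroup.one_mem _
    · exact hgw

theorem W_conj_E {z : Γ} (hz : z ∈ τ.ker)
    (hzS : ∀ f ∈ E0 h, ∃ f' ∈ E0 h, S * f * S⁻¹ = f' ∨ S * f * S⁻¹ = f' * z)
    {g : Γ} (hg : τ g ∈ E) :
    ∀ v ∈ M h z ⊔ zpowers (S * R * S⁻¹ * R⁻¹),
      g * v * g⁻¹ ∈ M h z ⊔ zpowers (S * R * S⁻¹ * R⁻¹) := by
  apply W_conj h g
  · intro x hx
    have := h.comm g x hg (M_le h hz hx)
    rw [this, mul_inv_cancel_right]
    exact hx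
  · have h1 : ⁅g, S * R * S⁻¹ * R⁻¹⁆ ∈ M h z :=
      comm_mem_M h _ (fun f hf => w_M h hz hzS (le_sup_left (b := zpowers z) hf)) hg
    have e : g * (S * R * S⁻¹ * R⁻¹) * g⁻¹ = ⁅g, S * R * S⁻¹ * R⁻¹⁆ * (S * R * S⁻¹ * R⁻¹) := by
      rw [commutatorElement_def]; group
    rw [e]
    exact Subgroup.mul_mem _ (le_sup_left (b := zpowers (S * R * S⁻¹ * R⁻¹)) h1)
      (le_sup_right (a := M h z) (mem_zpowers _))

theorem W_conj_R {z : Γ} (hz : z ∈ τ.ker) :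
    ∀ v ∈ M h z ⊔ zpowers (S * R * S⁻¹ * R⁻¹),
      R * v * R⁻¹ ∈ M h z ⊔ zpowers (S * R * S⁻¹ * R⁻¹) := by
  apply W_conj h R (fun x hx => M_R h hz hx)
  rw [w_R h]
  exact le_sup_right (a := M h z) (mem_zpowers _)

theorem W_conj_R' {z : Γ} (hz : z ∈ τ.ker) :
    ∀ v ∈ M h z ⊔ zpowers (S * R * S⁻¹ * R⁻¹),
      R⁻¹ * v * R ∈ M h z ⊔ zpowers (S * R * S⁻¹ * R⁻¹) := by
  have h1 := W_conj h (z := z) R⁻¹ (fun x hx => by simpa only [inv_inv] using M_R' h hz hx) (by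
    have e : R⁻¹ * (S * R * S⁻¹ * R⁻¹) * R⁻¹⁻¹ = S * R * S⁻¹ * R⁻¹ := by
      calc R⁻¹ * (S * R * S⁻¹ * R⁻¹) * R⁻¹⁻¹ = R⁻¹ * (S * R * S⁻¹ * R⁻¹) * R := by rw [inv_inv]
        _ = R⁻¹ * (R * (S * R * S⁻¹ * R⁻¹) * R⁻¹) * R := by rw [w_R h]
        _ = S * R * S⁻¹ * R⁻¹ := by group
    rw [e]
    exact le_sup_right (a := M h z) (mem_zpowers _))
  intro v hv
  simpa only [inv_inv] using h1 v hv

theorem W_conj_S {z : Γ} (hz : z ∈ τ.ker)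
    (hzS : ∀ f ∈ E0 h, ∃ f' ∈ E0 h, S * f * S⁻¹ = f' ∨ S * f * S⁻¹ = f' * z) :
    ∀ v ∈ M h z ⊔ zpowers (S * R * S⁻¹ * R⁻¹),
      S * v * S⁻¹ ∈ M h z ⊔ zpowers (S * R * S⁻¹ * R⁻¹) := by
  apply W_conj h S (fun x hx => M_S h hz hzS hx)
  rw [w_S h]
  exact le_sup_right (a := M h z) (Subgroup.inv_mem _ (mem_zpowers _))

theorem W_conj_S' {z : Γ} (hz : z ∈ τ.ker)
    (hzS : ∀ f ∈ E0 h, ∃ f' ∈ E0 h, S * f * S⁻¹ = f' ∨ S * f * S⁻¹ = f' * z) :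
    ∀ v ∈ M h z ⊔ zpowers (S * R * S⁻¹ * R⁻¹),
      S⁻¹ * v * S ∈ M h z ⊔ zpowers (S * R * S⁻¹ * R⁻¹) := by
  have h1 := W_conj h (z := z) S⁻¹ (fun x hx => by simpa only [inv_inv] using M_S' h hz hzS hx) (by
    have e : S⁻¹ * (S * R * S⁻¹ * R⁻¹) * S⁻¹⁻¹
        = (S⁻¹ * (S * R * S⁻¹ * R⁻¹)⁻¹ * S)⁻¹ := by group
    rw [e, ← w_S h]
    have e2 : (S⁻¹ * (S * (S * R * S⁻¹ * R⁻¹) * S⁻¹) * S)⁻¹ = (S * R * S⁻¹ * R⁻¹)⁻¹ := by group
    rw [e2]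
    exact le_sup_right (a := M h z) (Subgroup.inv_mem _ (mem_zpowers _)))
  intro v hv
  simpa only [inv_inv] using h1 v hv

theorem W_ker {z : Γ} (hz : z ∈ τ.ker)
    (hzS : ∀ f ∈ E0 h, ∃ f' ∈ E0 h, S * f * S⁻¹ = f' ∨ S * f * S⁻¹ = f' * z)
    {x : Γ} (hx : x ∈ M h z ⊔ zpowers (S * R * S⁻¹ * R⁻¹)) (hx1 : τ x = 1) : x ∈ zpowers z := by
  have hnorm : zpowers (S * R * S⁻¹ * R⁻¹) ≤ normalizer (M h z : Set Γ) := by
    rw [zpowers_le, Subgroup.mem_normalizer_iff]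
    intro v
    refine ⟨fun hv => w_M h hz hzS hv, fun hv => ?_⟩
    have h1 := w_M h hz hzS hv
    have e : (S * R * S⁻¹ * R⁻¹) * ((S * R * S⁻¹ * R⁻¹) * v * (S * R * S⁻¹ * R⁻¹)⁻¹)
        * (S * R * S⁻¹ * R⁻¹)⁻¹ = ((S * R * S⁻¹ * R⁻¹) * (S * R * S⁻¹ * R⁻¹)) * v
        * ((S * R * S⁻¹ * R⁻¹) * (S * R * S⁻¹ * R⁻¹))⁻¹ := by group
    rw [e, w_sq h, one_mul, inv_one, mul_one] at h1
    exact h1
  obtain ⟨m, hm, y, hy, rfl⟩ := StemB.exists_mul_of_mem_sup hnorm hx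
  rcases zpowers_of_sq (w_sq h) hy with rfl | rfl
  · rw [mul_one] at hx1 ⊢
    exact M_ker h hz hm hx1
  · exfalso
    apply w_not h
    rw [map_mul] at hx1
    rw [eq_inv_of_mul_eq_one_right hx1]
    exact E.inv_mem (M_le h hz hm)

/-- The generating set of the preimage of `E ⋊ D₈`. -/
def gens (τ : Γ →* Q) (E : Subgroup Q) (R S : Γ) : Set Γ := {a | τ a ∈ E} ∪ {R, S}

omit h in
theorem comap_le_closure (h : HypQ τ E C R S G0 T e0) :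
    (E ⊔ closure {τ R, τ S}).comap τ ≤ closure (gens τ E R S) := by
  intro x hx
  have hle : E ⊔ closure {τ R, τ S} ≤ (closure (gens τ E R S)).map τ := by
    apply sup_le
    · intro e he
      obtain ⟨a, rfl⟩ := h.lift e he
      exact ⟨a, subset_closure (Or.inl he), rfl⟩
    · rw [closure_le]
      rintro _ (rfl | rfl)
      · exact ⟨R, subset_closure (Or.inr (Or.inl rfl)), rfl⟩
      · exact ⟨S, subset_closure (Or.inr (Or.inr rfl)), rfl⟩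
  obtain ⟨y, hy, hyx⟩ := hle (mem_comap.mp hx)
  have hk : τ (y⁻¹ * x) ∈ E := by
    rw [map_mul, map_inv, hyx, inv_mul_cancel]; exact E.one_mem
  have e : x = y * (y⁻¹ * x) := by group
  rw [e]
  exact Subgroup.mul_mem _ hy (subset_closure (Or.inl hk))

/-- If the lifts of `E` commute, the commutator subgroup of the preimage of `E ⋊ D₈` meets the
kernel in a group of order at most two. -/
theorem card_dvd_two :
    Nat.card ↥(⁅(E ⊔ closure {τ R, τ S}).comap τ, (E ⊔ closure {τ R, τ S}).comap τ⁆ ⊓ τ.ker)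
      ∣ 2 := by
  obtain ⟨z, hz, hz2, hzS⟩ := exists_zeta h
  have hE0M : ∀ f ∈ E0 h, f ∈ M h z := fun f hf => le_sup_left (b := zpowers z) hf
  have hMW : M h z ≤ M h z ⊔ zpowers (S * R * S⁻¹ * R⁻¹) := le_sup_left
  have hwW : S * R * S⁻¹ * R⁻¹ ∈ M h z ⊔ zpowers (S * R * S⁻¹ * R⁻¹) :=
    le_sup_right (a := M h z) (mem_zpowers _)
  have hN : ∀ a ∈ gens τ E R S, ∀ v ∈ M h z ⊔ zpowers (S * R * S⁻¹ * R⁻¹),
      a * v * a⁻¹ ∈ M h z ⊔ zpowers (S * R * S⁻¹ * R⁻¹) ∧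
      a⁻¹ * v * a ∈ M h z ⊔ zpowers (S * R * S⁻¹ * R⁻¹) := by
    rintro a (ha | rfl | rfl) v hv
    · refine ⟨W_conj_E h hz hzS ha v hv, ?_⟩
      have h1 := W_conj_E h hz hzS (g := a⁻¹) (by rw [map_inv]; exact E.inv_mem ha) v hv
      simpa only [inv_inv] using h1
    · exact ⟨W_conj_R h hz v hv, W_conj_R' h hz v hv⟩
    · exact ⟨W_conj_S h hz hzS v hv, W_conj_S' h hz hzS v hv⟩
  have hER : ∀ a : Γ, τ a ∈ E → ⁅a, R⁆ ∈ M h z := fun a ha =>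
    comm_mem_M h R (fun f hf => hE0M _ (E0_R h hf)) ha
  have hES : ∀ a : Γ, τ a ∈ E → ⁅a, S⁆ ∈ M h z := fun a ha =>
    comm_mem_M h S (fun f hf => M_S h hz hzS (hE0M f hf)) ha
  have hs : ∀ a ∈ gens τ E R S, ∀ b ∈ gens τ E R S,
      ⁅a, b⁆ ∈ M h z ⊔ zpowers (S * R * S⁻¹ * R⁻¹) := by
    rintro a (ha | rfl | rfl) b (hb | rfl | rfl)
    · rw [commutatorElement_eq_one_iff_commute.mpr (h.comm a b ha hb)]
      exact Subgroup.one_mem _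
    · exact hMW (hER a ha)
    · exact hMW (hES a ha)
    · rw [← commutatorElement_inv]
      exact Subgroup.inv_mem _ (hMW (hER b hb))
    · rw [commutatorElement_self]; exact Subgroup.one_mem _
    · have e : ⁅a, b⁆ = (b * a * b⁻¹ * a⁻¹)⁻¹ := by rw [commutatorElement_def]; group
      rw [e]; exact Subgroup.inv_mem _ hwW
    · rw [← commutatorElement_inv]
      exact Subgroup.inv_mem _ (hMW (hES b hb))
    · rw [commutatorElement_def]; exact hwW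
    · rw [commutatorElement_self]; exact Subgroup.one_mem _
  have hle : ⁅(E ⊔ closure {τ R, τ S}).comap τ, (E ⊔ closure {τ R, τ S}).comap τ⁆ ⊓ τ.ker
      ≤ zpowers z := by
    rintro x ⟨hx, hxk⟩
    have h1 := commutator_mono (comap_le_closure h.toHypQ) (comap_le_closure h.toHypQ) hx
    have h2 := StemLocal.commutator_closure_le _ (gens τ E R S) hN hs h1
    exact W_ker h hz hzS h2 (MonoidHom.mem_ker.mp hxk)
  have h1 := Subgroup.card_dvd_of_le hle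
  rw [Nat.card_zpowers] at h1
  exact dvd_trans h1 (orderOf_dvd_of_pow_eq_one (by rw [pow_two]; exact hz2))

end A

section B

variable {τ : Γ →* Q} {E : Subgroup Q} {C R S G0 : Γ} {T : Set Q} {e0 : Q}

/-- Commutators of lifts of `E` lie in the kernel. -/
theorem comm_ker (h : HypQ τ E C R S G0 T e0) {a b : Γ} (ha : τ a ∈ E) (hb : τ b ∈ E) :
    ⁅a, b⁆ ∈ τ.ker := by
  rw [MonoidHom.mem_ker, map_commutatorElement, commutatorElement_eq_one_iff_commute]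
  exact E_comm h ha hb

/-- Transport of commutators by a conjugator. -/
theorem comm_conj (h : HypQ τ E C R S G0 T e0) {t a b a' b' : Γ} (ha : τ a ∈ E) (hb : τ b ∈ E)
    (hta : τ t * τ a = τ a' * τ t) (htb : τ t * τ b = τ b' * τ t) : ⁅a', b'⁆ = ⁅a, b⁆ := by
  have h1 : τ (t * a * t⁻¹) = τ a' := by
    simp only [map_mul, map_inv]; rw [hta, mul_inv_cancel_right]
  have h2 : τ (t * b * t⁻¹) = τ b' := by
    simp only [map_mul, map_inv]; rw [htb, mul_inv_cancel_right]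
  rw [← Stem.commutator_eq_of_map_eq τ h.hc h1 h2]
  have hk := kc h (comm_ker h ha hb) t
  calc ⁅t * a * t⁻¹, t * b * t⁻¹⁆ = t * ⁅a, b⁆ * t⁻¹ := by
        simp only [commutatorElement_def]; group
    _ = ⁅a, b⁆ * t * t⁻¹ := by rw [hk]
    _ = ⁅a, b⁆ := by group

theorem comm_mul_right (h : HypQ τ E C R S G0 T e0) {a b b' : Γ} (ha : τ a ∈ E)
    (hb' : τ b' ∈ E) : ⁅a, b * b'⁆ = ⁅a, b⁆ * ⁅a, b'⁆ := by
  have hk := kc h (comm_ker h ha hb') b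
  calc ⁅a, b * b'⁆ = ⁅a, b⁆ * (b * ⁅a, b'⁆) * b⁻¹ := by
        simp only [commutatorElement_def]; group
    _ = ⁅a, b⁆ * (⁅a, b'⁆ * b) * b⁻¹ := by rw [hk]
    _ = ⁅a, b⁆ * ⁅a, b'⁆ := by group

theorem comm_mul_left (h : HypQ τ E C R S G0 T e0) {a a' b : Γ} (ha : τ a ∈ E)
    (ha' : τ a' ∈ E) (hb : τ b ∈ E) : ⁅a * a', b⁆ = ⁅a, b⁆ * ⁅a', b⁆ := by
  have hk := kc h (comm_ker h ha' hb) a
  calc ⁅a * a', b⁆ = (a * ⁅a', b⁆) * a⁻¹ * ⁅a, b⁆ := by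
        simp only [commutatorElement_def]; group
    _ = (⁅a', b⁆ * a) * a⁻¹ * ⁅a, b⁆ := by rw [hk]
    _ = ⁅a', b⁆ * ⁅a, b⁆ := by group
    _ = ⁅a, b⁆ * ⁅a', b⁆ := kc h (comm_ker h ha hb) _

theorem comm_central_left (h : HypQ τ E C R S G0 T e0) {k : Γ} (hk : k ∈ τ.ker) (g : Γ) :
    ⁅k, g⁆ = 1 := by
  have h1 := kc h hk g
  rw [commutatorElement_def, ← h1]; group

theorem comm_central_right (h : HypQ τ E C R S G0 T e0) {k : Γ} (hk : k ∈ τ.ker) (g : Γ) :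
    ⁅g, k⁆ = 1 := by
  have h1 := kc h hk g
  rw [commutatorElement_def, h1]; group

/-- The order of a subgroup divides the product of the orders of a normal subgroup and of a
subgroup of the quotient containing its image. -/
theorem card_dvd_of_map (N : Subgroup Γ) [N.Normal] (A : Subgroup Γ) (B : Subgroup (Γ ⧸ N))
    (hAB : A.map (QuotientGroup.mk' N) ≤ B) : Nat.card A ∣ Nat.card N * Nat.card B := by
  let g : A →* Γ ⧸ N := (QuotientGroup.mk' N).comp A.subtype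
  have h1 : Nat.card g.ker * Nat.card g.range = Nat.card A := by
    rw [← Subgroup.index_ker]; exact Subgroup.card_mul_index g.ker
  have h2 : Nat.card g.ker ∣ Nat.card N := by
    have hmem : ∀ x : g.ker, ((x : A) : Γ) ∈ N := by
      intro x
      have := x.2
      rw [MonoidHom.mem_ker] at this
      exact (QuotientGroup.eq_one_iff _).mp this
    let f : g.ker →* N := (A.subtype.comp g.ker.subtype).codRestrict N hmem
    apply Subgroup.card_dvd_of_injective f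
    intro x y hxy
    have := congrArg (fun t : N => (t : Γ)) hxy
    exact Subtype.ext (Subtype.ext this)
  have h3 : Nat.card g.range ∣ Nat.card B := by
    apply Subgroup.card_dvd_of_le
    rintro _ ⟨x, rfl⟩
    exact hAB ⟨x, x.2, rfl⟩
  rw [← h1]
  exact mul_dvd_mul h2 h3

/-- Rank four with conjugators between pairs of generators: the commutator subgroup of the
preimage of `E ⋊ D₈` meets the kernel in a group of order dividing four. -/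
theorem card_dvd_four_aux (h : HypQ τ E C R S G0 T e0) (A1 A2 A3 A4 T1 T2 T3 T4 T5 : Γ)
    (hE : E = closure {τ A1, τ A2, τ A3, τ A4})
    (h1a : τ T1 * τ A1 = τ A2 * τ T1) (h1b : τ T1 * τ A3 = τ A4 * τ T1)
    (h2a : τ T2 * τ A1 = τ A1 * τ T2) (h2b : τ T2 * τ A3 = (τ A3 * τ A2) * τ T2)
    (h3a : τ T3 * τ A1 = τ A1 * τ T3) (h3b : τ T3 * τ A3 = (τ A3 * τ A4) * τ T3)
    (h4a : τ T4 * τ A1 = τ A2 * τ T4) (h4b : τ T4 * τ A3 = (τ A4 * τ A3) * τ T4)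
    (h5a : τ T5 * τ A1 = (τ A1 * τ A4) * τ T5) (h5b : τ T5 * τ A3 = τ A3 * τ T5) :
    Nat.card ↥(⁅(E ⊔ closure {τ R, τ S}).comap τ, (E ⊔ closure {τ R, τ S}).comap τ⁆ ⊓ τ.ker)
      ∣ 4 := by
  have m1 : τ A1 ∈ E := by rw [hE]; exact subset_closure (by simp)
  have m2 : τ A2 ∈ E := by rw [hE]; exact subset_closure (by simp)
  have m3 : τ A3 ∈ E := by rw [hE]; exact subset_closure (by simp)
  have m4 : τ A4 ∈ E := by rw [hE]; exact subset_closure (by simp)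
  have c24 : ⁅A2, A4⁆ = ⁅A1, A3⁆ := comm_conj h m1 m3 h1a h1b
  have c12 : ⁅A1, A2⁆ = 1 := by
    have e : ⁅A1, A3 * A2⁆ = ⁅A1, A3⁆ := comm_conj h m1 m3 h2a (by rw [map_mul]; exact h2b)
    rw [comm_mul_right h m1 m2] at e
    exact mul_left_cancel (e.trans (mul_one _).symm)
  have c14 : ⁅A1, A4⁆ = 1 := by
    have e : ⁅A1, A3 * A4⁆ = ⁅A1, A3⁆ := comm_conj h m1 m3 h3a (by rw [map_mul]; exact h3b)
    rw [comm_mul_right h m1 m4] at e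
    exact mul_left_cancel (e.trans (mul_one _).symm)
  have c23 : ⁅A2, A3⁆ = 1 := by
    have e : ⁅A2, A4 * A3⁆ = ⁅A1, A3⁆ := comm_conj h m1 m3 h4a (by rw [map_mul]; exact h4b)
    rw [comm_mul_right h m2 m3, c24] at e
    exact mul_left_cancel (e.trans (mul_one _).symm)
  have c43 : ⁅A4, A3⁆ = 1 := by
    have e : ⁅A1 * A4, A3⁆ = ⁅A1, A3⁆ := comm_conj h m1 m3 (by rw [map_mul]; exact h5a) h5b
    rw [comm_mul_left h m1 m4 m3] at e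
    exact mul_left_cancel (e.trans (mul_one _).symm)
  have hz1k : ⁅A1, A3⁆ ∈ τ.ker := comm_ker h m1 m3
  have hz1sq : ⁅A1, A3⁆ * ⁅A1, A3⁆ = 1 := by
    rw [← comm_mul_left h m1 m1 m3]
    exact comm_central_left h (by rw [MonoidHom.mem_ker, map_mul]; exact h.sq _ m1) A3
  have hNc : zpowers ⁅A1, A3⁆ ≤ center Γ := (zpowers_le (H := center Γ)).mpr (h.hc hz1k)
  have hNk : zpowers ⁅A1, A3⁆ ≤ τ.ker := (zpowers_le (H := τ.ker)).mpr hz1k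
  have hNn : (zpowers ⁅A1, A3⁆).Normal := Hopf.normal_of_le_center _ hNc
  have hcardN : Nat.card (zpowers ⁅A1, A3⁆) ∣ 2 := by
    rw [Nat.card_zpowers]
    exact orderOf_dvd_of_pow_eq_one (by rw [pow_two]; exact hz1sq)
  have hz : ⁅A1, A3⁆ ∈ zpowers ⁅A1, A3⁆ := mem_zpowers _
  have hzi : ⁅A3, A1⁆ ∈ zpowers ⁅A1, A3⁆ := by
    have := Subgroup.inv_mem _ hz
    rwa [commutatorElement_inv] at this
  have c21 : ⁅A2, A1⁆ = 1 := by rw [← commutatorElement_inv, c12, inv_one]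
  have c41 : ⁅A4, A1⁆ = 1 := by rw [← commutatorElement_inv, c14, inv_one]
  have c32 : ⁅A3, A2⁆ = 1 := by rw [← commutatorElement_inv, c23, inv_one]
  have c34 : ⁅A3, A4⁆ = 1 := by rw [← commutatorElement_inv, c43, inv_one]
  have c42 : ⁅A4, A2⁆ ∈ zpowers ⁅A1, A3⁆ := by
    have e : ⁅A4, A2⁆ = ⁅A1, A3⁆⁻¹ := by rw [← c24, commutatorElement_inv]
    rw [e]; exact Subgroup.inv_mem _ hz
  have hpair : ∀ s ∈ ({A1, A2, A3, A4} : Set Γ) ∪ (τ.ker : Set Γ),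
      ∀ t ∈ ({A1, A2, A3, A4} : Set Γ) ∪ (τ.ker : Set Γ), ⁅s, t⁆ ∈ zpowers ⁅A1, A3⁆ := by
    rintro s (hs | hs) t (ht | ht)
    · rcases hs with rfl | rfl | rfl | rfl <;> rcases ht with rfl | rfl | rfl | rfl
      · rw [commutatorElement_self]; exact Subgroup.one_mem _
      · rw [c12]; exact Subgroup.one_mem _
      · exact hz
      · rw [c14]; exact Subgroup.one_mem _
      · rw [c21]; exact Subgroup.one_mem _
      · rw [commutatorElement_self]; exact Subgroup.one_mem _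
      · rw [c23]; exact Subgroup.one_mem _
      · rw [c24]; exact hz
      · exact hzi
      · rw [c32]; exact Subgroup.one_mem _
      · rw [commutatorElement_self]; exact Subgroup.one_mem _
      · rw [c34]; exact Subgroup.one_mem _
      · rw [c41]; exact Subgroup.one_mem _
      · exact c42
      · rw [c43]; exact Subgroup.one_mem _
      · rw [commutatorElement_self]; exact Subgroup.one_mem _
    · rw [comm_central_right h ht]; exact Subgroup.one_mem _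
    · rw [comm_central_left h hs]; exact Subgroup.one_mem _
    · rw [comm_central_left h hs]; exact Subgroup.one_mem _
  have hcl : ∀ a : Γ, τ a ∈ E →
      a ∈ closure (({A1, A2, A3, A4} : Set Γ) ∪ (τ.ker : Set Γ)) := by
    intro a ha
    rw [Subgroup.closure_union, Subgroup.closure_eq, ← StemLocal.comap_closure_image]
    rw [Subgroup.mem_comap]
    have e : τ '' ({A1, A2, A3, A4} : Set Γ) = {τ A1, τ A2, τ A3, τ A4} := by
      simp only [Set.image_insert_eq, Set.image_singleton]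
    rw [e, ← hE]
    exact ha
  have hcomm : ∀ a b : Γ, τ a ∈ E → τ b ∈ E → ⁅a, b⁆ ∈ zpowers ⁅A1, A3⁆ := by
    intro a b ha hb
    exact StemB.commutator_mem_of_closure _ _
      (fun s _ => by rw [Subgroup.normalizer_eq_top]; exact Subgroup.mem_top s)
      hpair a (hcl a ha) b (hcl b hb)
  -- the quotient by the central subgroup
  let τ' : Γ ⧸ zpowers ⁅A1, A3⁆ →* Q := QuotientGroup.lift (zpowers ⁅A1, A3⁆) τ hNk
  let q : Γ →* Γ ⧸ zpowers ⁅A1, A3⁆ := QuotientGroup.mk' (zpowers ⁅A1, A3⁆)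
  have hq : ∀ x : Γ, τ' (q x) = τ x := fun x => rfl
  have hA : HypA τ' E (q C) (q R) (q S) (q G0) T e0 :=
    { hc := by
        intro x hx
        obtain ⟨a, rfl⟩ := QuotientGroup.mk'_surjective (zpowers ⁅A1, A3⁆) x
        have hak : a ∈ τ.ker := hx
        rw [Subgroup.mem_center_iff]
        intro y
        obtain ⟨b, rfl⟩ := QuotientGroup.mk'_surjective (zpowers ⁅A1, A3⁆) y
        rw [← map_mul, ← map_mul, kc h hak b]
      lift := fun e he => by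
        obtain ⟨a, rfl⟩ := h.lift e he
        exact ⟨q a, rfl⟩
      sq := h.sq
      cE := h.cE
      cE' := h.cE'
      fpf := h.fpf
      rE := h.rE
      rE' := h.rE'
      sE := h.sE
      rc := h.rc
      rc' := h.rc'
      s2 := h.s2
      sr := h.sr
      r2 := h.r2
      vs := h.vs
      vr := h.vr
      he0 := h.he0
      hT := h.hT
      cov := h.cov
      comm := by
        intro x y hx hy
        obtain ⟨a, rfl⟩ := QuotientGroup.mk'_surjective (zpowers ⁅A1, A3⁆) x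
        obtain ⟨b, rfl⟩ := QuotientGroup.mk'_surjective (zpowers ⁅A1, A3⁆) y
        have h1 := hcomm b⁻¹ a⁻¹ (by rw [map_inv]; exact E.inv_mem hy)
          (by rw [map_inv]; exact E.inv_mem hx)
        rw [← map_mul, ← map_mul]
        apply (QuotientGroup.eq).mpr
        have e : (a * b)⁻¹ * (b * a) = ⁅b⁻¹, a⁻¹⁆ := by
          rw [commutatorElement_def]; group
        rw [e]; exact h1 }
  have h2 := card_dvd_two hA
  have h3 := card_dvd_of_map (zpowers ⁅A1, A3⁆)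
    (⁅(E ⊔ closure {τ R, τ S}).comap τ, (E ⊔ closure {τ R, τ S}).comap τ⁆ ⊓ τ.ker)
    (⁅(E ⊔ closure {τ' (q R), τ' (q S)}).comap τ',
      (E ⊔ closure {τ' (q R), τ' (q S)}).comap τ'⁆ ⊓ τ'.ker) (by
    rintro _ ⟨x, ⟨hx, hxk⟩, rfl⟩
    refine ⟨?_, ?_⟩
    · have h4 : QuotientGroup.mk' (zpowers ⁅A1, A3⁆) x ∈
          (⁅(E ⊔ closure {τ R, τ S}).comap τ, (E ⊔ closure {τ R, τ S}).comap τ⁆).map
            (QuotientGroup.mk' (zpowers ⁅A1, A3⁆)) := ⟨x, hx, rfl⟩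
      rw [Subgroup.map_commutator] at h4
      have hle : ((E ⊔ closure {τ R, τ S}).comap τ).map (QuotientGroup.mk' (zpowers ⁅A1, A3⁆))
          ≤ (E ⊔ closure {τ' (q R), τ' (q S)}).comap τ' := by
        rintro _ ⟨y, hy, rfl⟩
        exact hy
      exact commutator_mono hle hle h4
    · exact hxk)
  exact dvd_trans h3 (mul_dvd_mul hcardN h2)

/-- The same statement with the hypotheses on the image stated for elements of the image. -/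
theorem card_dvd_four (τ : Γ →* Q) (hc : τ.ker ≤ center Γ) (E : Subgroup Q)
    (c r s g0 e0 e1 e2 e3 e4 t1 t2 t3 t4 t5 : Q) (T : Set Q)
    (hE : E = closure {e1, e2, e3, e4})
    (hEl : ∀ e ∈ E, ∃ a : Γ, τ a = e)
    (hτ : ∀ x ∈ ({c, r, s, g0, t1, t2, t3, t4, t5} : Set Q), ∃ a : Γ, τ a = x)
    (hsq : ∀ e ∈ E, e * e = 1)
    (hcE : ∀ e ∈ E, c * e * c⁻¹ ∈ E) (hcE' : ∀ e ∈ E, c⁻¹ * e * c ∈ E)
    (hfpf : ∀ e ∈ E, e * (c * e * c⁻¹) * (c⁻¹ * e * c) = 1)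
    (hrE : ∀ e ∈ E, r * e * r⁻¹ ∈ E) (hrE' : ∀ e ∈ E, r⁻¹ * e * r ∈ E)
    (hsE : ∀ e ∈ E, s * e * s⁻¹ ∈ E)
    (hrc : (r * c * r⁻¹) * c = c * (r * c * r⁻¹))
    (hrc' : (r⁻¹ * c * r) * c = c * (r⁻¹ * c * r))
    (hs2 : s * s = 1) (hsr : s * r * s⁻¹ = r⁻¹) (hr2 : r * r ∉ E)
    (hvs : ∃ v ∈ E, g0 * s = v * g0) (hvr : ∃ v ∈ E, g0 * (r * r) = v * g0)
    (he0 : e0 ∈ E)
    (hT : ∀ t ∈ T, ∃ v ∈ E, t = v * (s * v * s⁻¹) ∨ t = v * ((r * s) * v * (r * s)⁻¹))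
    (hcov : ∀ e ∈ E, e ∈ closure T ∨ e * e0 ∈ closure T)
    (h1a : t1 * e1 = e2 * t1) (h1b : t1 * e3 = e4 * t1)
    (h2a : t2 * e1 = e1 * t2) (h2b : t2 * e3 = (e3 * e2) * t2)
    (h3a : t3 * e1 = e1 * t3) (h3b : t3 * e3 = (e3 * e4) * t3)
    (h4a : t4 * e1 = e2 * t4) (h4b : t4 * e3 = (e4 * e3) * t4)
    (h5a : t5 * e1 = (e1 * e4) * t5) (h5b : t5 * e3 = e3 * t5) :
    Nat.card ↥(⁅(E ⊔ closure {r, s}).comap τ, (E ⊔ closure {r, s}).comap τ⁆ ⊓ τ.ker) ∣ 4 := by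
  obtain ⟨C, rfl⟩ := hτ c (by simp)
  obtain ⟨R, rfl⟩ := hτ r (by simp)
  obtain ⟨S, rfl⟩ := hτ s (by simp)
  obtain ⟨G0, rfl⟩ := hτ g0 (by simp)
  obtain ⟨T1, rfl⟩ := hτ t1 (by simp)
  obtain ⟨T2, rfl⟩ := hτ t2 (by simp)
  obtain ⟨T3, rfl⟩ := hτ t3 (by simp)
  obtain ⟨T4, rfl⟩ := hτ t4 (by simp)
  obtain ⟨T5, rfl⟩ := hτ t5 (by simp)
  obtain ⟨A1, rfl⟩ := hEl e1 (by rw [hE]; exact subset_closure (by simp))
  obtain ⟨A2, rfl⟩ := hEl e2 (by rw [hE]; exact subset_closure (by simp))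
  obtain ⟨A3, rfl⟩ := hEl e3 (by rw [hE]; exact subset_closure (by simp))
  obtain ⟨A4, rfl⟩ := hEl e4 (by rw [hE]; exact subset_closure (by simp))
  exact card_dvd_four_aux (C := C) (G0 := G0) (T := T) (e0 := e0)
    ⟨hc, hEl, hsq, hcE, hcE', hfpf, hrE, hrE', hsE, hrc, hrc', hs2, hsr, hr2, hvs, hvr, he0, hT,
      hcov⟩ A1 A2 A3 A4 T1 T2 T3 T4 T5 hE h1a h1b h2a h2b h3a h3b h4a h4b h5a h5b

end B

end Cfsg.Agent.Lib.Helper35.StemF
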