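-- Central extensions over a 2-group `E ⋊ V` with `E` elementary abelian of rank four and `V` a
-- four-group generated by an involution and its conjugate under a fixed-point-free element of
-- order three: the commutator subgroup of the preimage meets the kernel in a group of order
-- dividing four if the lifts of `E` commute, and of order dividing sixteen in general.
import Mathlib
import Cfsg.Agent.Lib.Helper35.StemF

set_option autoImplicit false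

namespace Cfsg.Agent.Lib.Helper35.StemG

open Subgroup Cfsg.Agent.Lib.Helper35 Cfsg.Agent.Lib.Helper66
open scoped commutatorElement

variable {Γ Q : Type*} [Group Γ] [Group Q]

/-- The hypotheses on the image: `E` of exponent two covered by the extension, an element
`τ C` acting without fixed points on `E`, an involution `τ S` normalising `E`, fusion of
`τ S` and its conjugate into `E`, and commutators with `τ S` generating a subgroup of `E`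
with at most four cosets. -/
structure HypS (τ : Γ →* Q) (E : Subgroup Q) (C S G0 : Γ) (T : Set Q) (ea eb : Q) : Prop where
  hc : τ.ker ≤ center Γ
  lift : ∀ e ∈ E, ∃ a : Γ, τ a = e
  sq : ∀ e ∈ E, e * e = 1
  cE : ∀ e ∈ E, τ C * e * (τ C)⁻¹ ∈ E
  cE' : ∀ e ∈ E, (τ C)⁻¹ * e * τ C ∈ E
  fpf : ∀ e ∈ E, e * (τ C * e * (τ C)⁻¹) * ((τ C)⁻¹ * e * τ C) = 1
  sE : ∀ e ∈ E, τ S * e * (τ S)⁻¹ ∈ E
  s2 : τ S * τ S = 1
  fus1 : ∃ v ∈ E, τ G0 * τ S = v * τ G0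
  fus2 : ∃ v ∈ E, τ G0 * (τ C * τ S) = v * (τ G0 * τ C)
  hea : ea ∈ E
  heb : eb ∈ E
  hT : ∀ t ∈ T, ∃ v ∈ E, t = v * (τ S * v * (τ S)⁻¹)
  cov : ∀ e ∈ E, e ∈ closure T ∨ e * ea ∈ closure T ∨ e * eb ∈ closure T ∨
    e * (ea * eb) ∈ closure T

/-- The hypotheses of the first theorem: moreover the lifts of `E` commute. -/
structure HypA (τ : Γ →* Q) (E : Subgroup Q) (C S G0 : Γ) (T : Set Q) (ea eb : Q) : Prop
    extends HypS τ E C S G0 T ea eb where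
  comm : ∀ a b : Γ, τ a ∈ E → τ b ∈ E → a * b = b * a

section General

/-- The subgroup generated by two elements of order at most two, one of them central, has
order dividing four. -/
theorem card_sup_zpowers_dvd {za zb : Γ} (hza : za ∈ center Γ) (ha2 : za * za = 1)
    (hb2 : zb * zb = 1) : Nat.card ↥(zpowers za ⊔ zpowers zb) ∣ 4 := by
  have hNc : zpowers za ≤ center Γ := (zpowers_le (H := center Γ)).mpr hza
  have hNn : (zpowers za).Normal := Hopf.normal_of_le_center _ hNc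
  have h := StemF.card_dvd_of_map (zpowers za) (zpowers za ⊔ zpowers zb)
    (zpowers (QuotientGroup.mk' (zpowers za) zb)) (by
      rw [Subgroup.map_sup, MonoidHom.map_zpowers, MonoidHom.map_zpowers]
      apply sup_le
      · rw [zpowers_le]
        have e : QuotientGroup.mk' (zpowers za) za = 1 :=
          (QuotientGroup.eq_one_iff za).mpr (mem_zpowers za)
        rw [e]; exact Subgroup.one_mem _
      · exact le_rfl)
  have h1 : Nat.card (zpowers za) ∣ 2 := by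
    rw [Nat.card_zpowers]
    exact orderOf_dvd_of_pow_eq_one (by rw [pow_two]; exact ha2)
  have h2 : Nat.card (zpowers (QuotientGroup.mk' (zpowers za) zb)) ∣ 2 := by
    rw [Nat.card_zpowers]
    apply orderOf_dvd_of_pow_eq_one
    rw [pow_two, ← map_mul, hb2, map_one]
  exact dvd_trans h (mul_dvd_mul h1 h2)

end General

section A

variable {τ : Γ →* Q} {E : Subgroup Q} {C S G0 : Γ} {T : Set Q} {ea eb : Q}

theorem kc (h : HypS τ E C S G0 T ea eb) {k : Γ} (hk : k ∈ τ.ker) (g : Γ) : g * k = k * g :=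
  StemB.ker_comm h.hc hk g

theorem E_comm (h : HypS τ E C S G0 T ea eb) {e f : Q} (he : e ∈ E) (hf : f ∈ E) :
    e * f = f * e := by
  have e1 : e⁻¹ = e := inv_eq_of_mul_eq_one_left (h.sq e he)
  have f1 : f⁻¹ = f := inv_eq_of_mul_eq_one_left (h.sq f hf)
  have h3 := inv_eq_of_mul_eq_one_left (h.sq (e * f) (E.mul_mem he hf))
  rw [mul_inv_rev, e1, f1] at h3
  exact h3.symm

theorem E_inv (h : HypS τ E C S G0 T ea eb) {e : Q} (he : e ∈ E) : e⁻¹ = e :=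
  inv_eq_of_mul_eq_one_left (h.sq e he)

theorem tC (h : HypS τ E C S G0 T ea eb) {a : Γ} (ha : τ a ∈ E) : τ (C * a * C⁻¹) ∈ E := by
  simpa only [map_mul, map_inv] using h.cE _ ha

theorem tC' (h : HypS τ E C S G0 T ea eb) {a : Γ} (ha : τ a ∈ E) : τ (C⁻¹ * a * C) ∈ E := by
  simpa only [map_mul, map_inv] using h.cE' _ ha

theorem tS (h : HypS τ E C S G0 T ea eb) {a : Γ} (ha : τ a ∈ E) : τ (S * a * S⁻¹) ∈ E := by
  simpa only [map_mul, map_inv] using h.sE _ ha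

theorem S2_ker (h : HypS τ E C S G0 T ea eb) : S * S ∈ τ.ker := by
  rw [MonoidHom.mem_ker, map_mul]; exact h.s2

/-- The commutators of the lifts of `E` with the element of order three. -/
def E0 (h : HypA τ E C S G0 T ea eb) : Subgroup Γ where
  carrier := {x | ∃ e : Γ, τ e ∈ E ∧ x = C * e * C⁻¹ * e⁻¹}
  one_mem' := ⟨1, by rw [map_one]; exact E.one_mem, by group⟩
  mul_mem' := by
    rintro _ _ ⟨e, he, rfl⟩ ⟨f, hf, rfl⟩
    refine ⟨e * f, by rw [map_mul]; exact E.mul_mem he hf, ?_⟩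
    have h1 : e⁻¹ * (C * f * C⁻¹) = (C * f * C⁻¹) * e⁻¹ :=
      h.comm _ _ (by rw [map_inv]; exact E.inv_mem he) (tC h.toHypS hf)
    have h2 : e⁻¹ * f⁻¹ = f⁻¹ * e⁻¹ :=
      h.comm _ _ (by rw [map_inv]; exact E.inv_mem he) (by rw [map_inv]; exact E.inv_mem hf)
    calc C * e * C⁻¹ * e⁻¹ * (C * f * C⁻¹ * f⁻¹)
        = C * e * C⁻¹ * (e⁻¹ * (C * f * C⁻¹)) * f⁻¹ := by group
      _ = C * e * C⁻¹ * ((C * f * C⁻¹) * e⁻¹) * f⁻¹ := by rw [h1]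
      _ = C * (e * f) * C⁻¹ * (e⁻¹ * f⁻¹) := by group
      _ = C * (e * f) * C⁻¹ * (e * f)⁻¹ := by rw [h2]; group
  inv_mem' := by
    rintro _ ⟨e, he, rfl⟩
    refine ⟨e⁻¹, by rw [map_inv]; exact E.inv_mem he, ?_⟩
    have h1 : e * (C * e⁻¹ * C⁻¹) = (C * e⁻¹ * C⁻¹) * e :=
      h.comm _ _ he (tC h.toHypS (by rw [map_inv]; exact E.inv_mem he))
    calc (C * e * C⁻¹ * e⁻¹)⁻¹ = e * (C * e⁻¹ * C⁻¹) := by group
      _ = (C * e⁻¹ * C⁻¹) * e := h1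
      _ = C * e⁻¹ * C⁻¹ * e⁻¹⁻¹ := by group

variable (h : HypA τ E C S G0 T ea eb)
include h

theorem E0_le {x : Γ} (hx : x ∈ E0 h) : τ x ∈ E := by
  obtain ⟨e, he, rfl⟩ := hx
  rw [map_mul, map_inv]
  exact E.mul_mem (tC h.toHypS he) (E.inv_mem he)

theorem E0_ker {x : Γ} (hx : x ∈ E0 h) (hx1 : τ x = 1) : x = 1 := by
  obtain ⟨e, he, rfl⟩ := hx
  have h1 : τ C * τ e * (τ C)⁻¹ = τ e := by
    have h0 : τ C * τ e * (τ C)⁻¹ * (τ e)⁻¹ = 1 := by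
      simpa only [map_mul, map_inv] using hx1
    exact mul_inv_eq_one.mp h0
  have h2 : (τ C)⁻¹ * τ e * τ C = τ e := by
    calc (τ C)⁻¹ * τ e * τ C = (τ C)⁻¹ * (τ C * τ e * (τ C)⁻¹) * τ C := by rw [h1]
      _ = τ e := by group
  have h3 := h.fpf _ he
  rw [h1, h2, h.sq _ he, one_mul] at h3
  have hk : e ∈ τ.ker := h3
  have h4 := kc h.toHypS hk C
  calc C * e * C⁻¹ * e⁻¹ = (C * e) * C⁻¹ * e⁻¹ := by group
    _ = (e * C) * C⁻¹ * e⁻¹ := by rw [h4]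
    _ = 1 := by group

theorem E0_lift {v : Q} (hv : v ∈ E) : ∃ f ∈ E0 h, τ f = v := by
  obtain ⟨a, rfl⟩ := h.lift v hv
  have he' : τ C * τ a * (τ C)⁻¹ ∈ E := h.cE _ hv
  have hx : τ C * (τ C * τ a * (τ C)⁻¹) * (τ C)⁻¹ ∈ E := h.cE _ he'
  have h3 := h.fpf _ he'
  have h4 : (τ C)⁻¹ * (τ C * τ a * (τ C)⁻¹) * τ C = τ a := by group
  rw [h4] at h3
  have h5 : (τ C * τ a * (τ C)⁻¹) * (τ C * (τ C * τ a * (τ C)⁻¹) * (τ C)⁻¹) = τ a := by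
    rw [eq_inv_of_mul_eq_one_left h3]; exact E_inv h.toHypS hv
  refine ⟨C * (C * a * C⁻¹) * C⁻¹ * (C * a * C⁻¹)⁻¹, ⟨C * a * C⁻¹, tC h.toHypS hv, rfl⟩, ?_⟩
  simp only [map_mul, map_inv]
  rw [E_inv h.toHypS he', E_comm h.toHypS hx he']
  exact h5

theorem E0_sq {f : Γ} (hf : f ∈ E0 h) : f * f = 1 :=
  E0_ker h ((E0 h).mul_mem hf hf) (by rw [map_mul]; exact h.sq _ (E0_le h hf))

theorem E0_inj {f g : Γ} (hf : f ∈ E0 h) (hg : g ∈ E0 h) (hfg : τ f = τ g) : f = g := by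
  have h1 := E0_ker h ((E0 h).mul_mem hf ((E0 h).inv_mem hg))
    (by rw [map_mul, map_inv, hfg, mul_inv_cancel])
  exact mul_inv_eq_one.mp h1

theorem E0_decomp {a : Γ} (ha : τ a ∈ E) : ∃ f ∈ E0 h, ∃ k ∈ τ.ker, a = f * k := by
  obtain ⟨f, hf, hfa⟩ := E0_lift h ha
  refine ⟨f, hf, f⁻¹ * a, ?_, by group⟩
  rw [MonoidHom.mem_ker, map_mul, map_inv, hfa, inv_mul_cancel]

/-- An element normalising the lifts of `E` and commuting with `C` modulo the kernel normalises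
`E0`. -/
theorem E0_conj (g : Γ) (hgE : ∀ a : Γ, τ a ∈ E → τ (g * a * g⁻¹) ∈ E)
    (hgc : τ g * τ C = τ C * τ g) {f : Γ} (hf : f ∈ E0 h) : g * f * g⁻¹ ∈ E0 h := by
  obtain ⟨e, he, rfl⟩ := hf
  refine ⟨g * e * g⁻¹, hgE e he, ?_⟩
  have hk : g * C * g⁻¹ * C⁻¹ ∈ τ.ker := by
    rw [MonoidHom.mem_ker]
    simp only [map_mul, map_inv]
    rw [hgc]; group
  have hkc := kc h.toHypS hk (C * (g * e * g⁻¹) * C⁻¹)
  calc g * (C * e * C⁻¹ * e⁻¹) * g⁻¹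
      = (g * C * g⁻¹ * C⁻¹) * (C * (g * e * g⁻¹) * C⁻¹) * (g * C * g⁻¹ * C⁻¹)⁻¹
        * (g * e * g⁻¹)⁻¹ := by group
    _ = (C * (g * e * g⁻¹) * C⁻¹) * (g * C * g⁻¹ * C⁻¹) * (g * C * g⁻¹ * C⁻¹)⁻¹
        * (g * e * g⁻¹)⁻¹ := by rw [hkc]
    _ = C * (g * e * g⁻¹) * C⁻¹ * (g * e * g⁻¹)⁻¹ := by group

theorem E0_C {f : Γ} (hf : f ∈ E0 h) : C * f * C⁻¹ ∈ E0 h :=
  E0_conj h C (fun _ ha => tC h.toHypS ha) rfl hf

theorem E0_C' {f : Γ} (hf : f ∈ E0 h) : C⁻¹ * f * C ∈ E0 h := by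
  have h1 := E0_conj h C⁻¹ (fun a ha => by simpa only [inv_inv] using tC' h.toHypS ha)
    (by rw [map_inv, inv_mul_cancel, mul_inv_cancel]) hf
  simpa only [inv_inv] using h1

/-- The elements of `E0` whose conjugate by `S` lies in `E0`. -/
def K0 : Subgroup Γ where
  carrier := {f | f ∈ E0 h ∧ S * f * S⁻¹ ∈ E0 h}
  one_mem' := ⟨(E0 h).one_mem, by
    have e : S * 1 * S⁻¹ = (1 : Γ) := by group
    rw [e]; exact (E0 h).one_mem⟩
  mul_mem' := by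
    rintro a b ⟨ha, ha'⟩ ⟨hb, hb'⟩
    refine ⟨(E0 h).mul_mem ha hb, ?_⟩
    have e : S * (a * b) * S⁻¹ = (S * a * S⁻¹) * (S * b * S⁻¹) := by group
    rw [e]; exact (E0 h).mul_mem ha' hb'
  inv_mem' := by
    rintro a ⟨ha, ha'⟩
    refine ⟨(E0 h).inv_mem ha, ?_⟩
    have e : S * a⁻¹ * S⁻¹ = (S * a * S⁻¹)⁻¹ := by group
    rw [e]; exact (E0 h).inv_mem ha'

/-- A lift in `E0` of `v * (g v g⁻¹)` fixed by `g`, for `g` with square in the kernel. -/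
theorem fix_lift (g : Γ) (hg2 : g * g ∈ τ.ker) (hgE : ∀ a : Γ, τ a ∈ E → τ (g * a * g⁻¹) ∈ E)
    {v : Q} (hv : v ∈ E) :
    ∃ f ∈ E0 h, τ f = v * (τ g * v * (τ g)⁻¹) ∧ g * f * g⁻¹ = f := by
  obtain ⟨a, rfl⟩ := h.lift v hv
  have hn : τ (a * (g * a * g⁻¹)) ∈ E := by
    rw [map_mul]; exact E.mul_mem hv (hgE a hv)
  obtain ⟨f, hf, k, hk, hfk⟩ := E0_decomp h hn
  have hg2c := kc h.toHypS hg2 a
  have hcomm : (g * a * g⁻¹) * a = a * (g * a * g⁻¹) := h.comm _ _ (hgE a hv) hv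
  have hfix : g * (a * (g * a * g⁻¹)) * g⁻¹ = a * (g * a * g⁻¹) := by
    calc g * (a * (g * a * g⁻¹)) * g⁻¹ = (g * a * g⁻¹) * ((g * g) * a) * (g * g)⁻¹ := by group
      _ = (g * a * g⁻¹) * (a * (g * g)) * (g * g)⁻¹ := by rw [hg2c]
      _ = (g * a * g⁻¹) * a := by group
      _ = a * (g * a * g⁻¹) := hcomm
  have hf' : f = a * (g * a * g⁻¹) * k⁻¹ := by rw [hfk]; group
  have hkc' := kc h.toHypS (τ.ker.inv_mem hk) g⁻¹
  refine ⟨f, hf, ?_, ?_⟩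
  · have h1 : τ (a * (g * a * g⁻¹)) = τ f := by
      rw [hfk, τ.map_mul f k, MonoidHom.mem_ker.mp hk, mul_one]
    rw [← h1]; simp only [map_mul, map_inv]
  · calc g * f * g⁻¹ = g * (a * (g * a * g⁻¹) * k⁻¹) * g⁻¹ := by rw [← hf']
      _ = g * (a * (g * a * g⁻¹)) * (k⁻¹ * g⁻¹) := by group
      _ = g * (a * (g * a * g⁻¹)) * (g⁻¹ * k⁻¹) := by rw [hkc']
      _ = (g * (a * (g * a * g⁻¹)) * g⁻¹) * k⁻¹ := by group
      _ = a * (g * a * g⁻¹) * k⁻¹ := by rw [hfix]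
      _ = f := hf'.symm

theorem K0_T {t : Q} (ht : t ∈ T) : ∃ f ∈ K0 h, τ f = t := by
  obtain ⟨v, hv, rfl⟩ := h.hT t ht
  obtain ⟨f, hf, hfv, hfix⟩ := fix_lift h S (S2_ker h.toHypS) (fun _ ha => tS h.toHypS ha) hv
  exact ⟨f, ⟨hf, by rw [hfix]; exact hf⟩, hfv⟩

theorem K0_cl {x : Q} (hx : x ∈ closure T) : ∃ f ∈ K0 h, τ f = x := by
  have hle : closure T ≤ (K0 h).map τ := by
    rw [closure_le]
    intro t ht
    exact K0_T h ht
  exact hle hx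

theorem K0_of {f : Γ} (hf : f ∈ E0 h) (hfT : τ f ∈ closure T) : f ∈ K0 h := by
  obtain ⟨k, hk, hkf⟩ := K0_cl h hfT
  have := E0_inj h hk.1 hf hkf
  rwa [this] at hk

/-- A central subgroup of order dividing four measuring the failure of `S` to normalise
`E0`. -/
theorem exists_Z : ∃ Z : Subgroup Γ, Z ≤ τ.ker ∧ Nat.card Z ∣ 4 ∧
    ∀ f ∈ E0 h, S * f * S⁻¹ ∈ E0 h ⊔ Z := by
  obtain ⟨Fa, hFa, hFae⟩ := E0_lift h h.hea
  obtain ⟨fa, hfa, hfae⟩ := E0_lift h (h.sE ea h.hea)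
  obtain ⟨Fb, hFb, hFbe⟩ := E0_lift h h.heb
  obtain ⟨fb, hfb, hfbe⟩ := E0_lift h (h.sE eb h.heb)
  have key : ∀ (F f : Γ), F ∈ E0 h → f ∈ E0 h → τ f = τ S * τ F * (τ S)⁻¹ →
      (S * F * S⁻¹) * f⁻¹ ∈ τ.ker ∧ ((S * F * S⁻¹) * f⁻¹) * ((S * F * S⁻¹) * f⁻¹) = 1 := by
    intro F f hF hf hfe
    have hXE : τ (S * F * S⁻¹) ∈ E := tS h.toHypS (E0_le h hF)
    have hYE : τ f⁻¹ ∈ E := by rw [map_inv]; exact E.inv_mem (E0_le h hf)
    have hXY : (S * F * S⁻¹) * f⁻¹ = f⁻¹ * (S * F * S⁻¹) := h.comm _ _ hXE hYE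
    have hXX : (S * F * S⁻¹) * (S * F * S⁻¹) = 1 := by
      calc (S * F * S⁻¹) * (S * F * S⁻¹) = S * (F * F) * S⁻¹ := by group
        _ = 1 := by rw [E0_sq h hF]; group
    have hYY : f⁻¹ * f⁻¹ = 1 := E0_sq h ((E0 h).inv_mem hf)
    refine ⟨?_, ?_⟩
    · rw [MonoidHom.mem_ker]
      simp only [map_mul, map_inv]
      rw [hfe, mul_inv_cancel]
    · calc ((S * F * S⁻¹) * f⁻¹) * ((S * F * S⁻¹) * f⁻¹)
          = (S * F * S⁻¹) * (f⁻¹ * (S * F * S⁻¹)) * f⁻¹ := by group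
        _ = (S * F * S⁻¹) * ((S * F * S⁻¹) * f⁻¹) * f⁻¹ := by rw [hXY]
        _ = ((S * F * S⁻¹) * (S * F * S⁻¹)) * (f⁻¹ * f⁻¹) := by group
        _ = 1 := by rw [hXX, hYY, one_mul]
  obtain ⟨hzak, hza2⟩ := key Fa fa hFa hfa (by rw [hfae, hFae])
  obtain ⟨hzbk, hzb2⟩ := key Fb fb hFb hfb (by rw [hfbe, hFbe])
  set za := (S * Fa * S⁻¹) * fa⁻¹ with hza
  set zb := (S * Fb * S⁻¹) * fb⁻¹ with hzb
  have hZa : za ∈ zpowers za ⊔ zpowers zb := le_sup_left (b := zpowers zb) (mem_zpowers za)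
  have hZb : zb ∈ zpowers za ⊔ zpowers zb := le_sup_right (a := zpowers za) (mem_zpowers zb)
  have hA : S * Fa * S⁻¹ ∈ E0 h ⊔ (zpowers za ⊔ zpowers zb) := by
    have e : S * Fa * S⁻¹ = za * fa := by rw [hza]; group
    rw [e]
    exact Subgroup.mul_mem _ (le_sup_right (a := E0 h) hZa) (le_sup_left (a := E0 h) hfa)
  have hB : S * Fb * S⁻¹ ∈ E0 h ⊔ (zpowers za ⊔ zpowers zb) := by
    have e : S * Fb * S⁻¹ = zb * fb := by rw [hzb]; group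
    rw [e]
    exact Subgroup.mul_mem _ (le_sup_right (a := E0 h) hZb) (le_sup_left (a := E0 h) hfb)
  refine ⟨zpowers za ⊔ zpowers zb, ?_, card_sup_zpowers_dvd (h.hc hzak) hza2 hzb2, ?_⟩
  · exact sup_le ((zpowers_le (H := τ.ker)).mpr hzak) ((zpowers_le (H := τ.ker)).mpr hzbk)
  · intro f hf
    rcases h.cov _ (E0_le h hf) with hT | hT | hT | hT
    · exact le_sup_left (a := E0 h) (K0_of h hf hT).2
    · have hmem : f * Fa ∈ K0 h :=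
        K0_of h ((E0 h).mul_mem hf hFa) (by rw [map_mul, hFae]; exact hT)
      have e : S * f * S⁻¹ = (S * (f * Fa) * S⁻¹) * (S * Fa * S⁻¹)⁻¹ := by group
      rw [e]
      exact Subgroup.mul_mem _ (le_sup_left (a := E0 h) hmem.2) (Subgroup.inv_mem _ hA)
    · have hmem : f * Fb ∈ K0 h :=
        K0_of h ((E0 h).mul_mem hf hFb) (by rw [map_mul, hFbe]; exact hT)
      have e : S * f * S⁻¹ = (S * (f * Fb) * S⁻¹) * (S * Fb * S⁻¹)⁻¹ := by group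
      rw [e]
      exact Subgroup.mul_mem _ (le_sup_left (a := E0 h) hmem.2) (Subgroup.inv_mem _ hB)
    · have hmem : f * (Fa * Fb) ∈ K0 h :=
        K0_of h ((E0 h).mul_mem hf ((E0 h).mul_mem hFa hFb))
          (by rw [map_mul, map_mul, hFae, hFbe]; exact hT)
      have e : S * f * S⁻¹ = (S * (f * (Fa * Fb)) * S⁻¹) * (S * Fb * S⁻¹)⁻¹
          * (S * Fa * S⁻¹)⁻¹ := by group
      rw [e]
      exact Subgroup.mul_mem _ (Subgroup.mul_mem _ (le_sup_left (a := E0 h) hmem.2)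
        (Subgroup.inv_mem _ hB)) (Subgroup.inv_mem _ hA)

theorem mem_M {Z : Subgroup Γ} (hZ : Z ≤ τ.ker) {x : Γ} (hx : x ∈ E0 h ⊔ Z) :
    ∃ f ∈ E0 h, ∃ k ∈ Z, x = f * k := by
  have hle : Z ≤ normalizer (E0 h : Set Γ) :=
    (hZ.trans h.hc).trans (Subgroup.center_le_normalizer _)
  exact StemB.exists_mul_of_mem_sup hle hx

theorem M_conj {Z : Subgroup Γ} (hZ : Z ≤ τ.ker) (g : Γ)
    (hg : ∀ f ∈ E0 h, g * f * g⁻¹ ∈ E0 h ⊔ Z) {x : Γ} (hx : x ∈ E0 h ⊔ Z) :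
    g * x * g⁻¹ ∈ E0 h ⊔ Z := by
  obtain ⟨f, hf, k, hk, rfl⟩ := mem_M h hZ hx
  have hkc := kc h.toHypS (hZ hk) g⁻¹
  have e : g * (f * k) * g⁻¹ = (g * f * g⁻¹) * k := by
    calc g * (f * k) * g⁻¹ = g * f * (k * g⁻¹) := by group
      _ = g * f * (g⁻¹ * k) := by rw [hkc]
      _ = (g * f * g⁻¹) * k := by group
  rw [e]
  exact Subgroup.mul_mem _ (hg f hf) (le_sup_right (a := E0 h) hk)

theorem M_le {Z : Subgroup Γ} (hZ : Z ≤ τ.ker) {x : Γ} (hx : x ∈ E0 h ⊔ Z) : τ x ∈ E := by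
  obtain ⟨f, hf, k, hk, rfl⟩ := mem_M h hZ hx
  rw [map_mul, MonoidHom.mem_ker.mp (hZ hk), mul_one]
  exact E0_le h hf

theorem M_ker {Z : Subgroup Γ} (hZ : Z ≤ τ.ker) {x : Γ} (hx : x ∈ E0 h ⊔ Z) (hx1 : τ x = 1) :
    x ∈ Z := by
  obtain ⟨f, hf, k, hk, rfl⟩ := mem_M h hZ hx
  rw [map_mul, MonoidHom.mem_ker.mp (hZ hk), mul_one] at hx1
  rw [E0_ker h hf hx1, one_mul]
  exact hk

theorem M_C {Z : Subgroup Γ} (hZ : Z ≤ τ.ker) {x : Γ} (hx : x ∈ E0 h ⊔ Z) :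
    C * x * C⁻¹ ∈ E0 h ⊔ Z :=
  M_conj h hZ C (fun _ hf => le_sup_left (a := E0 h) (E0_C h hf)) hx

theorem M_C' {Z : Subgroup Γ} (hZ : Z ≤ τ.ker) {x : Γ} (hx : x ∈ E0 h ⊔ Z) :
    C⁻¹ * x * C ∈ E0 h ⊔ Z := by
  have := M_conj h hZ C⁻¹ (fun f hf => le_sup_left (a := E0 h)
    (by simpa only [inv_inv] using E0_C' h hf)) hx
  simpa only [inv_inv] using this

theorem M_S {Z : Subgroup Γ} (hZ : Z ≤ τ.ker) (hZS : ∀ f ∈ E0 h, S * f * S⁻¹ ∈ E0 h ⊔ Z)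
    {x : Γ} (hx : x ∈ E0 h ⊔ Z) : S * x * S⁻¹ ∈ E0 h ⊔ Z :=
  M_conj h hZ S hZS hx

theorem M_S' {Z : Subgroup Γ} (hZ : Z ≤ τ.ker) (hZS : ∀ f ∈ E0 h, S * f * S⁻¹ ∈ E0 h ⊔ Z)
    {x : Γ} (hx : x ∈ E0 h ⊔ Z) : S⁻¹ * x * S ∈ E0 h ⊔ Z := by
  have hk := kc h.toHypS (S2_ker h.toHypS) x
  have e : S⁻¹ * x * S = S * x * S⁻¹ := by
    calc S⁻¹ * x * S = S * ((S * S)⁻¹ * (x * (S * S))) * S⁻¹ := by group
      _ = S * ((S * S)⁻¹ * ((S * S) * x)) * S⁻¹ := by rw [hk]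
      _ = S * x * S⁻¹ := by group
  rw [e]
  exact M_S h hZ hZS hx

/-- Commutators of lifts of `E` with an element normalising `E0 ⊔ Z` lie in `E0 ⊔ Z`. -/
theorem comm_mem_M {Z : Subgroup Γ} (g : Γ) (hg : ∀ f ∈ E0 h, g * f * g⁻¹ ∈ E0 h ⊔ Z) {a : Γ}
    (ha : τ a ∈ E) : ⁅a, g⁆ ∈ E0 h ⊔ Z := by
  obtain ⟨f, hf, k, hk, rfl⟩ := E0_decomp h ha
  have hkc := kc h.toHypS hk g
  have e : ⁅f * k, g⁆ = f * (g * f * g⁻¹)⁻¹ := by
    rw [commutatorElement_def]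
    calc f * k * g * (f * k)⁻¹ * g⁻¹ = f * (k * g) * k⁻¹ * f⁻¹ * g⁻¹ := by group
      _ = f * (g * k) * k⁻¹ * f⁻¹ * g⁻¹ := by rw [hkc]
      _ = f * (g * f * g⁻¹)⁻¹ := by group
  rw [e]
  exact Subgroup.mul_mem _ (le_sup_left (a := E0 h) hf) (Subgroup.inv_mem _ (hg f hf))

/-- The lifts of the two involutions commute, by fusion into `E`. -/
theorem S_comm : S * (C * S * C⁻¹) = (C * S * C⁻¹) * S := by
  obtain ⟨v, hv, hvs⟩ := h.fus1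
  obtain ⟨v', hv', hvs'⟩ := h.fus2
  have ha : τ (G0 * S * G0⁻¹) ∈ E := by
    simp only [map_mul, map_inv]
    rw [hvs, mul_inv_cancel_right]; exact hv
  have hb : τ (G0 * (C * S * C⁻¹) * G0⁻¹) ∈ E := by
    simp only [map_mul, map_inv]
    have : τ G0 * (τ C * τ S * (τ C)⁻¹) * (τ G0)⁻¹ = v' := by
      calc τ G0 * (τ C * τ S * (τ C)⁻¹) * (τ G0)⁻¹
          = (τ G0 * (τ C * τ S)) * (τ G0 * τ C)⁻¹ := by group
        _ = v' := by rw [hvs', mul_inv_cancel_right]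
    exact this ▸ hv'
  have h1 := h.comm _ _ ha hb
  have h2 : G0 * (S * (C * S * C⁻¹)) * G0⁻¹ = G0 * ((C * S * C⁻¹) * S) * G0⁻¹ := by
    calc G0 * (S * (C * S * C⁻¹)) * G0⁻¹ = G0 * S * G0⁻¹ * (G0 * (C * S * C⁻¹) * G0⁻¹) := by
          group
      _ = G0 * (C * S * C⁻¹) * G0⁻¹ * (G0 * S * G0⁻¹) := h1
      _ = G0 * ((C * S * C⁻¹) * S) * G0⁻¹ := by group
  exact mul_left_cancel (mul_right_cancel h2)

/-- The generating set of the preimage of `E ⋊ V`. -/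
def gens (τ : Γ →* Q) (E : Subgroup Q) (C S : Γ) : Set Γ := {a | τ a ∈ E} ∪ {S, C * S * C⁻¹}

omit h in
theorem comap_le_closure (h : HypS τ E C S G0 T ea eb) :
    (E ⊔ closure {τ S, τ C * τ S * (τ C)⁻¹}).comap τ ≤ closure (gens τ E C S) := by
  intro x hx
  have hle : E ⊔ closure {τ S, τ C * τ S * (τ C)⁻¹} ≤ (closure (gens τ E C S)).map τ := by
    apply sup_le
    · intro e he
      obtain ⟨a, rfl⟩ := h.lift e he
      exact ⟨a, subset_closure (Or.inl he), rfl⟩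
    · rw [closure_le]
      rintro _ (rfl | rfl)
      · exact ⟨S, subset_closure (Or.inr (Or.inl rfl)), rfl⟩
      · exact ⟨C * S * C⁻¹, subset_closure (Or.inr (Or.inr rfl)), by
          simp only [map_mul, map_inv]⟩
  obtain ⟨y, hy, hyx⟩ := hle (mem_comap.mp hx)
  have hk : τ (y⁻¹ * x) ∈ E := by
    rw [map_mul, map_inv, hyx, inv_mul_cancel]; exact E.one_mem
  have e : x = y * (y⁻¹ * x) := by group
  rw [e]
  exact Subgroup.mul_mem _ hy (subset_closure (Or.inl hk))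

/-- If the lifts of `E` commute, the commutator subgroup of the preimage of `E ⋊ V` meets the
kernel in a group of order dividing four. -/
theorem card_dvd_four :
    Nat.card ↥(⁅(E ⊔ closure {τ S, τ C * τ S * (τ C)⁻¹}).comap τ,
      (E ⊔ closure {τ S, τ C * τ S * (τ C)⁻¹}).comap τ⁆ ⊓ τ.ker) ∣ 4 := by
  obtain ⟨Z, hZ, hZc, hZS⟩ := exists_Z h
  have hS1 : ∀ v ∈ E0 h ⊔ Z, (C * S * C⁻¹) * v * (C * S * C⁻¹)⁻¹ ∈ E0 h ⊔ Z := by
    intro v hv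
    have e : (C * S * C⁻¹) * v * (C * S * C⁻¹)⁻¹ = C * (S * (C⁻¹ * v * C) * S⁻¹) * C⁻¹ := by
      group
    rw [e]
    exact M_C h hZ (M_S h hZ hZS (M_C' h hZ hv))
  have hS1' : ∀ v ∈ E0 h ⊔ Z, (C * S * C⁻¹)⁻¹ * v * (C * S * C⁻¹) ∈ E0 h ⊔ Z := by
    intro v hv
    have e : (C * S * C⁻¹)⁻¹ * v * (C * S * C⁻¹) = C * (S⁻¹ * (C⁻¹ * v * C) * S) * C⁻¹ := by
      group
    rw [e]
    exact M_C h hZ (M_S' h hZ hZS (M_C' h hZ hv))
  have hN : ∀ a ∈ gens τ E C S, ∀ v ∈ E0 h ⊔ Z,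
      a * v * a⁻¹ ∈ E0 h ⊔ Z ∧ a⁻¹ * v * a ∈ E0 h ⊔ Z := by
    rintro a (ha | rfl | rfl) v hv
    · have h1 := h.comm a v ha (M_le h hZ hv)
      have h2 := h.comm a⁻¹ v (by rw [map_inv]; exact E.inv_mem ha) (M_le h hZ hv)
      refine ⟨?_, ?_⟩
      · rw [h1, mul_inv_cancel_right]; exact hv
      · rw [h2]; simpa using hv
    · exact ⟨M_S h hZ hZS hv, M_S' h hZ hZS hv⟩
    · exact ⟨hS1 v hv, hS1' v hv⟩
  have hES : ∀ a : Γ, τ a ∈ E → ⁅a, S⁆ ∈ E0 h ⊔ Z := fun a ha => comm_mem_M h S hZS ha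
  have hES1 : ∀ a : Γ, τ a ∈ E → ⁅a, C * S * C⁻¹⁆ ∈ E0 h ⊔ Z := fun a ha =>
    comm_mem_M h (C * S * C⁻¹) (fun f hf => hS1 f (le_sup_left (a := E0 h) hf)) ha
  have hSS := S_comm h
  have hs : ∀ a ∈ gens τ E C S, ∀ b ∈ gens τ E C S, ⁅a, b⁆ ∈ E0 h ⊔ Z := by
    rintro a (ha | rfl | rfl) b (hb | rfl | rfl)
    · rw [commutatorElement_eq_one_iff_commute.mpr (h.comm a b ha hb)]
      exact Subgroup.one_mem _
    · exact hES a ha
    · exact hES1 a ha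
    · rw [← commutatorElement_inv]
      exact Subgroup.inv_mem _ (hES b hb)
    · rw [commutatorElement_self]; exact Subgroup.one_mem _
    · rw [commutatorElement_eq_one_iff_commute.mpr hSS]
      exact Subgroup.one_mem _
    · rw [← commutatorElement_inv]
      exact Subgroup.inv_mem _ (hES1 b hb)
    · rw [commutatorElement_eq_one_iff_commute.mpr hSS.symm]
      exact Subgroup.one_mem _
    · rw [commutatorElement_self]; exact Subgroup.one_mem _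
  have hle : ⁅(E ⊔ closure {τ S, τ C * τ S * (τ C)⁻¹}).comap τ,
      (E ⊔ closure {τ S, τ C * τ S * (τ C)⁻¹}).comap τ⁆ ⊓ τ.ker ≤ Z := by
    rintro x ⟨hx, hxk⟩
    have h1 := commutator_mono (comap_le_closure h.toHypS) (comap_le_closure h.toHypS) hx
    have h2 := StemLocal.commutator_closure_le _ (gens τ E C S) hN hs h1
    exact M_ker h hZ h2 (MonoidHom.mem_ker.mp hxk)
  exact dvd_trans (Subgroup.card_dvd_of_le hle) hZc

end A

section B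

variable {τ : Γ →* Q} {E : Subgroup Q} {C S G0 : Γ} {T : Set Q} {ea eb : Q}

/-- Commutators of lifts of `E` lie in the kernel. -/
theorem comm_ker (h : HypS τ E C S G0 T ea eb) {a b : Γ} (ha : τ a ∈ E) (hb : τ b ∈ E) :
    ⁅a, b⁆ ∈ τ.ker := by
  rw [MonoidHom.mem_ker, map_commutatorElement, commutatorElement_eq_one_iff_commute]
  exact E_comm h ha hb

/-- Transport of commutators by a conjugator. -/
theorem comm_conj (h : HypS τ E C S G0 T ea eb) {t a b a' b' : Γ} (ha : τ a ∈ E)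
    (hb : τ b ∈ E) (hta : τ t * τ a = τ a' * τ t) (htb : τ t * τ b = τ b' * τ t) :
    ⁅a', b'⁆ = ⁅a, b⁆ := by
  have h1 : τ (t * a * t⁻¹) = τ a' := by
    simp only [map_mul, map_inv]; rw [hta, mul_inv_cancel_right]
  have h2 : τ (t * b * t⁻¹) = τ b' := by
    simp only [map_mul, map_inv]; rw [htb, mul_inv_cancel_right]
  rw [← Stem.commutator_eq_of_map_eq τ h.hc h1 h2]
  have hk := kc h (comm_ker h ha hb) t
  calc ⁅t * a * t⁻¹, t * b * t⁻¹⁆ = t * ⁅a, b⁆ * t⁻¹ := by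
        simp only [commutatorElement_def]; group
    _ = ⁅a, b⁆ * t * t⁻¹ := by rw [hk]
    _ = ⁅a, b⁆ := by group

theorem comm_mul_right (h : HypS τ E C S G0 T ea eb) {a b b' : Γ} (ha : τ a ∈ E)
    (hb' : τ b' ∈ E) : ⁅a, b * b'⁆ = ⁅a, b⁆ * ⁅a, b'⁆ := by
  have hk := kc h (comm_ker h ha hb') b
  calc ⁅a, b * b'⁆ = ⁅a, b⁆ * (b * ⁅a, b'⁆) * b⁻¹ := by
        simp only [commutatorElement_def]; group
    _ = ⁅a, b⁆ * (⁅a, b'⁆ * b) * b⁻¹ := by rw [hk]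
    _ = ⁅a, b⁆ * ⁅a, b'⁆ := by group

theorem comm_mul_left (h : HypS τ E C S G0 T ea eb) {a a' b : Γ} (ha : τ a ∈ E)
    (ha' : τ a' ∈ E) (hb : τ b ∈ E) : ⁅a * a', b⁆ = ⁅a, b⁆ * ⁅a', b⁆ := by
  have hk := kc h (comm_ker h ha' hb) a
  calc ⁅a * a', b⁆ = (a * ⁅a', b⁆) * a⁻¹ * ⁅a, b⁆ := by
        simp only [commutatorElement_def]; group
    _ = (⁅a', b⁆ * a) * a⁻¹ * ⁅a, b⁆ := by rw [hk]
    _ = ⁅a', b⁆ * ⁅a, b⁆ := by group
    _ = ⁅a, b⁆ * ⁅a', b⁆ := kc h (comm_ker h ha hb) _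

theorem comm_central_left (h : HypS τ E C S G0 T ea eb) {k : Γ} (hk : k ∈ τ.ker) (g : Γ) :
    ⁅k, g⁆ = 1 := by
  have h1 := kc h hk g
  rw [commutatorElement_def, ← h1]; group

theorem comm_central_right (h : HypS τ E C S G0 T ea eb) {k : Γ} (hk : k ∈ τ.ker) (g : Γ) :
    ⁅g, k⁆ = 1 := by
  have h1 := kc h hk g
  rw [commutatorElement_def, h1]; group

/-- Rank four with an adapted basis and two conjugators: the commutator subgroup of the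
preimage of `E ⋊ V` meets the kernel in a group of order dividing sixteen. -/
theorem card_dvd_sixteen_aux (h : HypS τ E C S G0 T ea eb) (B1 B2 B3 B4 T2 T3 : Γ)
    (hE : E = closure {τ B1, τ B2, τ B3, τ B4})
    (h1 : τ C * τ B1 = τ B2 * τ C) (h3 : τ C * τ B3 = (τ B3 * τ B4) * τ C)
    (h4 : τ C * τ B4 = τ B3 * τ C)
    (h2a : τ T2 * τ B2 = τ B2 * τ T2) (h2b : τ T2 * τ B3 = (τ B3 * τ B1) * τ T2)
    (h3a : τ T3 * τ B1 = (τ B1 * τ B3) * τ T3) (h3b : τ T3 * τ B4 = τ B4 * τ T3) :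
    Nat.card ↥(⁅(E ⊔ closure {τ S, τ C * τ S * (τ C)⁻¹}).comap τ,
      (E ⊔ closure {τ S, τ C * τ S * (τ C)⁻¹}).comap τ⁆ ⊓ τ.ker) ∣ 16 := by
  have m1 : τ B1 ∈ E := by rw [hE]; exact subset_closure (by simp)
  have m2 : τ B2 ∈ E := by rw [hE]; exact subset_closure (by simp)
  have m3 : τ B3 ∈ E := by rw [hE]; exact subset_closure (by simp)
  have m4 : τ B4 ∈ E := by rw [hE]; exact subset_closure (by simp)
  have c23 : ⁅B2, B3⁆ = ⁅B1, B4⁆ := comm_conj h m1 m4 h1 h4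
  have c24 : ⁅B2, B3⁆ * ⁅B2, B4⁆ = ⁅B1, B3⁆ := by
    have e : ⁅B2, B3 * B4⁆ = ⁅B1, B3⁆ := comm_conj h m1 m3 h1 (by rw [map_mul]; exact h3)
    rw [comm_mul_right h m2 m4] at e
    exact e
  have c21 : ⁅B2, B1⁆ = 1 := by
    have e : ⁅B2, B3 * B1⁆ = ⁅B2, B3⁆ := comm_conj h m2 m3 h2a (by rw [map_mul]; exact h2b)
    rw [comm_mul_right h m2 m1] at e
    exact mul_left_cancel (e.trans (mul_one _).symm)
  have c34 : ⁅B3, B4⁆ = 1 := by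
    have e : ⁅B1 * B3, B4⁆ = ⁅B1, B4⁆ := comm_conj h m1 m4 (by rw [map_mul]; exact h3a) h3b
    rw [comm_mul_left h m1 m3 m4] at e
    exact mul_left_cancel (e.trans (mul_one _).symm)
  have hz1k : ⁅B1, B3⁆ ∈ τ.ker := comm_ker h m1 m3
  have hz2k : ⁅B1, B4⁆ ∈ τ.ker := comm_ker h m1 m4
  have hB1 : B1 * B1 ∈ τ.ker := by rw [MonoidHom.mem_ker, map_mul]; exact h.sq _ m1
  have hz1sq : ⁅B1, B3⁆ * ⁅B1, B3⁆ = 1 := by
    rw [← comm_mul_left h m1 m1 m3]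
    exact comm_central_left h hB1 B3
  have hz2sq : ⁅B1, B4⁆ * ⁅B1, B4⁆ = 1 := by
    rw [← comm_mul_left h m1 m1 m4]
    exact comm_central_left h hB1 B4
  have hNk : zpowers ⁅B1, B3⁆ ⊔ zpowers ⁅B1, B4⁆ ≤ τ.ker :=
    sup_le ((zpowers_le (H := τ.ker)).mpr hz1k) ((zpowers_le (H := τ.ker)).mpr hz2k)
  have hNc : zpowers ⁅B1, B3⁆ ⊔ zpowers ⁅B1, B4⁆ ≤ center Γ := hNk.trans h.hc
  have hNn : (zpowers ⁅B1, B3⁆ ⊔ zpowers ⁅B1, B4⁆).Normal := Hopf.normal_of_le_center _ hNc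
  have hcardN : Nat.card ↥(zpowers ⁅B1, B3⁆ ⊔ zpowers ⁅B1, B4⁆) ∣ 4 :=
    card_sup_zpowers_dvd (h.hc hz1k) hz1sq hz2sq
  have p13 : ⁅B1, B3⁆ ∈ zpowers ⁅B1, B3⁆ ⊔ zpowers ⁅B1, B4⁆ :=
    le_sup_left (b := zpowers ⁅B1, B4⁆) (mem_zpowers _)
  have p14 : ⁅B1, B4⁆ ∈ zpowers ⁅B1, B3⁆ ⊔ zpowers ⁅B1, B4⁆ :=
    le_sup_right (a := zpowers ⁅B1, B3⁆) (mem_zpowers _)
  have p23 : ⁅B2, B3⁆ ∈ zpowers ⁅B1, B3⁆ ⊔ zpowers ⁅B1, B4⁆ := by rw [c23]; exact p14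
  have p24 : ⁅B2, B4⁆ ∈ zpowers ⁅B1, B3⁆ ⊔ zpowers ⁅B1, B4⁆ := by
    rw [eq_inv_mul_of_mul_eq c24]
    exact Subgroup.mul_mem _ (Subgroup.inv_mem _ p23) p13
  have p21 : ⁅B2, B1⁆ ∈ zpowers ⁅B1, B3⁆ ⊔ zpowers ⁅B1, B4⁆ := by
    rw [c21]; exact Subgroup.one_mem _
  have p34 : ⁅B3, B4⁆ ∈ zpowers ⁅B1, B3⁆ ⊔ zpowers ⁅B1, B4⁆ := by
    rw [c34]; exact Subgroup.one_mem _
  have sym : ∀ x y : Γ, ⁅x, y⁆ ∈ zpowers ⁅B1, B3⁆ ⊔ zpowers ⁅B1, B4⁆ →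
      ⁅y, x⁆ ∈ zpowers ⁅B1, B3⁆ ⊔ zpowers ⁅B1, B4⁆ := by
    intro x y hxy
    have e : ⁅y, x⁆ = ⁅x, y⁆⁻¹ := (commutatorElement_inv x y).symm
    rw [e]
    exact Subgroup.inv_mem _ hxy
  have slf : ∀ x : Γ, ⁅x, x⁆ ∈ zpowers ⁅B1, B3⁆ ⊔ zpowers ⁅B1, B4⁆ := by
    intro x
    rw [commutatorElement_self]; exact Subgroup.one_mem _
  have hpair : ∀ s ∈ ({B1, B2, B3, B4} : Set Γ) ∪ (τ.ker : Set Γ),
      ∀ t ∈ ({B1, B2, B3, B4} : Set Γ) ∪ (τ.ker : Set Γ),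
      ⁅s, t⁆ ∈ zpowers ⁅B1, B3⁆ ⊔ zpowers ⁅B1, B4⁆ := by
    rintro s (hs | hs) t (ht | ht)
    · rcases hs with rfl | rfl | rfl | rfl <;> rcases ht with rfl | rfl | rfl | rfl
      · exact slf _
      · exact sym _ _ p21
      · exact p13
      · exact p14
      · exact p21
      · exact slf _
      · exact p23
      · exact p24
      · exact sym _ _ p13
      · exact sym _ _ p23
      · exact slf _
      · exact p34
      · exact sym _ _ p14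
      · exact sym _ _ p24
      · exact sym _ _ p34
      · exact slf _
    · rw [comm_central_right h ht]; exact Subgroup.one_mem _
    · rw [comm_central_left h hs]; exact Subgroup.one_mem _
    · rw [comm_central_left h hs]; exact Subgroup.one_mem _
  have hcl : ∀ a : Γ, τ a ∈ E →
      a ∈ closure (({B1, B2, B3, B4} : Set Γ) ∪ (τ.ker : Set Γ)) := by
    intro a ha
    rw [Subgroup.closure_union, Subgroup.closure_eq, ← StemLocal.comap_closure_image]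
    rw [Subgroup.mem_comap]
    have e : τ '' ({B1, B2, B3, B4} : Set Γ) = {τ B1, τ B2, τ B3, τ B4} := by
      simp only [Set.image_insert_eq, Set.image_singleton]
    rw [e, ← hE]
    exact ha
  have hcomm : ∀ a b : Γ, τ a ∈ E → τ b ∈ E →
      ⁅a, b⁆ ∈ zpowers ⁅B1, B3⁆ ⊔ zpowers ⁅B1, B4⁆ := by
    intro a b ha hb
    exact StemB.commutator_mem_of_closure _ _
      (fun s _ => by rw [Subgroup.normalizer_eq_top]; exact Subgroup.mem_top s)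
      hpair a (hcl a ha) b (hcl b hb)
  -- the quotient by the central subgroup
  let τ' : Γ ⧸ (zpowers ⁅B1, B3⁆ ⊔ zpowers ⁅B1, B4⁆) →* Q :=
    QuotientGroup.lift (zpowers ⁅B1, B3⁆ ⊔ zpowers ⁅B1, B4⁆) τ hNk
  let q : Γ →* Γ ⧸ (zpowers ⁅B1, B3⁆ ⊔ zpowers ⁅B1, B4⁆) :=
    QuotientGroup.mk' (zpowers ⁅B1, B3⁆ ⊔ zpowers ⁅B1, B4⁆)
  have hq : ∀ x : Γ, τ' (q x) = τ x := fun x => rfl
  have hA : HypA τ' E (q C) (q S) (q G0) T ea eb :=
    { hc := by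
        intro x hx
        obtain ⟨a, rfl⟩ := QuotientGroup.mk'_surjective
          (zpowers ⁅B1, B3⁆ ⊔ zpowers ⁅B1, B4⁆) x
        have hak : a ∈ τ.ker := hx
        rw [Subgroup.mem_center_iff]
        intro y
        obtain ⟨b, rfl⟩ := QuotientGroup.mk'_surjective
          (zpowers ⁅B1, B3⁆ ⊔ zpowers ⁅B1, B4⁆) y
        rw [← map_mul, ← map_mul, kc h hak b]
      lift := fun e he => by
        obtain ⟨a, rfl⟩ := h.lift e he
        exact ⟨q a, rfl⟩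
      sq := h.sq
      cE := h.cE
      cE' := h.cE'
      fpf := h.fpf
      sE := h.sE
      s2 := h.s2
      fus1 := h.fus1
      fus2 := h.fus2
      hea := h.hea
      heb := h.heb
      hT := h.hT
      cov := h.cov
      comm := by
        intro x y hx hy
        obtain ⟨a, rfl⟩ := QuotientGroup.mk'_surjective
          (zpowers ⁅B1, B3⁆ ⊔ zpowers ⁅B1, B4⁆) x
        obtain ⟨b, rfl⟩ := QuotientGroup.mk'_surjective
          (zpowers ⁅B1, B3⁆ ⊔ zpowers ⁅B1, B4⁆) y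
        have h1 := hcomm b⁻¹ a⁻¹ (by rw [map_inv]; exact E.inv_mem hy)
          (by rw [map_inv]; exact E.inv_mem hx)
        rw [← map_mul, ← map_mul]
        apply (QuotientGroup.eq).mpr
        have e : (a * b)⁻¹ * (b * a) = ⁅b⁻¹, a⁻¹⁆ := by
          rw [commutatorElement_def]; group
        rw [e]; exact h1 }
  have h2 := card_dvd_four hA
  have h3 := StemF.card_dvd_of_map (zpowers ⁅B1, B3⁆ ⊔ zpowers ⁅B1, B4⁆)
    (⁅(E ⊔ closure {τ S, τ C * τ S * (τ C)⁻¹}).comap τ,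
      (E ⊔ closure {τ S, τ C * τ S * (τ C)⁻¹}).comap τ⁆ ⊓ τ.ker)
    (⁅(E ⊔ closure {τ' (q S), τ' (q C) * τ' (q S) * (τ' (q C))⁻¹}).comap τ',
      (E ⊔ closure {τ' (q S), τ' (q C) * τ' (q S) * (τ' (q C))⁻¹}).comap τ'⁆ ⊓ τ'.ker) (by
    rintro _ ⟨x, ⟨hx, hxk⟩, rfl⟩
    refine ⟨?_, ?_⟩
    · have h4 : QuotientGroup.mk' (zpowers ⁅B1, B3⁆ ⊔ zpowers ⁅B1, B4⁆) x ∈
          (⁅(E ⊔ closure {τ S, τ C * τ S * (τ C)⁻¹}).comap τ,
            (E ⊔ closure {τ S, τ C * τ S * (τ C)⁻¹}).comap τ⁆).map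
            (QuotientGroup.mk' (zpowers ⁅B1, B3⁆ ⊔ zpowers ⁅B1, B4⁆)) := ⟨x, hx, rfl⟩
      rw [Subgroup.map_commutator] at h4
      have hle : ((E ⊔ closure {τ S, τ C * τ S * (τ C)⁻¹}).comap τ).map
          (QuotientGroup.mk' (zpowers ⁅B1, B3⁆ ⊔ zpowers ⁅B1, B4⁆))
          ≤ (E ⊔ closure {τ' (q S), τ' (q C) * τ' (q S) * (τ' (q C))⁻¹}).comap τ' := by
        rintro _ ⟨y, hy, rfl⟩
        exact hy
      exact commutator_mono hle hle h4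
    · exact hxk)
  exact dvd_trans h3 (mul_dvd_mul hcardN h2)

/-- The same statement with the hypotheses on the image stated for elements of the image. -/
theorem card_dvd_sixteen (τ : Γ →* Q) (hc : τ.ker ≤ center Γ) (E : Subgroup Q)
    (c s g0 ea eb b1 b2 b3 b4 t2 t3 : Q) (T : Set Q)
    (hE : E = closure {b1, b2, b3, b4})
    (hEl : ∀ e ∈ E, ∃ a : Γ, τ a = e)
    (hτ : ∀ x ∈ ({c, s, g0, t2, t3} : Set Q), ∃ a : Γ, τ a = x)
    (hsq : ∀ e ∈ E, e * e = 1)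
    (hcE : ∀ e ∈ E, c * e * c⁻¹ ∈ E) (hcE' : ∀ e ∈ E, c⁻¹ * e * c ∈ E)
    (hfpf : ∀ e ∈ E, e * (c * e * c⁻¹) * (c⁻¹ * e * c) = 1)
    (hsE : ∀ e ∈ E, s * e * s⁻¹ ∈ E) (hs2 : s * s = 1)
    (hf1 : ∃ v ∈ E, g0 * s = v * g0) (hf2 : ∃ v ∈ E, g0 * (c * s) = v * (g0 * c))
    (hea : ea ∈ E) (heb : eb ∈ E)
    (hT : ∀ t ∈ T, ∃ v ∈ E, t = v * (s * v * s⁻¹))
    (hcov : ∀ e ∈ E, e ∈ closure T ∨ e * ea ∈ closure T ∨ e * eb ∈ closure T ∨
      e * (ea * eb) ∈ closure T)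
    (h1 : c * b1 = b2 * c) (h3 : c * b3 = (b3 * b4) * c) (h4 : c * b4 = b3 * c)
    (h2a : t2 * b2 = b2 * t2) (h2b : t2 * b3 = (b3 * b1) * t2)
    (h3a : t3 * b1 = (b1 * b3) * t3) (h3b : t3 * b4 = b4 * t3) :
    Nat.card ↥(⁅(E ⊔ closure {s, c * s * c⁻¹}).comap τ,
      (E ⊔ closure {s, c * s * c⁻¹}).comap τ⁆ ⊓ τ.ker) ∣ 16 := by
  obtain ⟨C, rfl⟩ := hτ c (by simp)
  obtain ⟨S, rfl⟩ := hτ s (by simp)
  obtain ⟨G0, rfl⟩ := hτ g0 (by simp)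
  obtain ⟨T2, rfl⟩ := hτ t2 (by simp)
  obtain ⟨T3, rfl⟩ := hτ t3 (by simp)
  obtain ⟨B1, rfl⟩ := hEl b1 (by rw [hE]; exact subset_closure (by simp))
  obtain ⟨B2, rfl⟩ := hEl b2 (by rw [hE]; exact subset_closure (by simp))
  obtain ⟨B3, rfl⟩ := hEl b3 (by rw [hE]; exact subset_closure (by simp))
  obtain ⟨B4, rfl⟩ := hEl b4 (by rw [hE]; exact subset_closure (by simp))
  exact card_dvd_sixteen_aux (G0 := G0) (T := T) (ea := ea) (eb := eb)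
    ⟨hc, hEl, hsq, hcE, hcE', hfpf, hsE, hs2, hf1, hf2, hea, heb, hT, hcov⟩
    B1 B2 B3 B4 T2 T3 hE h1 h3 h4 h2a h2b h3a h3b

end B

end Cfsg.Agent.Lib.Helper35.StemG
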