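-- The order of the kernel of a stem extension of the pointwise stabiliser `L` of three points
-- in M24 (a group isomorphic to PSL(3, 4)) divides 48: transfer into a Sylow 2-subgroup
-- `E ⋊ V` (where the commutator subgroup of the preimage meets the kernel in a group of order
-- dividing 16), into a Sylow 3-subgroup of type 3 × 3, and cyclic Sylow subgroups for the
-- other primes.
import Cfsg.Agent.Lib.Helper35.M21Elts
import Cfsg.Agent.Lib.Helper35.StemG
import Cfsg.Agent.Lib.Helper35.StemC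
import Cfsg.Agent.Lib.Helper35.AltSix

set_option autoImplicit false

namespace Cfsg.Agent.Lib.Helper35.M21Bound

open Cfsg Cfsg.Spor Cfsg.Agent.Lib.Helper7.GolayBase Cfsg.Agent.Lib.Helper7.GolayPerm
  Cfsg.Agent.Lib.Helper35.PermTab Cfsg.Agent.Lib.Helper35.M21Elts Cfsg.Agent.Lib.Helper35.StemC
open Cfsg.Agent.Lib.Helper35.M23MElts (e1 e2 e3 e4 c E E_c E_c' E_fpf E_sq)
open Cfsg.Agent.Lib.Helper35.M22Elts (c_order)
open scoped commutatorElement

universe u

theorem sq_not_dvd {p : ℕ} (hp : p.Prime) (h2 : p ≠ 2) (h3 : p ≠ 3) : ¬ p ^ 2 ∣ 20160 := by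
  intro h
  have hcop : Nat.Coprime (p ^ 2) 576 := by
    apply Nat.Coprime.pow_left
    rw [show (576 : ℕ) = 2 ^ 6 * 3 ^ 2 from rfl]
    apply Nat.Coprime.mul_right
    · exact Nat.Coprime.pow_right _ ((Nat.coprime_primes hp Nat.prime_two).mpr h2)
    · exact Nat.Coprime.pow_right _ ((Nat.coprime_primes hp Nat.prime_three).mpr h3)
  have h' : p ^ 2 ∣ 35 := by
    apply hcop.dvd_of_dvd_mul_left
    rw [show (576 * 35 : ℕ) = 20160 from rfl]; exact h
  have hle : p ^ 2 ≤ 35 := Nat.le_of_dvd (by norm_num) h'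
  have hp6 : p < 6 := by nlinarith
  have hp2 := hp.two_le
  interval_cases p <;> revert h' <;> decide

/-- The 2-part: the commutator subgroup of the preimage of a Sylow 2-subgroup meets the kernel
in a group of order dividing sixteen. -/
theorem two_part {Γ : Type u} [Group Γ] (σ : Γ →* ↥M21Elts.L) (hs : Function.Surjective σ)
    (hc : σ.ker ≤ Subgroup.center Γ) :
    Nat.card ↥(⁅((E ⊔ V).subgroupOf M21Elts.L).comap σ, ((E ⊔ V).subgroupOf M21Elts.L).comap σ⁆ ⊓ σ.ker)
      ∣ 16 := by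
  have hc' : (incl σ).ker ≤ Subgroup.center Γ := by rw [incl_ker]; exact hc
  have h := StemG.card_dvd_sixteen (incl σ) hc' E c s g0 e1 e3 b1 b2 b3 b4 t2 t3
    {u1, u2} E_eq (fun e he => incl_lift σ hs (E_leL he))
    (by
      rintro x (rfl | rfl | rfl | rfl | rfl)
      · exact incl_lift σ hs c_memL
      · exact incl_lift σ hs s_mem
      · exact incl_lift σ hs g0_mem
      · exact incl_lift σ hs t2_mem
      · exact incl_lift σ hs t3_mem)
    E_sq E_c E_c' E_fpf E_s s_sq ⟨vf1, vf1_spec.1, g0_s⟩ ⟨vf2, vf2_spec.1, g0_cs⟩ e1_E e3_E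
    (by
      rintro t (rfl | rfl)
      · exact ⟨e1, e1_E, rfl⟩
      · exact ⟨e3, e3_E, rfl⟩)
    E_cov c_b1 c_b3 c_b4 t2_b2 t2_b3 t3_b1 t3_b4
  rw [incl_ker] at h
  exact h

theorem index_two : (((E ⊔ V).subgroupOf M21Elts.L).index).Coprime 2 := by
  have h1 := Subgroup.card_mul_index ((E ⊔ V).subgroupOf M21Elts.L)
  have h2 : Nat.card ((E ⊔ V).subgroupOf M21Elts.L) = 64 := by
    rw [Nat.card_congr (Subgroup.subgroupOfEquivOfLe P_le).toEquiv, card_P]
  rw [h2, card_L] at h1
  have h3 : ((E ⊔ V).subgroupOf M21Elts.L).index = 315 := by omega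
  rw [h3]; decide

/-- The order of the kernel of a stem extension of `L` divides 48. -/
theorem m21_bound {Γ : Type u} [Group Γ] [Finite Γ] (σ : Γ →* ↥M21Elts.L)
    (hσ : IsStemExtension σ) : Nat.card σ.ker ∣ 48 := by
  have hfin : Finite M21Elts.L := inferInstance
  apply AltSix.card_ker_dvd_of_local_gen σ hσ 48 (by norm_num)
  intro l hl
  by_cases h2 : l = 2
  · subst h2
    exact ⟨(E ⊔ V).subgroupOf M21Elts.L, index_two,
      dvd_trans (two_part σ hσ.1 hσ.2.1) (by norm_num)⟩
  · by_cases h3 : l = 3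
    · subst h3
      refine ⟨Subgroup.closure ({⟨c, c_memL⟩, ⟨cp, cp_mem⟩} : Set ↥M21Elts.L),
        AltMult.index_coprime_of_pair 3 Nat.prime_three
        (by rw [Subgroup.orderOf_mk]; exact c_order)
        (by rw [Subgroup.orderOf_mk]; exact cp_order)
        (Subtype.ext c_cp)
        (fun i hi h => cp_ne i hi (congrArg Subtype.val h))
        (m := 2240) (by rw [card_L]; norm_num) (by decide), ?_⟩
      exact dvd_trans (AltMult.pair_card_dvd σ hσ.1 hσ.2.1 (Subtype.ext c_cp) 3
        (by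
          apply Subtype.ext
          have := pow_orderOf_eq_one c
          rw [c_order] at this
          exact this)) (by norm_num)
    · have hsq : ¬ l ^ 2 ∣ Nat.card ↥M21Elts.L := by
        rw [card_L]; exact sq_not_dvd hl h2 h3
      obtain ⟨U, hU, hU1⟩ := AltSix.local_card_one_of_sq_not_dvd σ hσ.1 hσ.2.1 l hl hsq
      exact ⟨U, hU, by rw [hU1]; exact one_dvd _⟩

end Cfsg.Agent.Lib.Helper35.M21Bound
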