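-- Central extensions of M22 from combinatorial data: pairs `(g, P)` with `g ∈ M22` and `P` a
-- permutation of `m * NB` points lying over the action of `g` on `NB` blocks (given by masks of
-- subsets of the 24 points), commuting with the rotation of the blocks and preserving a graph
-- in which every point has at most one neighbour in each block.  The data are checked by
-- evaluating boolean functions on tables packed into natural numbers at the leaves of a
-- binary search tree.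
import Cfsg.Agent.Lib.Helper35.M22Elts

set_option autoImplicit false

namespace Cfsg.Agent.Lib.Helper35.M22Cover

open Cfsg Cfsg.Spor Cfsg.Agent.Lib.Helper7.GolayBase Cfsg.Agent.Lib.Helper7.GolayPerm
  Cfsg.Agent.Lib.Helper35.PermTab Cfsg.Agent.Lib.Helper35.M22MData
  Cfsg.Agent.Lib.Helper35.M22Elts
open Cfsg.Agent.Lib.Helper35.M23Gen (tpow tab_pow)

/-! ### Packed tables and bounded quantifiers -/

/-- The field of `r` at bit offset `off` selected by the mask `msk`. -/
def fld (r off msk : ℕ) : ℕ := Nat.land (Nat.shiftRight r off) msk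

/-- Shift of the point `y` by `i` inside its block of size `m`. -/
def shft (m y i : ℕ) : ℕ := Nat.add (Nat.mul m (Nat.div y m)) (Nat.mod (Nat.add y i) m)

/-- Binary search trees with natural numbers at the leaves. -/
inductive BTree where
  | leaf (n : ℕ) : BTree
  | node (c : ℕ) (l r : BTree) : BTree

/-- The leaf at position `k`: the left subtree holds the positions below `c`. -/
noncomputable def BTree.get (t : BTree) (k : ℕ) : ℕ :=
  BTree.rec (motive := fun _ => ℕ) (fun n => n)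
    (fun c _ _ ihl ihr => cond (Nat.blt k c) ihl ihr) t

/-- The boolean function `p` is true below `N`. -/
def allLt (N : ℕ) (p : ℕ → Bool) : Bool := (List.range N).all p

theorem allLt_spec {N : ℕ} {p : ℕ → Bool} (h : allLt N p = true) {x : ℕ} (hx : x < N) :
    p x = true :=
  List.all_eq_true.mp h x (List.mem_range.mpr hx)

/-- A function increasing at each step is strictly increasing. -/
theorem strict_of_step (f : ℕ → ℕ) (n : ℕ) (h : ∀ k, k + 1 < n → f k < f (k + 1)) :
    ∀ k l, k < l → l < n → f k < f l := by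
  intro k l
  induction l with
  | zero => intro hkl; omega
  | succ l ih =>
    intro hkl hl
    rcases Nat.lt_or_ge k l with h1 | h1
    · exact lt_trans (ih h1 (by omega)) (h l hl)
    · have : k = l := by omega
      rw [this]; exact h l hl

theorem iter_lt {N : ℕ} {f : ℕ → ℕ} (h0 : ∀ x < N, f x < N) (k : ℕ) :
    ∀ x < N, f^[k] x < N := by
  induction k with
  | zero => intro x hx; exact hx
  | succ k ih => intro x hx; rw [Function.iterate_succ_apply']; exact h0 _ (ih x hx)

/-- A permutation of `Fin N` from a function of finite order. -/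
def mkP {N : ℕ} (f : ℕ → ℕ) (k : ℕ) (h0 : ∀ x < N, f x < N) (h1 : ∀ x < N, f^[k + 1] x = x) :
    Equiv.Perm (Fin N) where
  toFun x := ⟨f x, h0 x x.2⟩
  invFun x := ⟨f^[k] x, iter_lt h0 k x x.2⟩
  left_inv x := Fin.ext (by
    show f^[k] (f x) = x
    have h := h1 x x.2
    rw [Function.iterate_succ_apply] at h
    exact h)
  right_inv x := Fin.ext (by
    show f (f^[k] x) = x
    have h := h1 x x.2
    rw [Function.iterate_succ_apply'] at h
    exact h)

theorem pow_val {N : ℕ} (P : Equiv.Perm (Fin N)) (f : ℕ → ℕ) (hP : ∀ x, (P x).val = f x.val)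
    (n : ℕ) : ∀ x : Fin N, ((P ^ n) x).val = f^[n] x.val := by
  induction n with
  | zero => intro x; rfl
  | succ n ih =>
    intro x
    rw [pow_succ, Equiv.Perm.mul_apply, ih, hP, Function.iterate_succ_apply]

/-! ### The data -/

/-- The combinatorial data of a cover. -/
structure Data where
  /-- Size of the blocks (order of the centre). -/
  m : ℕ
  /-- Number of blocks. -/
  NB : ℕ
  /-- Valency of the graph. -/
  v : ℕ
  /-- The lift of the first generator has order dividing `kA + 1`. -/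
  kA : ℕ
  /-- Exponent of the relator `a²`. -/
  ea : ℕ
  /-- Exponent of the relator `(ab)¹¹`. -/
  eb : ℕ
  /-- Exponent of the relator `(ab²)⁵`. -/
  ec : ℕ
  /-- Exponent of the relator `(ababab³)⁵`. -/
  ed : ℕ
  /-- Lift of the first generator. -/
  fA : ℕ → ℕ
  /-- Lift of the second generator. -/
  fB : ℕ → ℕ
  /-- Masks of the blocks. -/
  maskB : ℕ → ℕ
  /-- Neighbours of a point. -/
  nb : ℕ → ℕ → ℕ
  /-- Positions of the images of the neighbours under the first lift. -/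
  wA : ℕ → ℕ → ℕ
  /-- Positions of the images of the neighbours under the second lift. -/
  wB : ℕ → ℕ → ℕ
  /-- Parents in a spanning tree rooted at `0`. -/
  par : ℕ → ℕ
  /-- Position of a point among the neighbours of its parent. -/
  parj : ℕ → ℕ
  /-- Depths in the spanning tree. -/
  dep : ℕ → ℕ

namespace Data

variable (d : Data)

/-- Number of points. -/
def N : ℕ := d.m * d.NB

/-- The rotation of the blocks. -/
def zf (x : ℕ) : ℕ := shft d.m x 1

/-- Mask of the block of a point. -/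
def mask (x : ℕ) : ℕ := d.maskB (x / d.m)

/-- Adjacency in the graph. -/
def adj (x y : ℕ) : Prop := ∃ j, j < d.v ∧ d.nb x j = y

end Data

/-- The checked properties of the data. -/
structure Good (d : Data) : Prop where
  mpos : 0 < d.m
  NBpos : 0 < d.NB
  zlt : allLt d.N (fun x => Nat.blt (d.zf x) d.N) = true
  zpow : allLt d.N (fun x => Nat.beq (d.zf^[d.m] x) x) = true
  zzero : allLt d.m (fun i => Nat.beq (d.zf^[i] 0) i) = true
  zmask : allLt d.N (fun x => Nat.beq (d.mask (d.zf x)) (d.mask x)) = true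
  znb : allLt d.N (fun x => allLt d.v (fun j =>
    Nat.beq (d.zf (d.nb x j)) (d.nb (d.zf x) j))) = true
  Alt : allLt d.N (fun x => Nat.blt (d.fA x) d.N) = true
  Apow : allLt d.N (fun x => Nat.beq (d.fA^[d.kA + 1] x) x) = true
  Az : allLt d.N (fun x => Nat.beq (d.fA (d.zf x)) (d.zf (d.fA x))) = true
  Amask : allLt d.N (fun x => allLt 24 (fun i =>
    (d.mask (d.fA x)).testBit (gaT.getD i 0) == (d.mask x).testBit i)) = true
  Anb : allLt d.N (fun x => allLt d.v (fun j =>
    Nat.blt (d.wA x j) d.v && Nat.beq (d.fA (d.nb x j)) (d.nb (d.fA x) (d.wA x j)))) = true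
  Blt : allLt d.N (fun x => Nat.blt (d.fB x) d.N) = true
  Bpow : allLt d.N (fun x => Nat.beq (d.fB^[3 + 1] x) x) = true
  Bz : allLt d.N (fun x => Nat.beq (d.fB (d.zf x)) (d.zf (d.fB x))) = true
  Bmask : allLt d.N (fun x => allLt 24 (fun i =>
    (d.mask (d.fB x)).testBit (gbT.getD i 0) == (d.mask x).testBit i)) = true
  Bnb : allLt d.N (fun x => allLt d.v (fun j =>
    Nat.blt (d.wB x j) d.v && Nat.beq (d.fB (d.nb x j)) (d.nb (d.fB x) (d.wB x j)))) = true
  masklt : allLt d.NB (fun k => Nat.blt (d.maskB k) 16777216) = true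
  masksorted : allLt (d.NB - 1) (fun k => Nat.blt (d.maskB k) (d.maskB (k + 1))) = true
  nbsorted : allLt d.N (fun x => allLt (d.v - 1) (fun j =>
    Nat.blt (d.nb x j / d.m) (d.nb x (j + 1) / d.m))) = true
  tree : allLt d.N (fun x => Nat.beq x 0 || (Nat.blt (d.par x) d.N && Nat.blt (d.parj x) d.v
    && Nat.beq (d.nb (d.par x) (d.parj x)) x && Nat.blt (d.dep (d.par x)) (d.dep x))) = true
  relA : allLt d.N (fun x => Nat.beq (d.fA (d.fA x)) (d.zf^[d.ea] x)) = true
  relAB : allLt d.N (fun x => Nat.beq ((fun y => d.fA (d.fB y))^[11] x) (d.zf^[d.eb] x)) = true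
  relABB : allLt d.N (fun x =>
    Nat.beq ((fun y => d.fA (d.fB (d.fB y)))^[5] x) (d.zf^[d.ec] x)) = true
  rel6 : allLt d.N (fun x =>
    Nat.beq ((fun y => d.fA (d.fB (d.fA (d.fB (d.fA (d.fB (d.fB (d.fB y))))))))^[5] x)
      (d.zf^[d.ed] x)) = true
  ab : ∀ (A : Type) [AddCommGroup A] (x y t : A), 2 • x = d.ea • t → 4 • y = 0 →
    11 • x + 11 • y = d.eb • t → 5 • x + 10 • y = d.ec • t → 15 • x + 25 • y = d.ed • t →
    d.m • t = 0 → t = 0

section Theory

variable (d : Data) (hd : Good d)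
include hd

theorem Npos : 0 < d.N := Nat.mul_pos hd.mpos hd.NBpos

theorem zlt {x : ℕ} (hx : x < d.N) : d.zf x < d.N := Nat.le_of_ble_eq_true (allLt_spec hd.zlt hx)

theorem zpow {x : ℕ} (hx : x < d.N) : d.zf^[d.m] x = x :=
  Nat.eq_of_beq_eq_true (allLt_spec hd.zpow hx)

theorem zzero {i : ℕ} (hi : i < d.m) : d.zf^[i] 0 = i :=
  Nat.eq_of_beq_eq_true (allLt_spec hd.zzero hi)

theorem zmask {x : ℕ} (hx : x < d.N) : d.mask (d.zf x) = d.mask x :=
  Nat.eq_of_beq_eq_true (allLt_spec hd.zmask hx)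

theorem znb {x : ℕ} (hx : x < d.N) {j : ℕ} (hj : j < d.v) : d.zf (d.nb x j) = d.nb (d.zf x) j :=
  Nat.eq_of_beq_eq_true (allLt_spec (allLt_spec hd.znb hx) hj)

theorem Alt {x : ℕ} (hx : x < d.N) : d.fA x < d.N := Nat.le_of_ble_eq_true (allLt_spec hd.Alt hx)

theorem Apow {x : ℕ} (hx : x < d.N) : d.fA^[d.kA + 1] x = x :=
  Nat.eq_of_beq_eq_true (allLt_spec hd.Apow hx)

theorem Az {x : ℕ} (hx : x < d.N) : d.fA (d.zf x) = d.zf (d.fA x) :=
  Nat.eq_of_beq_eq_true (allLt_spec hd.Az hx)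

theorem Amask {x : ℕ} (hx : x < d.N) {i : ℕ} (hi : i < 24) :
    (d.mask (d.fA x)).testBit (gaT.getD i 0) = (d.mask x).testBit i :=
  eq_of_beq (allLt_spec (allLt_spec hd.Amask hx) hi)

theorem Anb {x : ℕ} (hx : x < d.N) {j : ℕ} (hj : j < d.v) :
    d.wA x j < d.v ∧ d.fA (d.nb x j) = d.nb (d.fA x) (d.wA x j) := by
  have h := allLt_spec (allLt_spec hd.Anb hx) hj
  simp only [Bool.and_eq_true] at h
  exact ⟨Nat.le_of_ble_eq_true h.1, Nat.eq_of_beq_eq_true h.2⟩

theorem Blt {x : ℕ} (hx : x < d.N) : d.fB x < d.N := Nat.le_of_ble_eq_true (allLt_spec hd.Blt hx)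

theorem Bpow {x : ℕ} (hx : x < d.N) : d.fB^[3 + 1] x = x :=
  Nat.eq_of_beq_eq_true (allLt_spec hd.Bpow hx)

theorem Bz {x : ℕ} (hx : x < d.N) : d.fB (d.zf x) = d.zf (d.fB x) :=
  Nat.eq_of_beq_eq_true (allLt_spec hd.Bz hx)

theorem Bmask {x : ℕ} (hx : x < d.N) {i : ℕ} (hi : i < 24) :
    (d.mask (d.fB x)).testBit (gbT.getD i 0) = (d.mask x).testBit i :=
  eq_of_beq (allLt_spec (allLt_spec hd.Bmask hx) hi)

theorem Bnb {x : ℕ} (hx : x < d.N) {j : ℕ} (hj : j < d.v) :
    d.wB x j < d.v ∧ d.fB (d.nb x j) = d.nb (d.fB x) (d.wB x j) := by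
  have h := allLt_spec (allLt_spec hd.Bnb hx) hj
  simp only [Bool.and_eq_true] at h
  exact ⟨Nat.le_of_ble_eq_true h.1, Nat.eq_of_beq_eq_true h.2⟩

omit hd in
theorem div_lt {x : ℕ} (hx : x < d.N) : x / d.m < d.NB := Nat.div_lt_of_lt_mul hx

theorem masklt {x : ℕ} (hx : x < d.N) : d.mask x < 2 ^ 24 :=
  Nat.le_of_ble_eq_true (allLt_spec hd.masklt (div_lt d hx))

theorem maskinj {x y : ℕ} (hx : x < d.N) (hy : y < d.N) (h : d.mask x = d.mask y) :
    x / d.m = y / d.m := by
  have hstep : ∀ k, k + 1 < d.NB → d.maskB k < d.maskB (k + 1) := fun k hk =>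
    Nat.le_of_ble_eq_true (allLt_spec hd.masksorted (by omega))
  have hmono := strict_of_step d.maskB d.NB hstep
  rcases Nat.lt_trichotomy (x / d.m) (y / d.m) with h1 | h1 | h1
  · exact absurd h (ne_of_lt (hmono _ _ h1 (div_lt d hy)))
  · exact h1
  · exact absurd h (ne_of_gt (hmono _ _ h1 (div_lt d hx)))

theorem nb_lt {x : ℕ} (hx : x < d.N) :
    ∀ j l, j < l → l < d.v → d.nb x j / d.m < d.nb x l / d.m := by
  apply strict_of_step (fun j => d.nb x j / d.m) d.v
  intro k hk
  exact Nat.le_of_ble_eq_true (allLt_spec (allLt_spec hd.nbsorted hx) (by omega))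

theorem tree {x : ℕ} (hx : x < d.N) : x = 0 ∨ (d.par x < d.N ∧ d.parj x < d.v ∧
    d.nb (d.par x) (d.parj x) = x ∧ d.dep (d.par x) < d.dep x) := by
  have h := allLt_spec hd.tree hx
  simp only [Bool.or_eq_true, Bool.and_eq_true] at h
  rcases h with h | ⟨⟨⟨h1, h2⟩, h3⟩, h4⟩
  · exact Or.inl (Nat.eq_of_beq_eq_true h)
  · exact Or.inr ⟨Nat.le_of_ble_eq_true h1, Nat.le_of_ble_eq_true h2, Nat.eq_of_beq_eq_true h3,
      Nat.le_of_ble_eq_true h4⟩

/-! ### The permutations -/

/-- The rotation of the blocks as a permutation. -/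
def z0 : Equiv.Perm (Fin d.N) :=
  mkP d.zf (d.m - 1) (fun _ hx => zlt d hd hx) (fun x hx => by
    rw [Nat.sub_add_cancel hd.mpos]; exact zpow d hd hx)

/-- The lift of the first generator as a permutation. -/
def PA : Equiv.Perm (Fin d.N) :=
  mkP d.fA d.kA (fun _ hx => Alt d hd hx) (fun _ hx => Apow d hd hx)

/-- The lift of the second generator as a permutation. -/
def PB : Equiv.Perm (Fin d.N) :=
  mkP d.fB 3 (fun _ hx => Blt d hd hx) (fun _ hx => Bpow d hd hx)

theorem z0_pow_val (i : ℕ) (x : Fin d.N) : ((z0 d hd ^ i) x).val = d.zf^[i] x.val :=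
  pow_val _ _ (fun _ => rfl) i x

/-- Membership condition of the cover. -/
structure Mem (g : Equiv.Perm GolayPt) (P : Equiv.Perm (Fin d.N)) : Prop where
  comm : ∀ x, P (z0 d hd x) = z0 d hd (P x)
  blk : ∀ (x : Fin d.N) (q : GolayPt),
    (d.mask (P x).val).testBit (idx (g q)) = (d.mask x.val).testBit (idx q)
  adj : ∀ x y : Fin d.N, d.adj x.val y.val → d.adj (P x).val (P y).val

theorem mem_one : Mem d hd 1 1 := ⟨fun _ => rfl, fun _ _ => rfl, fun _ _ h => h⟩

theorem mem_mul {g h : Equiv.Perm GolayPt} {P Q : Equiv.Perm (Fin d.N)} (h1 : Mem d hd g P)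
    (h2 : Mem d hd h Q) : Mem d hd (g * h) (P * Q) := by
  refine ⟨fun x => ?_, fun x q => ?_, fun x y hxy => ?_⟩
  · rw [Equiv.Perm.mul_apply, Equiv.Perm.mul_apply, h2.comm, h1.comm]
  · rw [Equiv.Perm.mul_apply, Equiv.Perm.mul_apply, h1.blk, h2.blk]
  · rw [Equiv.Perm.mul_apply, Equiv.Perm.mul_apply]
    exact h1.adj _ _ (h2.adj _ _ hxy)

theorem mem_z : Mem d hd 1 (z0 d hd) := by
  refine ⟨fun _ => rfl, fun x q => ?_, fun x y hxy => ?_⟩
  · have h : d.mask (z0 d hd x).val = d.mask x.val := zmask d hd x.2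
    rw [h, Equiv.Perm.one_apply]
  · obtain ⟨j, hj, hxy⟩ := hxy
    refine ⟨j, hj, ?_⟩
    show d.nb (d.zf x.val) j = d.zf y.val
    rw [← hxy, znb d hd x.2 hj]

theorem mem_A : Mem d hd ga (PA d hd) := by
  refine ⟨fun x => Fin.ext (Az d hd x.2), fun x q => ?_, fun x y hxy => ?_⟩
  · have h1 := tab_getD ga (idx_lt q)
    rw [pt_idx, ga_spec.2] at h1
    rw [← h1]
    exact Amask d hd x.2 (idx_lt q)
  · obtain ⟨j, hj, hxy⟩ := hxy
    have h := Anb d hd x.2 hj
    refine ⟨d.wA x.val j, h.1, ?_⟩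
    show d.nb (d.fA x.val) (d.wA x.val j) = d.fA y.val
    rw [← hxy, h.2]

theorem mem_B : Mem d hd gb (PB d hd) := by
  refine ⟨fun x => Fin.ext (Bz d hd x.2), fun x q => ?_, fun x y hxy => ?_⟩
  · have h1 := tab_getD gb (idx_lt q)
    rw [pt_idx, gb_spec.2] at h1
    rw [← h1]
    exact Bmask d hd x.2 (idx_lt q)
  · obtain ⟨j, hj, hxy⟩ := hxy
    have h := Bnb d hd x.2 hj
    refine ⟨d.wB x.val j, h.1, ?_⟩
    show d.nb (d.fB x.val) (d.wB x.val j) = d.fB y.val
    rw [← hxy, h.2]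

/-- An element over the identity preserves the blocks. -/
theorem blk_eq {P : Equiv.Perm (Fin d.N)} (h : Mem d hd 1 P) (x : Fin d.N) :
    (P x).val / d.m = x.val / d.m := by
  apply maskinj d hd (P x).2 x.2
  apply Nat.eq_of_testBit_eq
  intro i
  by_cases hi : i < 24
  · have h1 := h.blk x (pt i)
    rw [Equiv.Perm.one_apply, idx_pt hi] at h1
    exact h1
  · have hle : 2 ^ 24 ≤ 2 ^ i := Nat.pow_le_pow_right (by norm_num) (not_lt.mp hi)
    rw [Nat.testBit_lt_two_pow (lt_of_lt_of_le (masklt d hd (P x).2) hle),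
      Nat.testBit_lt_two_pow (lt_of_lt_of_le (masklt d hd x.2) hle)]

/-- A block- and graph-preserving permutation fixing the point `0` is trivial. -/
theorem fix_all (Q : Equiv.Perm (Fin d.N)) (h0 : (Q ⟨0, Npos d hd⟩).val = 0)
    (hblk : ∀ x, (Q x).val / d.m = x.val / d.m)
    (hadj : ∀ x y : Fin d.N, d.adj x.val y.val → d.adj (Q x).val (Q y).val) : Q = 1 := by
  have key : ∀ n : ℕ, ∀ v : Fin d.N, d.dep v.val = n → (Q v).val = v.val := by
    intro n
    induction n using Nat.strong_induction_on with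
    | _ n ih =>
      intro v hv
      rcases tree d hd v.2 with h | ⟨hp, hj, hnb, hdep⟩
      · have e : v = ⟨0, Npos d hd⟩ := Fin.ext h
        rw [e]; exact h0
      · have hu : (Q ⟨d.par v.val, hp⟩).val = d.par v.val :=
          ih (d.dep (d.par v.val)) (hv ▸ hdep) ⟨d.par v.val, hp⟩ rfl
        obtain ⟨j', hj', hnb'⟩ := hadj ⟨d.par v.val, hp⟩ v ⟨d.parj v.val, hj, hnb⟩
        rw [hu] at hnb'
        have hb : d.nb (d.par v.val) j' / d.m = d.nb (d.par v.val) (d.parj v.val) / d.m := by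
          rw [hnb', hnb]; exact hblk v
        have hjj : j' = d.parj v.val := by
          rcases Nat.lt_trichotomy j' (d.parj v.val) with h1 | h1 | h1
          · exact absurd hb (ne_of_lt (nb_lt d hd hp _ _ h1 hj))
          · exact h1
          · exact absurd hb (ne_of_gt (nb_lt d hd hp _ _ h1 hj'))
        rw [← hnb', hjj, hnb]
  exact Equiv.ext (fun v => Fin.ext (key _ v rfl))

/-! ### The group -/

/-- The pairs satisfying the membership condition, as a submonoid. -/
def XM : Submonoid (Equiv.Perm GolayPt × Equiv.Perm (Fin d.N)) where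
  carrier := {p | Mem d hd p.1 p.2}
  mul_mem' := fun ha hb => mem_mul d hd ha hb
  one_mem' := mem_one d hd

/-- The pairs satisfying the membership condition. -/
def X0 : Subgroup (Equiv.Perm GolayPt × Equiv.Perm (Fin d.N)) :=
  { XM d hd with
    inv_mem' := by
      intro p hp
      have hpos : 0 < orderOf p := orderOf_pos p
      have e : p⁻¹ = p ^ (orderOf p - 1) := by
        symm
        apply eq_inv_of_mul_eq_one_left
        rw [← pow_succ, Nat.sub_add_cancel hpos, pow_orderOf_eq_one]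
      rw [e]
      exact (XM d hd).pow_mem hp _ }

/-- The cover: the pairs with first component in `M22`. -/
def X : Subgroup (↥M22 × Equiv.Perm (Fin d.N)) :=
  (X0 d hd).comap (MonoidHom.prodMap M22.subtype (MonoidHom.id _))

theorem mem_X {p : ↥M22 × Equiv.Perm (Fin d.N)} :
    p ∈ X d hd ↔ Mem d hd (p.1 : Equiv.Perm GolayPt) p.2 := Iff.rfl

/-- The projection onto `M22`. -/
def proj : ↥(X d hd) →* ↥M22 := (MonoidHom.fst _ _).comp (X d hd).subtype

/-- The central element. -/
def zX : ↥(X d hd) := ⟨(1, z0 d hd), mem_z d hd⟩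

theorem zX_mem_ker : zX d hd ∈ (proj d hd).ker := rfl

theorem zX_pow_fst (i : ℕ) : ((zX d hd ^ i : ↥(X d hd)) : ↥M22 × Equiv.Perm (Fin d.N)).1 = 1 := by
  show (1 : ↥M22) ^ i = 1
  exact one_pow i

theorem zX_pow_snd (i : ℕ) :
    ((zX d hd ^ i : ↥(X d hd)) : ↥M22 × Equiv.Perm (Fin d.N)).2 = z0 d hd ^ i := rfl

theorem zX_order : orderOf (zX d hd) = d.m := by
  rw [orderOf_eq_iff hd.mpos]
  constructor
  · apply Subtype.ext
    apply Prod.ext
    · exact zX_pow_fst d hd d.m
    · rw [zX_pow_snd]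
      apply Equiv.ext
      intro x
      apply Fin.ext
      rw [z0_pow_val]
      exact zpow d hd x.2
  · intro k hk hk0 h
    have h2 : ((z0 d hd ^ k) ⟨0, Npos d hd⟩).val = 0 := by
      rw [← zX_pow_snd, h]; rfl
    rw [z0_pow_val, show ((⟨0, Npos d hd⟩ : Fin d.N) : ℕ) = 0 from rfl, zzero d hd hk] at h2
    omega

theorem zX_central (q : ↥(X d hd)) : q * zX d hd = zX d hd * q := by
  apply Subtype.ext
  apply Prod.ext
  · show q.1.1 * 1 = 1 * q.1.1
    rw [mul_one, one_mul]
  · show q.1.2 * z0 d hd = z0 d hd * q.1.2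
    exact Equiv.ext (fun x => (mem_X d hd).mp q.2 |>.comm x)

/-- The kernel consists of the powers of `zX`. -/
theorem ker_cases (p : ↥(X d hd)) (hp : p ∈ (proj d hd).ker) : ∃ i : ℕ, p = zX d hd ^ i := by
  have h1 : p.1.1 = 1 := hp
  have hm : Mem d hd ((p.1.1 : ↥M22) : Equiv.Perm GolayPt) p.1.2 := p.2
  rw [h1] at hm
  have hi : (p.1.2 ⟨0, Npos d hd⟩).val < d.m := by
    have h2 := blk_eq d hd hm ⟨0, Npos d hd⟩
    rw [show ((⟨0, Npos d hd⟩ : Fin d.N) : ℕ) = 0 from rfl, Nat.zero_div] at h2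
    exact (Nat.div_eq_zero_iff_lt hd.mpos).mp h2
  refine ⟨(p.1.2 ⟨0, Npos d hd⟩).val, ?_⟩
  have hq1 : (((zX d hd ^ (p.1.2 ⟨0, Npos d hd⟩).val)⁻¹ * p : ↥(X d hd)) :
      ↥M22 × Equiv.Perm (Fin d.N)).1 = 1 := by
    show ((zX d hd ^ (p.1.2 ⟨0, Npos d hd⟩).val : ↥(X d hd)) :
      ↥M22 × Equiv.Perm (Fin d.N)).1⁻¹ * p.1.1 = 1
    rw [zX_pow_fst, h1, inv_one, one_mul]
  have hqm : Mem d hd ((1 : ↥M22) : Equiv.Perm GolayPt)
      (((zX d hd ^ (p.1.2 ⟨0, Npos d hd⟩).val)⁻¹ * p : ↥(X d hd)) :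
        ↥M22 × Equiv.Perm (Fin d.N)).2 := by
    have := ((zX d hd ^ (p.1.2 ⟨0, Npos d hd⟩).val)⁻¹ * p : ↥(X d hd)).2
    rw [mem_X, hq1] at this
    exact this
  have hq0 : ((((zX d hd ^ (p.1.2 ⟨0, Npos d hd⟩).val)⁻¹ * p : ↥(X d hd)) :
      ↥M22 × Equiv.Perm (Fin d.N)).2 ⟨0, Npos d hd⟩).val = 0 := by
    show (((z0 d hd ^ (p.1.2 ⟨0, Npos d hd⟩).val)⁻¹ * p.1.2) ⟨0, Npos d hd⟩).val = 0
    have e : p.1.2 ⟨0, Npos d hd⟩ = (z0 d hd ^ (p.1.2 ⟨0, Npos d hd⟩).val) ⟨0, Npos d hd⟩ := by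
      apply Fin.ext
      rw [z0_pow_val]
      exact (zzero d hd hi).symm
    rw [Equiv.Perm.mul_apply]
    nth_rewrite 2 [e]
    exact congrArg Fin.val (Equiv.symm_apply_apply _ _)
  have hq := fix_all d hd _ hq0 (blk_eq d hd hqm) hqm.adj
  have hqq : (zX d hd ^ (p.1.2 ⟨0, Npos d hd⟩).val)⁻¹ * p = 1 :=
    Subtype.ext (Prod.ext hq1 hq)
  exact (inv_mul_eq_one.mp hqq).symm

theorem ker_le_center : (proj d hd).ker ≤ Subgroup.center ↥(X d hd) := by
  intro p hp
  obtain ⟨i, rfl⟩ := ker_cases d hd p hp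
  rw [Subgroup.mem_center_iff]
  intro q
  exact (Commute.pow_right (zX_central d hd q) i).eq

theorem proj_surjective : Function.Surjective (proj d hd) := by
  intro g
  have hS : M22 ≤ (X0 d hd).map (MonoidHom.fst _ _) := by
    rw [← gen_ab]
    unfold K
    rw [Subgroup.closure_le]
    rintro x (rfl | rfl)
    · exact ⟨(ga, PA d hd), mem_A d hd, rfl⟩
    · exact ⟨(gb, PB d hd), mem_B d hd, rfl⟩
  obtain ⟨p, hp, hpg⟩ := hS g.2
  have hpg' : p.1 = (g : Equiv.Perm GolayPt) := hpg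
  refine ⟨⟨(g, p.2), ?_⟩, rfl⟩
  show Mem d hd (g : Equiv.Perm GolayPt) p.2
  rw [← hpg']
  exact hp

/-! ### The central element is a product of commutators -/

/-- The lifted first generator. -/
noncomputable def gA : ↥(X d hd) := ⟨(⟨ga, ga_spec.1⟩, PA d hd), mem_A d hd⟩

/-- The lifted second generator. -/
noncomputable def gB : ↥(X d hd) := ⟨(⟨gb, gb_spec.1⟩, PB d hd), mem_B d hd⟩

omit hd in
theorem rel_a : ga * ga = 1 := by
  apply tab_injective
  rw [tab_mul, ga_spec.2, tab_one]; decide +kernel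

omit hd in
theorem rel_b : gb ^ 4 = 1 := by
  apply tab_injective
  rw [tab_pow, gb_spec.2, tab_one]; decide +kernel

omit hd in
theorem rel_ab : (ga * gb) ^ 11 = 1 := by
  apply tab_injective
  rw [tab_pow, tab_mul, ga_spec.2, gb_spec.2, tab_one]; decide +kernel

omit hd in
theorem rel_abb : (ga * gb * gb) ^ 5 = 1 := by
  apply tab_injective
  rw [tab_pow, tab_mul, tab_mul, ga_spec.2, gb_spec.2, tab_one]; decide +kernel

omit hd in
theorem rel_6 : (ga * gb * ga * gb * ga * gb * gb * gb) ^ 5 = 1 := by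
  apply tab_injective
  simp only [tab_pow, tab_mul, ga_spec.2, gb_spec.2, tab_one]; decide +kernel

theorem relX_a : gA d hd * gA d hd = zX d hd ^ d.ea := by
  apply Subtype.ext
  apply Prod.ext
  · rw [zX_pow_fst]
    exact Subtype.ext rel_a
  · rw [zX_pow_snd]
    apply Equiv.ext
    intro x
    apply Fin.ext
    rw [z0_pow_val]
    exact Nat.eq_of_beq_eq_true (allLt_spec hd.relA x.2)

theorem relX_b : gB d hd ^ 4 = 1 := by
  apply Subtype.ext
  apply Prod.ext
  · exact Subtype.ext rel_b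
  · show PB d hd ^ 4 = 1
    apply Equiv.ext
    intro x
    apply Fin.ext
    rw [pow_val _ d.fB (fun _ => rfl)]
    exact Bpow d hd x.2

theorem relX_ab : (gA d hd * gB d hd) ^ 11 = zX d hd ^ d.eb := by
  apply Subtype.ext
  apply Prod.ext
  · rw [zX_pow_fst]
    exact Subtype.ext rel_ab
  · rw [zX_pow_snd]
    show (PA d hd * PB d hd) ^ 11 = z0 d hd ^ d.eb
    apply Equiv.ext
    intro x
    apply Fin.ext
    rw [pow_val _ (fun y => d.fA (d.fB y)) (fun _ => rfl), z0_pow_val]
    exact Nat.eq_of_beq_eq_true (allLt_spec hd.relAB x.2)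

theorem relX_abb : (gA d hd * gB d hd * gB d hd) ^ 5 = zX d hd ^ d.ec := by
  apply Subtype.ext
  apply Prod.ext
  · rw [zX_pow_fst]
    exact Subtype.ext rel_abb
  · rw [zX_pow_snd]
    show (PA d hd * PB d hd * PB d hd) ^ 5 = z0 d hd ^ d.ec
    apply Equiv.ext
    intro x
    apply Fin.ext
    rw [pow_val _ (fun y => d.fA (d.fB (d.fB y))) (fun _ => rfl), z0_pow_val]
    exact Nat.eq_of_beq_eq_true (allLt_spec hd.relABB x.2)

theorem relX_6 : (gA d hd * gB d hd * gA d hd * gB d hd * gA d hd * gB d hd * gB d hd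
    * gB d hd) ^ 5 = zX d hd ^ d.ed := by
  apply Subtype.ext
  apply Prod.ext
  · rw [zX_pow_fst]
    exact Subtype.ext rel_6
  · rw [zX_pow_snd]
    show (PA d hd * PB d hd * PA d hd * PB d hd * PA d hd * PB d hd * PB d hd * PB d hd) ^ 5
      = z0 d hd ^ d.ed
    apply Equiv.ext
    intro x
    apply Fin.ext
    rw [pow_val _ (fun y => d.fA (d.fB (d.fA (d.fB (d.fA (d.fB (d.fB (d.fB y))))))))
      (fun _ => rfl), z0_pow_val]
    exact Nat.eq_of_beq_eq_true (allLt_spec hd.rel6 x.2)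

theorem zX_mem_commutator : zX d hd ∈ commutator ↥(X d hd) := by
  rw [← Abelianization.ker_of, MonoidHom.mem_ker]
  have h1 := congrArg (fun g => Additive.ofMul (Abelianization.of g)) (relX_a d hd)
  have h2 := congrArg (fun g => Additive.ofMul (Abelianization.of g)) (relX_b d hd)
  have h3 := congrArg (fun g => Additive.ofMul (Abelianization.of g)) (relX_ab d hd)
  have h4 := congrArg (fun g => Additive.ofMul (Abelianization.of g)) (relX_abb d hd)
  have h5 := congrArg (fun g => Additive.ofMul (Abelianization.of g)) (relX_6 d hd)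
  have h6 := congrArg (fun g => Additive.ofMul (Abelianization.of g))
    (pow_orderOf_eq_one (zX d hd))
  rw [zX_order] at h6
  simp only [map_mul, map_pow, map_one, ofMul_mul, ofMul_pow, ofMul_one] at h1 h2 h3 h4 h5 h6
  have key := hd.ab (Additive (Abelianization ↥(X d hd)))
    (Additive.ofMul (Abelianization.of (gA d hd))) (Additive.ofMul (Abelianization.of (gB d hd)))
    (Additive.ofMul (Abelianization.of (zX d hd)))
    (by rw [← h1]; abel) h2 (by rw [← h3]; abel) (by rw [← h4]; abel) (by rw [← h5]; abel) h6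
  exact Additive.ofMul.injective key

theorem zX_mem : zX d hd ∈ commutator ↥(X d hd) ⊓ (proj d hd).ker :=
  ⟨zX_mem_commutator d hd, zX_mem_ker d hd⟩

end Theory

end Cfsg.Agent.Lib.Helper35.M22Cover
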