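-- Lifts of words in the two generators of M22 to a cover built from data, and the evaluation
-- of the commutator of the lifts of two commuting words at a single point.
import Cfsg.Agent.Lib.Helper35.M22Cover

set_option autoImplicit false

namespace Cfsg.Agent.Lib.Helper35.M21Lift

open Cfsg Cfsg.Spor Cfsg.Agent.Lib.Helper7.GolayBase Cfsg.Agent.Lib.Helper7.GolayPerm
  Cfsg.Agent.Lib.Helper35.PermTab Cfsg.Agent.Lib.Helper35.M22MData
  Cfsg.Agent.Lib.Helper35.M22Elts Cfsg.Agent.Lib.Helper35.M22Cover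
open Cfsg.Agent.Lib.Helper35.M23Gen (wordT wordP tab_wordP wordP_mem)
open scoped commutatorElement

/-- The action of the lift of a word on the points. -/
def wF (d : Data) : List Bool → ℕ → ℕ
  | [], x => x
  | c :: w, x => cond c (d.fB (wF d w x)) (d.fA (wF d w x))

variable (d : Data) (hd : Good d)

/-- The lift of a word. -/
noncomputable def wX : List Bool → ↥(X d hd)
  | [] => 1
  | c :: w => cond c (gB d hd) (gA d hd) * wX w

theorem wX_fst (w : List Bool) :
    (((wX d hd w : ↥(X d hd)) : ↥M22 × Equiv.Perm (Fin d.N)).1 : Equiv.Perm GolayPt)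
      = wordP w ga gb := by
  induction w with
  | nil => rfl
  | cons c w ih =>
    cases c
    · show ga * (((wX d hd w : ↥(X d hd)) : ↥M22 × Equiv.Perm (Fin d.N)).1 : Equiv.Perm GolayPt)
        = ga * wordP w ga gb
      rw [ih]
    · show gb * (((wX d hd w : ↥(X d hd)) : ↥M22 × Equiv.Perm (Fin d.N)).1 : Equiv.Perm GolayPt)
        = gb * wordP w ga gb
      rw [ih]

theorem proj_wX (w : List Bool) :
    ((proj d hd (wX d hd w) : ↥M22) : Equiv.Perm GolayPt) = wordP w ga gb := wX_fst d hd w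

theorem wX_snd (w : List Bool) (x : Fin d.N) :
    (((wX d hd w : ↥(X d hd)) : ↥M22 × Equiv.Perm (Fin d.N)).2 x).val = wF d w x.val := by
  induction w with
  | nil => rfl
  | cons c w ih =>
    cases c
    · show d.fA (((wX d hd w : ↥(X d hd)) : ↥M22 × Equiv.Perm (Fin d.N)).2 x).val
        = d.fA (wF d w x.val)
      rw [ih]
    · show d.fB (((wX d hd w : ↥(X d hd)) : ↥M22 × Equiv.Perm (Fin d.N)).2 x).val
        = d.fB (wF d w x.val)
      rw [ih]

/-- An element of the kernel is the power of the central element given by the image of the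
point `0`. -/
theorem ker_val (p : ↥(X d hd)) (hp : p ∈ (proj d hd).ker) :
    p = zX d hd ^ (p.1.2 ⟨0, Npos d hd⟩).val := by
  obtain ⟨i, rfl⟩ := ker_cases d hd p hp
  have e : zX d hd ^ i = zX d hd ^ (i % d.m) := by
    rw [← zX_order d hd, pow_mod_orderOf]
  have hv : (((zX d hd ^ (i % d.m) : ↥(X d hd)) : ↥M22 × Equiv.Perm (Fin d.N)).2
      ⟨0, Npos d hd⟩).val = i % d.m := by
    rw [zX_pow_snd, z0_pow_val]
    exact zzero d hd (Nat.mod_lt _ hd.mpos)
  rw [e, hv]

/-- The commutator of the lifts of two commuting words, from the images of one point. -/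
theorem comm_eval (wp wq : List Bool)
    (hcomm : wordP wp ga gb * wordP wq ga gb = wordP wq ga gb * wordP wp ga gb)
    (y k : ℕ) (hy : y < d.N) (h1 : wF d wq (wF d wp y) = 0) (h2 : wF d wp (wF d wq y) = k) :
    ⁅wX d hd wp, wX d hd wq⁆ = zX d hd ^ k := by
  have hk : ⁅wX d hd wp, wX d hd wq⁆ ∈ (proj d hd).ker := by
    rw [MonoidHom.mem_ker, map_commutatorElement, commutatorElement_eq_one_iff_commute]
    show proj d hd (wX d hd wp) * proj d hd (wX d hd wq)
      = proj d hd (wX d hd wq) * proj d hd (wX d hd wp)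
    apply Subtype.ext
    show ((proj d hd (wX d hd wp) : ↥M22) : Equiv.Perm GolayPt)
        * ((proj d hd (wX d hd wq) : ↥M22) : Equiv.Perm GolayPt)
      = ((proj d hd (wX d hd wq) : ↥M22) : Equiv.Perm GolayPt)
        * ((proj d hd (wX d hd wp) : ↥M22) : Equiv.Perm GolayPt)
    rw [proj_wX, proj_wX]
    exact hcomm
  rw [ker_val d hd _ hk]
  congr 1
  have e0 : (((wX d hd wq : ↥(X d hd)) : ↥M22 × Equiv.Perm (Fin d.N)).2
      * ((wX d hd wp : ↥(X d hd)) : ↥M22 × Equiv.Perm (Fin d.N)).2) ⟨y, hy⟩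
      = ⟨0, Npos d hd⟩ := by
    apply Fin.ext
    rw [Equiv.Perm.mul_apply, wX_snd, wX_snd]
    exact h1
  have e1 : (((wX d hd wp : ↥(X d hd)) : ↥M22 × Equiv.Perm (Fin d.N)).2)⁻¹
      ((((wX d hd wq : ↥(X d hd)) : ↥M22 × Equiv.Perm (Fin d.N)).2)⁻¹ ⟨0, Npos d hd⟩)
      = ⟨y, hy⟩ := by
    rw [← e0, Equiv.Perm.mul_apply]
    simp
  show ((((wX d hd wp : ↥(X d hd)) : ↥M22 × Equiv.Perm (Fin d.N)).2
      * ((wX d hd wq : ↥(X d hd)) : ↥M22 × Equiv.Perm (Fin d.N)).2
      * (((wX d hd wp : ↥(X d hd)) : ↥M22 × Equiv.Perm (Fin d.N)).2)⁻¹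
      * (((wX d hd wq : ↥(X d hd)) : ↥M22 × Equiv.Perm (Fin d.N)).2)⁻¹) ⟨0, Npos d hd⟩).val = k
  rw [Equiv.Perm.mul_apply, Equiv.Perm.mul_apply, Equiv.Perm.mul_apply, e1, wX_snd, wX_snd]
  exact h2

end Cfsg.Agent.Lib.Helper35.M21Lift
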