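-- Checks of the data of the 3-fold cover of M22 (part 2).
import Cfsg.Agent.Lib.Helper35.M22C3Data

set_option autoImplicit false

namespace Cfsg.Agent.Lib.Helper35.M22C3Chk2

open Cfsg.Agent.Lib.Helper35.M22Cover Cfsg.Agent.Lib.Helper35.M22C3Data
  Cfsg.Agent.Lib.Helper35.M22MData

theorem c_Bnb : allLt dat.N (fun x => allLt dat.v (fun j =>
    Nat.blt (dat.wB x j) dat.v && Nat.beq (dat.fB (dat.nb x j)) (dat.nb (dat.fB x) (dat.wB x j)))) = true := by
  decide +kernel

theorem c_Amask : allLt dat.N (fun x => allLt 24 (fun i =>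
    (dat.mask (dat.fA x)).testBit (gaT.getD i 0) == (dat.mask x).testBit i)) = true := by
  decide +kernel

theorem c_Bmask : allLt dat.N (fun x => allLt 24 (fun i =>
    (dat.mask (dat.fB x)).testBit (gbT.getD i 0) == (dat.mask x).testBit i)) = true := by
  decide +kernel

theorem c_Blt : allLt dat.N (fun x => Nat.blt (dat.fB x) dat.N) = true := by
  decide +kernel

theorem c_Bpow : allLt dat.N (fun x => Nat.beq (dat.fB^[3 + 1] x) x) = true := by
  decide +kernel

theorem c_Bz : allLt dat.N (fun x => Nat.beq (dat.fB (dat.zf x)) (dat.zf (dat.fB x))) = true := by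
  decide +kernel

theorem c_masklt : allLt dat.NB (fun k => Nat.blt (dat.maskB k) 16777216) = true := by
  decide +kernel

theorem c_masksorted : allLt (dat.NB - 1) (fun k => Nat.blt (dat.maskB k) (dat.maskB (k + 1))) = true := by
  decide +kernel

end Cfsg.Agent.Lib.Helper35.M22C3Chk2
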