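-- Checks of the data of the 3-fold cover of M22 (part 3).
import Cfsg.Agent.Lib.Helper35.M22C3Data

set_option autoImplicit false

namespace Cfsg.Agent.Lib.Helper35.M22C3Chk3

open Cfsg.Agent.Lib.Helper35.M22Cover Cfsg.Agent.Lib.Helper35.M22C3Data
  Cfsg.Agent.Lib.Helper35.M22MData

theorem c_znb : allLt dat.N (fun x => allLt dat.v (fun j =>
    Nat.beq (dat.zf (dat.nb x j)) (dat.nb (dat.zf x) j))) = true := by
  decide +kernel

theorem c_nbsorted : allLt dat.N (fun x => allLt (dat.v - 1) (fun j =>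
    Nat.blt (dat.nb x j / dat.m) (dat.nb x (j + 1) / dat.m))) = true := by
  decide +kernel

theorem c_tree : allLt dat.N (fun x => Nat.beq x 0 || (Nat.blt (dat.par x) dat.N && Nat.blt (dat.parj x) dat.v
    && Nat.beq (dat.nb (dat.par x) (dat.parj x)) x && Nat.blt (dat.dep (dat.par x)) (dat.dep x))) = true := by
  decide +kernel

end Cfsg.Agent.Lib.Helper35.M22C3Chk3
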