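-- The 3-fold cover of M22: the data satisfy the conditions of the construction.
import Cfsg.Agent.Lib.Helper35.M22C3Chk1
import Cfsg.Agent.Lib.Helper35.M22C3Chk2
import Cfsg.Agent.Lib.Helper35.M22C3Chk3
import Cfsg.Agent.Lib.Helper35.M22C3Chk4

set_option autoImplicit false

namespace Cfsg.Agent.Lib.Helper35.M22C3

open Cfsg.Agent.Lib.Helper35.M22Cover Cfsg.Agent.Lib.Helper35.M22C3Data

theorem good : Good dat where
  mpos := by decide
  NBpos := by decide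
  Anb := M22C3Chk1.c_Anb
  zlt := M22C3Chk1.c_zlt
  zpow := M22C3Chk1.c_zpow
  zzero := M22C3Chk1.c_zzero
  zmask := M22C3Chk1.c_zmask
  Alt := M22C3Chk1.c_Alt
  Apow := M22C3Chk1.c_Apow
  Az := M22C3Chk1.c_Az
  Bnb := M22C3Chk2.c_Bnb
  Amask := M22C3Chk2.c_Amask
  Bmask := M22C3Chk2.c_Bmask
  Blt := M22C3Chk2.c_Blt
  Bpow := M22C3Chk2.c_Bpow
  Bz := M22C3Chk2.c_Bz
  masklt := M22C3Chk2.c_masklt
  masksorted := M22C3Chk2.c_masksorted
  znb := M22C3Chk3.c_znb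
  nbsorted := M22C3Chk3.c_nbsorted
  tree := M22C3Chk3.c_tree
  rel6 := M22C3Chk4.c_rel6
  relAB := M22C3Chk4.c_relAB
  relABB := M22C3Chk4.c_relABB
  relA := M22C3Chk4.c_relA
  ab := ab

end Cfsg.Agent.Lib.Helper35.M22C3
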