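-- Checks of the data of the 4-fold cover of M22 (part 1).
import Cfsg.Agent.Lib.Helper35.M22C4Data

set_option autoImplicit false

namespace Cfsg.Agent.Lib.Helper35.M22C4Chk1

open Cfsg.Agent.Lib.Helper35.M22Cover Cfsg.Agent.Lib.Helper35.M22C4Data
  Cfsg.Agent.Lib.Helper35.M22MData

theorem c_Anb : allLt dat.N (fun x => allLt dat.v (fun j =>
    Nat.blt (dat.wA x j) dat.v && Nat.beq (dat.fA (dat.nb x j)) (dat.nb (dat.fA x) (dat.wA x j)))) = true := by
  decide +kernel

theorem c_zlt : allLt dat.N (fun x => Nat.blt (dat.zf x) dat.N) = true := by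
  decide +kernel

theorem c_zpow : allLt dat.N (fun x => Nat.beq (dat.zf^[dat.m] x) x) = true := by
  decide +kernel

theorem c_zzero : allLt dat.m (fun i => Nat.beq (dat.zf^[i] 0) i) = true := by
  decide +kernel

theorem c_zmask : allLt dat.N (fun x => Nat.beq (dat.mask (dat.zf x)) (dat.mask x)) = true := by
  decide +kernel

theorem c_Alt : allLt dat.N (fun x => Nat.blt (dat.fA x) dat.N) = true := by
  decide +kernel

theorem c_Apow : allLt dat.N (fun x => Nat.beq (dat.fA^[dat.kA + 1] x) x) = true := by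
  decide +kernel

theorem c_Az : allLt dat.N (fun x => Nat.beq (dat.fA (dat.zf x)) (dat.zf (dat.fA x))) = true := by
  decide +kernel

end Cfsg.Agent.Lib.Helper35.M22C4Chk1
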