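-- Checks of the data of the 4-fold cover of M22 (part 4).
import Cfsg.Agent.Lib.Helper35.M22C4Data

set_option autoImplicit false

namespace Cfsg.Agent.Lib.Helper35.M22C4Chk4

open Cfsg.Agent.Lib.Helper35.M22Cover Cfsg.Agent.Lib.Helper35.M22C4Data
  Cfsg.Agent.Lib.Helper35.M22MData

theorem c_rel6 : allLt dat.N (fun x =>
    Nat.beq ((fun y => dat.fA (dat.fB (dat.fA (dat.fB (dat.fA (dat.fB (dat.fB (dat.fB y))))))))^[5] x)
      (dat.zf^[dat.ed] x)) = true := by
  decide +kernel

theorem c_relAB : allLt dat.N (fun x => Nat.beq ((fun y => dat.fA (dat.fB y))^[11] x) (dat.zf^[dat.eb] x)) = true := by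
  decide +kernel

theorem c_relABB : allLt dat.N (fun x =>
    Nat.beq ((fun y => dat.fA (dat.fB (dat.fB y)))^[5] x) (dat.zf^[dat.ec] x)) = true := by
  decide +kernel

theorem c_relA : allLt dat.N (fun x => Nat.beq (dat.fA (dat.fA x)) (dat.zf^[dat.ea] x)) = true := by
  decide +kernel

end Cfsg.Agent.Lib.Helper35.M22C4Chk4
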