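-- The Schur multiplier of PSL(3, 4), realised as the pointwise stabiliser `L` of three points
-- in M24, is the product of cyclic groups of orders 3, 4 and 4: the bound on the kernels of stem
-- extensions, two central extensions built from the covers of M22 (twisted by an element of M24
-- normalising `L`) with explicit commutators in their kernels, and the Hopf model.
import Cfsg.Agent.Lib.Helper35.M21Bound
import Cfsg.Agent.Lib.Helper35.M21Lift
import Cfsg.Agent.Lib.Helper35.TwistProd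
import Cfsg.Agent.Lib.Helper35.M22C3
import Cfsg.Agent.Lib.Helper35.M22C4
import Cfsg.Agent.Lib.Helper66.Hopf

set_option autoImplicit false

namespace Cfsg.Agent.Lib.Helper35.M21Mult

open Cfsg Cfsg.Spor Cfsg.Agent.Lib.Helper35 Cfsg.Agent.Lib.Helper66
open Cfsg.Agent.Lib.Helper7.GolayPerm
open scoped commutatorElement

universe u w w'

/-! ### Abelian groups of order dividing 48 -/

/-- The basic computation: distinct exponent triples give distinct elements. -/
theorem key {T Y : Type*} [CommGroup T] [Group Y] (θ : T →* Y) (x y c : T)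
    (hx48 : x ^ 48 = 1) (hy48 : y ^ 48 = 1) (hθc : θ c = 1)
    (hind : ∀ a b : ℕ, θ x ^ a * θ y ^ b = 1 → 4 ∣ a ∧ 4 ∣ b) (hc : orderOf c = 3)
    {i j k i' j' k' : ℕ} (hi : i < 3) (hi' : i' < 3) (hj : j < 4) (hj' : j' < 4) (hk : k < 4)
    (hk' : k' < 4)
    (h : c ^ i * (x ^ 9) ^ j * (y ^ 9) ^ k = c ^ i' * (x ^ 9) ^ j' * (y ^ 9) ^ k') :
    i = i' ∧ j = j' ∧ k = k' := by
  have h1 := congrArg θ h
  simp only [map_mul, map_pow, hθc, one_pow, one_mul] at h1
  have h2 : θ (x ^ (9 * j + 39 * j') * y ^ (9 * k + 39 * k')) = 1 := by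
    have ex : x ^ (9 * j + 39 * j') * (x ^ 9) ^ j' = (x ^ 9) ^ j := by
      rw [← pow_mul, ← pow_mul, ← pow_add,
        show 9 * j + 39 * j' + 9 * j' = 48 * j' + 9 * j by ring, pow_add, pow_mul, hx48,
        one_pow, one_mul]
    have ey : y ^ (9 * k + 39 * k') * (y ^ 9) ^ k' = (y ^ 9) ^ k := by
      rw [← pow_mul, ← pow_mul, ← pow_add,
        show 9 * k + 39 * k' + 9 * k' = 48 * k' + 9 * k by ring, pow_add, pow_mul, hy48,
        one_pow, one_mul]
    have e : x ^ (9 * j + 39 * j') * y ^ (9 * k + 39 * k')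
        = ((x ^ 9) ^ j * (y ^ 9) ^ k) * ((x ^ 9) ^ j' * (y ^ 9) ^ k')⁻¹ := by
      rw [eq_mul_inv_iff_mul_eq, mul_mul_mul_comm, ex, ey]
    rw [e, map_mul, map_inv]
    simp only [map_mul, map_pow]
    rw [h1, mul_inv_cancel]
  rw [map_mul, map_pow, map_pow] at h2
  obtain ⟨d1, d2⟩ := hind _ _ h2
  have hjj : j = j' := by omega
  have hkk : k = k' := by omega
  subst hjj hkk
  have h3 : c ^ i = c ^ i' := mul_right_cancel (mul_right_cancel h)
  have h4 := pow_injOn_Iio_orderOf (x := c) (by rw [Set.mem_Iio, hc]; exact hi)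
    (by rw [Set.mem_Iio, hc]; exact hi') h3
  exact ⟨h4, rfl, rfl⟩

/-- A commutative group of order dividing 48 with an element of order divisible by three and a
homomorphism whose image has exponent four and contains two independent elements of order
four is the product of cyclic groups of orders 3, 4 and 4. -/
theorem exists_equiv {T Y : Type*} [CommGroup T] [Finite T] [Group Y]
    (hcard : Nat.card T ∣ 48) (θ : T →* Y) (x y t3 : T) (h3 : 3 ∣ orderOf t3)
    (hexp : ∀ t : T, θ t ^ 4 = 1)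
    (hind : ∀ a b : ℕ, θ x ^ a * θ y ^ b = 1 → 4 ∣ a ∧ 4 ∣ b) :
    Nonempty (Multiplicative (ZMod 3 × ZMod 4 × ZMod 4) ≃* T) := by
  have h48 : ∀ t : T, t ^ 48 = 1 := by
    intro t
    obtain ⟨k, hk⟩ := hcard
    rw [hk, pow_mul, pow_card_eq_one', one_pow]
  have hc3 : (t3 ^ 16) ^ 3 = 1 := by rw [← pow_mul]; exact h48 t3
  have hc1 : t3 ^ 16 ≠ 1 := by
    intro h
    have h1 : 3 ∣ 16 := dvd_trans h3 (orderOf_dvd_of_pow_eq_one h)
    omega
  have hco : orderOf (t3 ^ 16) = 3 := by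
    have : Fact (Nat.Prime 3) := ⟨Nat.prime_three⟩
    exact orderOf_eq_prime hc3 hc1
  have hθc : θ (t3 ^ 16) = 1 := by
    have e4 := hexp (t3 ^ 16)
    have e3 : θ (t3 ^ 16) ^ 3 = 1 := by rw [← map_pow, hc3, map_one]
    calc θ (t3 ^ 16) = θ (t3 ^ 16) ^ 4 * (θ (t3 ^ 16) ^ 3)⁻¹ := by group
      _ = 1 := by rw [e4, e3, inv_one, mul_one]
  let F : ZMod 3 × ZMod 4 × ZMod 4 → T := fun p =>
    (t3 ^ 16) ^ p.1.val * (x ^ 9) ^ p.2.1.val * (y ^ 9) ^ p.2.2.val
  have hF : Function.Injective F := by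
    intro p q hpq
    obtain ⟨h1, h2, h3⟩ := key θ x y (t3 ^ 16) (h48 x) (h48 y) hθc hind hco (ZMod.val_lt p.1)
      (ZMod.val_lt q.1) (ZMod.val_lt p.2.1) (ZMod.val_lt q.2.1) (ZMod.val_lt p.2.2)
      (ZMod.val_lt q.2.2) hpq
    exact Prod.ext (ZMod.val_injective _ h1)
      (Prod.ext (ZMod.val_injective _ h2) (ZMod.val_injective _ h3))
  have hcardS : Nat.card (ZMod 3 × ZMod 4 × ZMod 4) = 48 := by
    rw [Nat.card_prod, Nat.card_prod, Nat.card_zmod, Nat.card_zmod]
  have hle : Nat.card T ≤ 48 := Nat.le_of_dvd (by norm_num) hcard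
  have hbij : Function.Bijective F := hF.bijective_of_nat_card_le (by rw [hcardS]; exact hle)
  have hpow4 : ∀ z : T, (z ^ 9) ^ 4 = 1 := by
    intro z
    obtain ⟨p, hp⟩ := hbij.2 ((z ^ 9) ^ 4)
    have h1 := congrArg θ hp
    simp only [F, map_mul, map_pow, hθc, one_pow, one_mul] at h1
    have e : (θ z ^ 9) ^ 4 = 1 := by
      rw [← pow_mul, show 9 * 4 = 4 * 9 from rfl, pow_mul, hexp, one_pow]
    rw [e, ← pow_mul, ← pow_mul] at h1
    obtain ⟨d1, d2⟩ := hind _ _ h1
    have hj : p.2.1.val = 0 := by have := ZMod.val_lt p.2.1; omega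
    have hk : p.2.2.val = 0 := by have := ZMod.val_lt p.2.2; omega
    simp only [F, hj, hk, pow_zero, mul_one] at hp
    have e2 : (t3 ^ 16) ^ (4 * p.1.val) = 1 := by
      rw [mul_comm, pow_mul, hp, ← pow_mul, ← pow_mul, show 9 * 4 * 4 = 48 * 3 from rfl,
        pow_mul, h48, one_pow]
    have d3 : 3 ∣ 4 * p.1.val := by
      have hd := orderOf_dvd_of_pow_eq_one e2
      rwa [hco] at hd
    have hi : p.1.val = 0 := by have := ZMod.val_lt p.1; omega
    rw [← hp, hi, pow_zero]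
  have ha4 : (x ^ 9) ^ 4 = 1 := hpow4 x
  have hb4 : (y ^ 9) ^ 4 = 1 := hpow4 y
  have hmul : ∀ p q : ZMod 3 × ZMod 4 × ZMod 4, F (p + q) = F p * F q := by
    intro p q
    simp only [F, Prod.fst_add, Prod.snd_add, ZMod.val_add]
    rw [← pow_eq_pow_mod _ hc3, ← pow_eq_pow_mod _ ha4, ← pow_eq_pow_mod _ hb4, pow_add,
      pow_add, pow_add]
    simp only [mul_assoc, mul_left_comm]
  exact ⟨MulEquiv.mk' (Multiplicative.toAdd.trans (Equiv.ofBijective F hbij))
    (fun p q => hmul (Multiplicative.toAdd p) (Multiplicative.toAdd q))⟩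

/-! ### The Hopf model -/

theorem ker_equiv_comp {A B C : Type*} [Group A] [Group B] [Group C] (e : B ≃* C)
    (f : A →* B) : (e.toMonoidHom.comp f).ker = f.ker := by
  ext x
  rw [MonoidHom.mem_ker, MonoidHom.mem_ker]
  exact e.map_eq_one_iff

/-- Multiplier `3 × 4 × 4`: all stem extensions have kernel of order dividing `48`, and there
are central extensions with two independent elements of order `4` in a kernel of exponent `4`,
respectively an element of order `3`, in the intersection of the kernel with the commutator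
subgroup. -/
theorem hasSchur_of_bound {G : Type u} [Group G] [Finite G]
    (hub : ∀ (Γ : Type u) [Group Γ] [Finite Γ] (σ : Γ →* G), Cfsg.IsStemExtension σ →
      Nat.card σ.ker ∣ 48)
    {X₄ : Type w} [Group X₄] (ξ₄ : X₄ →* G) (hξ₄ : Function.Surjective ξ₄)
    (hc₄ : ξ₄.ker ≤ Subgroup.center X₄) (u v : X₄)
    (hu : u ∈ _root_.commutator X₄ ⊓ ξ₄.ker) (hv : v ∈ _root_.commutator X₄ ⊓ ξ₄.ker)
    (hexp : ∀ k ∈ ξ₄.ker, k ^ 4 = 1)
    (hind : ∀ a b : ℕ, u ^ a * v ^ b = 1 → 4 ∣ a ∧ 4 ∣ b)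
    {X₃ : Type w'} [Group X₃] (ξ₃ : X₃ →* G) (hξ₃ : Function.Surjective ξ₃)
    (hc₃ : ξ₃.ker ≤ Subgroup.center X₃) (z₃ : X₃) (hz₃ : z₃ ∈ _root_.commutator X₃ ⊓ ξ₃.ker)
    (ho₃ : orderOf z₃ = 3) :
    Cfsg.HasSchurMultiplier G (Multiplicative (ZMod 3 × ZMod 4 × ZMod 4)) := by
  have hπ := Hopf.can_surjective G
  obtain ⟨Γ, i1, i2, σ, hσ, ⟨e⟩⟩ := Hopf.exists_cover (Hopf.can G) hπ
  have hdvd := hub Γ σ hσ
  have hfin : Finite (Hopf.T (Hopf.can G)) := Hopf.finite_T (Hopf.can G) hπ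
  have hcardT : Nat.card (Hopf.T (Hopf.can G)) ∣ 48 := by
    rw [← Nat.card_congr e.toEquiv]; exact hdvd
  obtain ⟨θ₄, hθ₄⟩ := Hopf.exists_lift (Hopf.can G) ξ₄ hξ₄ hc₄
  obtain ⟨tu, htu, hmu⟩ := Hopf.commutator_inf_ker_le (Hopf.can G) hπ ξ₄ hc₄ θ₄ hθ₄ hu
  obtain ⟨tv, htv, hmv⟩ := Hopf.commutator_inf_ker_le (Hopf.can G) hπ ξ₄ hc₄ θ₄ hθ₄ hv
  obtain ⟨θ₃, hθ₃⟩ := Hopf.exists_lift (Hopf.can G) ξ₃ hξ₃ hc₃
  obtain ⟨t₃, ht₃, hm₃⟩ := Hopf.commutator_inf_ker_le (Hopf.can G) hπ ξ₃ hc₃ θ₃ hθ₃ hz₃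
  have h3 : 3 ∣ orderOf (⟨t₃, ht₃⟩ : Hopf.T (Hopf.can G)) := by
    rw [Subgroup.orderOf_mk]
    have h1 : orderOf (θ₃ t₃) ∣ orderOf t₃ := orderOf_map_dvd θ₃ t₃
    rwa [hm₃, ho₃] at h1
  letI : CommGroup (Hopf.T (Hopf.can G)) :=
    { (inferInstance : Group (Hopf.T (Hopf.can G))) with
      mul_comm := fun a b => Subtype.ext
        (Subgroup.mem_center_iff.mp (Hopf.T_le_center (Hopf.can G) b.2) (a : _)) }
  obtain ⟨e2⟩ := exists_equiv hcardT (θ₄.comp (Hopf.T (Hopf.can G)).subtype) ⟨tu, htu⟩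
    ⟨tv, htv⟩ ⟨t₃, ht₃⟩ h3
    (fun t => hexp _ (Hopf.map_T_le_ker (Hopf.can G) ξ₄ θ₄ hθ₄ ⟨t.1, t.2, rfl⟩))
    (by
      intro a b hab
      apply hind
      rw [← hmu, ← hmv]
      exact hab)
  exact Hopf.hasSchurMultiplier_of_equiv (Hopf.can G) hπ e2

/-! ### The central extensions -/

section Concrete

open Cfsg.Agent.Lib.Helper35.M22Cover Cfsg.Agent.Lib.Helper35.M21Lift
open Cfsg.Agent.Lib.Helper35.M23Gen (wordT wordP)
open Cfsg.Agent.Lib.Helper35.M22Elts (ga gb)
open Cfsg.Agent.Lib.Helper35.M21Data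

variable (d : Data) (hd : Good d) (n : Equiv.Perm GolayPt)

/-- The commutator of two pairs of lifted words in the twisted fibre product. -/
theorem pair_spec (wp wq wp' wq' : List Bool) (y k y' k' : ℕ)
    (hL : wordP wp ga gb ∈ M21Elts.L) (hL' : wordP wq ga gb ∈ M21Elts.L)
    (hn : wordP wp' ga gb = n * wordP wp ga gb * n⁻¹)
    (hn' : wordP wq' ga gb = n * wordP wq ga gb * n⁻¹)
    (hc : wordP wp ga gb * wordP wq ga gb = wordP wq ga gb * wordP wp ga gb)
    (hy : y < d.N) (e1 : wF d wq (wF d wp y) = 0) (e2 : wF d wp (wF d wq y) = k)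
    (hy' : y' < d.N) (e1' : wF d wq' (wF d wp' y') = 0) (e2' : wF d wp' (wF d wq' y') = k') :
    ∃ u : ↥(TwistProd.Y (proj d hd) M21Elts.L n),
      u ∈ _root_.commutator ↥(TwistProd.Y (proj d hd) M21Elts.L n) ⊓
        (TwistProd.η (proj d hd) M21Elts.L n).ker ∧
      (u : ↥(X d hd) × ↥(X d hd)) = (zX d hd ^ k, zX d hd ^ k') := by
  have hc' : wordP wp' ga gb * wordP wq' ga gb = wordP wq' ga gb * wordP wp' ga gb := by
    rw [hn, hn']
    calc n * wordP wp ga gb * n⁻¹ * (n * wordP wq ga gb * n⁻¹)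
        = n * (wordP wp ga gb * wordP wq ga gb) * n⁻¹ := by group
      _ = n * (wordP wq ga gb * wordP wp ga gb) * n⁻¹ := by rw [hc]
      _ = n * wordP wq ga gb * n⁻¹ * (n * wordP wp ga gb * n⁻¹) := by group
  have h1 : ((proj d hd (wX d hd wp) : ↥M22) : Equiv.Perm GolayPt) ∈ M21Elts.L := by
    rw [proj_wX]; exact hL
  have h2 : ((proj d hd (wX d hd wp') : ↥M22) : Equiv.Perm GolayPt)
      = n * ((proj d hd (wX d hd wp) : ↥M22) : Equiv.Perm GolayPt) * n⁻¹ := by
    rw [proj_wX, proj_wX]; exact hn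
  have h1' : ((proj d hd (wX d hd wq) : ↥M22) : Equiv.Perm GolayPt) ∈ M21Elts.L := by
    rw [proj_wX]; exact hL'
  have h2' : ((proj d hd (wX d hd wq') : ↥M22) : Equiv.Perm GolayPt)
      = n * ((proj d hd (wX d hd wq) : ↥M22) : Equiv.Perm GolayPt) * n⁻¹ := by
    rw [proj_wX, proj_wX]; exact hn'
  have hcm : proj d hd (wX d hd wp) * proj d hd (wX d hd wq)
      = proj d hd (wX d hd wq) * proj d hd (wX d hd wp) := by
    apply Subtype.ext
    rw [Subgroup.coe_mul, Subgroup.coe_mul, proj_wX, proj_wX]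
    exact hc
  obtain ⟨hmem, hcoe⟩ := TwistProd.comm_mk (proj d hd) M21Elts.L n (wX d hd wp) (wX d hd wp')
    (wX d hd wq) (wX d hd wq') h1 h2 h1' h2' hcm
  refine ⟨_, hmem, ?_⟩
  rw [hcoe, comm_eval d hd wp wq hc y k hy e1 e2, comm_eval d hd wp' wq' hc' y' k' hy' e1' e2']

/-- The kernel of the twisted fibre product has exponent dividing the order of the centre. -/
theorem ker_pow (p : ↥(TwistProd.Y (proj d hd) M21Elts.L n))
    (hp : p ∈ (TwistProd.η (proj d hd) M21Elts.L n).ker) : p ^ d.m = 1 := by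
  obtain ⟨h1, h2⟩ := (TwistProd.mem_ker_iff (proj d hd) M21Elts.L n p).mp hp
  obtain ⟨i, hi⟩ := ker_cases d hd _ h1
  obtain ⟨j, hj⟩ := ker_cases d hd _ h2
  have hz : zX d hd ^ d.m = 1 := by rw [← zX_order d hd]; exact pow_orderOf_eq_one _
  apply Subtype.ext
  rw [Subgroup.coe_pow]
  apply Prod.ext
  · rw [Prod.pow_fst, hi, ← pow_mul, mul_comm, pow_mul, hz, one_pow]; rfl
  · rw [Prod.pow_snd, hj, ← pow_mul, mul_comm, pow_mul, hz, one_pow]; rfl

/-- The Schur multiplier of a group isomorphic to `L` is the product of cyclic groups of orders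
3, 4 and 4. -/
theorem m21_multiplier {G : Type u} [Group G] (e : ↥M21Elts.L ≃* G) :
    Cfsg.HasSchurMultiplier G (Multiplicative (ZMod 3 × ZMod 4 × ZMod 4)) := by
  have hfinL : Finite ↥M21Elts.L := inferInstance
  have hfin : Finite G := Finite.of_equiv _ e.toEquiv
  obtain ⟨u, hu, hcu⟩ := pair_spec M22C4Data.dat M22C4.good M21Elts.n y_p1 y_q1 y_pn1 y_qn1
    138 2 1121 1
    (M21Elts.word_memL (by decide +kernel)) (M21Elts.word_memL (by decide +kernel))
    (M21Elts.word_conj (by decide +kernel)) (M21Elts.word_conj (by decide +kernel))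
    (M21Elts.word_comm (by decide +kernel)) (by decide +kernel) (by decide +kernel)
    (by decide +kernel) (by decide +kernel) (by decide +kernel) (by decide +kernel)
  obtain ⟨v, hv, hcv⟩ := pair_spec M22C4Data.dat M22C4.good M21Elts.n y_p2 y_q2 y_pn2 y_qn2
    2240 1 467 1
    (M21Elts.word_memL (by decide +kernel)) (M21Elts.word_memL (by decide +kernel))
    (M21Elts.word_conj (by decide +kernel)) (M21Elts.word_conj (by decide +kernel))
    (M21Elts.word_comm (by decide +kernel)) (by decide +kernel) (by decide +kernel)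
    (by decide +kernel) (by decide +kernel) (by decide +kernel) (by decide +kernel)
  obtain ⟨z, hz, hcz⟩ := pair_spec M22C3Data.dat M22C3.good 1 y_c y_cp y_c y_cp
    9 1 9 1
    (M21Elts.word_memL (by decide +kernel)) (M21Elts.word_memL (by decide +kernel))
    (by group) (by group)
    (M21Elts.word_comm (by decide +kernel)) (by decide +kernel) (by decide +kernel)
    (by decide +kernel) (by decide +kernel) (by decide +kernel) (by decide +kernel)
  have ho4 : orderOf (zX M22C4Data.dat M22C4.good) = 4 := zX_order _ _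
  have ho3 : orderOf (zX M22C3Data.dat M22C3.good) = 3 := zX_order _ _
  refine hasSchur_of_bound (fun Γ _ _ σ hσ => ?_)
    (e.toMonoidHom.comp (TwistProd.η (proj M22C4Data.dat M22C4.good) M21Elts.L M21Elts.n))
    ?_ ?_ u v ?_ ?_ ?_ ?_
    (e.toMonoidHom.comp (TwistProd.η (proj M22C3Data.dat M22C3.good) M21Elts.L 1))
    ?_ ?_ z ?_ ?_
  · have hk : (e.symm.toMonoidHom.comp σ).ker = σ.ker := ker_equiv_comp e.symm σ
    have hσ' : IsStemExtension (e.symm.toMonoidHom.comp σ) := by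
      refine ⟨e.symm.surjective.comp hσ.1, ?_, ?_⟩
      · rw [hk]; exact hσ.2.1
      · rw [hk]; exact hσ.2.2
    have h := M21Bound.m21_bound (e.symm.toMonoidHom.comp σ) hσ'
    rw [hk] at h
    exact h
  · exact e.surjective.comp (TwistProd.η_surjective _ _ _ (proj_surjective _ _) M21Elts.L_le
      M21Elts.n_conj)
  · rw [ker_equiv_comp]
    exact TwistProd.ker_le_center _ _ _ (M22Cover.ker_le_center _ _)
  · rw [ker_equiv_comp]; exact hu
  · rw [ker_equiv_comp]; exact hv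
  · intro k hk
    rw [ker_equiv_comp] at hk
    exact ker_pow M22C4Data.dat M22C4.good M21Elts.n k hk
  · intro a b hab
    have h1 := congrArg Subtype.val hab
    rw [Subgroup.coe_mul, Subgroup.coe_pow, Subgroup.coe_pow, hcu, hcv] at h1
    have hx := congrArg Prod.fst h1
    have hy := congrArg Prod.snd h1
    simp only [Prod.pow_mk, Prod.mk_mul_mk] at hx hy
    rw [← pow_mul, ← pow_mul, ← pow_add] at hx hy
    have dx : 4 ∣ 2 * a + 1 * b := by
      rw [← ho4]; exact orderOf_dvd_of_pow_eq_one hx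
    have dy : 4 ∣ 1 * a + 1 * b := by
      rw [← ho4]; exact orderOf_dvd_of_pow_eq_one hy
    omega
  · refine e.surjective.comp (TwistProd.η_surjective _ _ _ (proj_surjective _ _) M21Elts.L_le ?_)
    intro g hg
    rw [one_mul, inv_one, mul_one]
    exact hg
  · rw [ker_equiv_comp]
    exact TwistProd.ker_le_center _ _ _ (M22Cover.ker_le_center _ _)
  · rw [ker_equiv_comp]; exact hz
  · have : Fact (Nat.Prime 3) := ⟨Nat.prime_three⟩
    apply orderOf_eq_prime
    · apply Subtype.ext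
      rw [Subgroup.coe_pow, hcz, Prod.pow_mk, ← pow_mul]
      have e3 : zX M22C3Data.dat M22C3.good ^ (1 * 3) = 1 := by
        have h0 := pow_orderOf_eq_one (zX M22C3Data.dat M22C3.good)
        rw [ho3] at h0
        rw [one_mul]; exact h0
      rw [e3]; rfl
    · intro h
      have h1 := congrArg (fun q : ↥(TwistProd.Y (proj M22C3Data.dat M22C3.good) M21Elts.L 1) =>
        (q : ↥(X M22C3Data.dat M22C3.good) × ↥(X M22C3Data.dat M22C3.good)).1) h
      simp only [hcz] at h1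
      have h2 : zX M22C3Data.dat M22C3.good ^ 1 = 1 := h1
      have h3 := orderOf_dvd_of_pow_eq_one h2
      rw [ho3] at h3
      omega

end Concrete

end Cfsg.Agent.Lib.Helper35.M21Mult
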