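-- The order of the kernel of a stem extension of M22 divides 12: transfer into a Sylow
-- 2-subgroup `E ⋊ D₈` (where the commutator subgroup of the preimage meets the kernel in a
-- group of order dividing 4), into a Sylow 3-subgroup of type 3 × 3, and cyclic Sylow subgroups
-- for the other primes.
import Cfsg.Agent.Lib.Helper35.M22Elts
import Cfsg.Agent.Lib.Helper35.StemF
import Cfsg.Agent.Lib.Helper35.StemC
import Cfsg.Agent.Lib.Helper35.AltSix

set_option autoImplicit false

namespace Cfsg.Agent.Lib.Helper35.M22Bound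

open Cfsg Cfsg.Spor Cfsg.Agent.Lib.Helper7.GolayBase Cfsg.Agent.Lib.Helper7.GolayPerm
  Cfsg.Agent.Lib.Helper35.PermTab Cfsg.Agent.Lib.Helper35.M22Aut
  Cfsg.Agent.Lib.Helper35.M22Elts Cfsg.Agent.Lib.Helper35.StemC
open Cfsg.Agent.Lib.Helper35.M23MElts (e1 e2 e3 e4 c E E_c E_c' E_fpf E_sq)
open scoped commutatorElement

universe u

theorem r2_not : r * r ∉ E := by
  intro h
  have hD : r * r ∈ D := Subgroup.mul_mem _ (Subgroup.subset_closure (by simp))
    (Subgroup.subset_closure (by simp))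
  have h1 : r * r ∈ E ⊓ D := ⟨h, hD⟩
  rw [E_inf_D, Subgroup.mem_bot] at h1
  exact r_sq_ne (by rw [pow_two]; exact h1)

theorem sq_not_dvd {p : ℕ} (hp : p.Prime) (h2 : p ≠ 2) (h3 : p ≠ 3) : ¬ p ^ 2 ∣ 443520 := by
  intro h
  have hcop : Nat.Coprime (p ^ 2) 1152 := by
    apply Nat.Coprime.pow_left
    rw [show (1152 : ℕ) = 2 ^ 7 * 3 ^ 2 from rfl]
    apply Nat.Coprime.mul_right
    · exact Nat.Coprime.pow_right _ ((Nat.coprime_primes hp Nat.prime_two).mpr h2)
    · exact Nat.Coprime.pow_right _ ((Nat.coprime_primes hp Nat.prime_three).mpr h3)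
  have h' : p ^ 2 ∣ 385 := by
    apply hcop.dvd_of_dvd_mul_left
    rw [show (1152 * 385 : ℕ) = 443520 from rfl]; exact h
  have hle : p ^ 2 ≤ 385 := Nat.le_of_dvd (by norm_num) h'
  have hp20 : p < 20 := by nlinarith
  have hp2 := hp.two_le
  interval_cases p <;> revert h' <;> decide

/-- The 2-part: the commutator subgroup of the preimage of a Sylow 2-subgroup meets the kernel
in a group of order dividing four. -/
theorem two_part {Γ : Type u} [Group Γ] (σ : Γ →* ↥M22) (hs : Function.Surjective σ)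
    (hc : σ.ker ≤ Subgroup.center Γ) :
    Nat.card ↥(⁅((E ⊔ D).subgroupOf M22).comap σ, ((E ⊔ D).subgroupOf M22).comap σ⁆ ⊓ σ.ker)
      ∣ 4 := by
  have hc' : (incl σ).ker ≤ Subgroup.center Γ := by rw [incl_ker]; exact hc
  have h := StemF.card_dvd_four (incl σ) hc' E c r s g0 e1 e1 e2 e3 e4 t1 t2 t3 t4 t5
    {u1, u2, u3} rfl (fun e he => incl_lift σ hs (E_le he))
    (by
      rintro x (rfl | rfl | rfl | rfl | rfl | rfl | rfl | rfl | rfl)
      · exact incl_lift σ hs c_mem
      · exact incl_lift σ hs r_spec.1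
      · exact incl_lift σ hs s_spec.1
      · exact incl_lift σ hs g0_spec.1
      · exact incl_lift σ hs t1_spec.1
      · exact incl_lift σ hs t2_spec.1
      · exact incl_lift σ hs t3_spec.1
      · exact incl_lift σ hs t4_spec.1
      · exact incl_lift σ hs t5_spec.1)
    E_sq E_c E_c' E_fpf E_r E_r' E_s r_c r_c' s_sq s_r r2_not
    ⟨vs, vs_spec.1, g0_s⟩ ⟨vr, vr_spec.1, g0_r2⟩
    (Subgroup.subset_closure (by simp))
    (by
      rintro t (rfl | rfl | rfl)
      · exact ⟨e1, Subgroup.subset_closure (by simp), Or.inl rfl⟩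
      · exact ⟨e2, Subgroup.subset_closure (by simp), Or.inl rfl⟩
      · exact ⟨e1, Subgroup.subset_closure (by simp), Or.inr rfl⟩)
    E_cov t1_e1 t1_e3 t2_e1 t2_e3 t3_e1 t3_e3 t4_e1 t4_e3 t5_e1 t5_e3
  rw [incl_ker] at h
  exact h

theorem index_two : (((E ⊔ D).subgroupOf M22).index).Coprime 2 := by
  have h1 := Subgroup.card_mul_index ((E ⊔ D).subgroupOf M22)
  have h2 : Nat.card ((E ⊔ D).subgroupOf M22) = 128 := by
    rw [Nat.card_congr (Subgroup.subgroupOfEquivOfLe P_le).toEquiv, card_P]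
  rw [h2, card_M22] at h1
  have h3 : ((E ⊔ D).subgroupOf M22).index = 3465 := by omega
  rw [h3]; decide

/-- The order of the kernel of a stem extension of `M22` divides 12. -/
theorem m22_bound {Γ : Type u} [Group Γ] [Finite Γ] (σ : Γ →* ↥M22)
    (hσ : IsStemExtension σ) : Nat.card σ.ker ∣ 12 := by
  have hfin : Finite M22 := inferInstance
  apply AltSix.card_ker_dvd_of_local_gen σ hσ 12 (by norm_num)
  intro l hl
  by_cases h2 : l = 2
  · subst h2
    exact ⟨(E ⊔ D).subgroupOf M22, index_two,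
      dvd_trans (two_part σ hσ.1 hσ.2.1) (by norm_num)⟩
  · by_cases h3 : l = 3
    · subst h3
      refine ⟨Subgroup.closure ({⟨c, c_mem⟩, ⟨cp, cp_spec.1⟩} : Set ↥M22),
        AltMult.index_coprime_of_pair 3 Nat.prime_three
        (by rw [Subgroup.orderOf_mk]; exact c_order)
        (by rw [Subgroup.orderOf_mk]; exact cp_order)
        (Subtype.ext c_cp)
        (fun i hi h => cp_ne i hi (congrArg Subtype.val h))
        (m := 49280) (by rw [card_M22]; norm_num) (by decide), ?_⟩
      exact dvd_trans (AltMult.pair_card_dvd σ hσ.1 hσ.2.1 (Subtype.ext c_cp) 3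
        (by
          apply Subtype.ext
          have := pow_orderOf_eq_one c
          rw [c_order] at this
          exact this)) (by norm_num)
    · have hsq : ¬ l ^ 2 ∣ Nat.card ↥M22 := by
        rw [card_M22]; exact sq_not_dvd hl h2 h3
      obtain ⟨U, hU, hU1⟩ := AltSix.local_card_one_of_sq_not_dvd σ hσ.1 hσ.2.1 l hl hsq
      exact ⟨U, hU, by rw [hU1]; exact one_dvd _⟩

end Cfsg.Agent.Lib.Helper35.M22Bound
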