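-- The Schur multiplier of M22 is cyclic of order 12: the bound on the kernels of stem
-- extensions, a central extension with an element of order 4 and one with an element of
-- order 3 in the intersection of the kernel and the commutator subgroup, and the Hopf model.
import Cfsg.Agent.Lib.Helper35.M22Bound
import Cfsg.Agent.Lib.Helper35.M22C3
import Cfsg.Agent.Lib.Helper35.M22C4
import Cfsg.Agent.Lib.Helper66.Hopf

set_option autoImplicit false

namespace Cfsg.Agent.Lib.Helper35.M22Mult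

open Cfsg Cfsg.Spor Cfsg.Agent.Lib.Helper35 Cfsg.Agent.Lib.Helper66

universe u w w'

/-- Multiplier of order twelve: all stem extensions have kernel of order dividing `12`, and
there are central extensions with elements of order `4` and `3` in the intersection of the
kernel with the commutator subgroup. -/
theorem hasCyclic_twelve_of_bound {G : Type u} [Group G] [Finite G]
    (hub : ∀ (Γ : Type u) [Group Γ] [Finite Γ] (σ : Γ →* G), Cfsg.IsStemExtension σ →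
      Nat.card σ.ker ∣ 12)
    {X₄ : Type w} [Group X₄] (ξ₄ : X₄ →* G) (hξ₄ : Function.Surjective ξ₄)
    (hc₄ : ξ₄.ker ≤ Subgroup.center X₄) (z₄ : X₄) (hz₄ : z₄ ∈ _root_.commutator X₄ ⊓ ξ₄.ker)
    (ho₄ : orderOf z₄ = 4)
    {X₃ : Type w'} [Group X₃] (ξ₃ : X₃ →* G) (hξ₃ : Function.Surjective ξ₃)
    (hc₃ : ξ₃.ker ≤ Subgroup.center X₃) (z₃ : X₃) (hz₃ : z₃ ∈ _root_.commutator X₃ ⊓ ξ₃.ker)
    (ho₃ : orderOf z₃ = 3) : Cfsg.HasCyclicSchurMultiplier G 12 := by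
  have hπ := Hopf.can_surjective G
  obtain ⟨Γ, i1, i2, σ, hσ, ⟨e⟩⟩ := Hopf.exists_cover (Hopf.can G) hπ
  have hdvd := hub Γ σ hσ
  have hfin : Finite (Hopf.T (Hopf.can G)) := Hopf.finite_T (Hopf.can G) hπ
  have hcardT : Nat.card (Hopf.T (Hopf.can G)) ∣ 12 := by
    rw [← Nat.card_congr e.toEquiv]; exact hdvd
  obtain ⟨θ₄, hθ₄⟩ := Hopf.exists_lift (Hopf.can G) ξ₄ hξ₄ hc₄
  obtain ⟨t₄, ht₄, hm₄⟩ := Hopf.commutator_inf_ker_le (Hopf.can G) hπ ξ₄ hc₄ θ₄ hθ₄ hz₄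
  obtain ⟨θ₃, hθ₃⟩ := Hopf.exists_lift (Hopf.can G) ξ₃ hξ₃ hc₃
  obtain ⟨t₃, ht₃, hm₃⟩ := Hopf.commutator_inf_ker_le (Hopf.can G) hπ ξ₃ hc₃ θ₃ hθ₃ hz₃
  have h4 : 4 ∣ orderOf (⟨t₄, ht₄⟩ : Hopf.T (Hopf.can G)) := by
    rw [Subgroup.orderOf_mk]
    have h1 : orderOf (θ₄ t₄) ∣ orderOf t₄ := orderOf_map_dvd θ₄ t₄
    rwa [hm₄, ho₄] at h1
  have h3 : 3 ∣ orderOf (⟨t₃, ht₃⟩ : Hopf.T (Hopf.can G)) := by
    rw [Subgroup.orderOf_mk]
    have h1 : orderOf (θ₃ t₃) ∣ orderOf t₃ := orderOf_map_dvd θ₃ t₃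
    rwa [hm₃, ho₃] at h1
  have hcard : Nat.card (Hopf.T (Hopf.can G)) = 12 :=
    Nat.dvd_antisymm hcardT (Nat.Coprime.mul_dvd_of_dvd_of_dvd (by norm_num)
      (dvd_trans h4 (orderOf_dvd_natCard _)) (dvd_trans h3 (orderOf_dvd_natCard _)))
  have hcyc : IsCyclic (Hopf.T (Hopf.can G)) := by
    have ha := orderOf_pow_orderOf_div (orderOf_pos (⟨t₄, ht₄⟩ : Hopf.T (Hopf.can G))).ne' h4
    have hb := orderOf_pow_orderOf_div (orderOf_pos (⟨t₃, ht₃⟩ : Hopf.T (Hopf.can G))).ne' h3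
    set a := (⟨t₄, ht₄⟩ : Hopf.T (Hopf.can G)) ^ (orderOf (⟨t₄, ht₄⟩ : Hopf.T (Hopf.can G)) / 4)
    set b := (⟨t₃, ht₃⟩ : Hopf.T (Hopf.can G)) ^ (orderOf (⟨t₃, ht₃⟩ : Hopf.T (Hopf.can G)) / 3)
    have hcomm : Commute a b := by
      apply Subtype.ext
      exact (Subgroup.mem_center_iff.mp (Hopf.T_le_center (Hopf.can G) b.2) (a : _))
    have ho : orderOf (a * b) = 12 := by
      rw [hcomm.orderOf_mul_eq_mul_orderOf_of_coprime (by rw [ha, hb]; norm_num), ha, hb]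
    exact isCyclic_of_orderOf_eq_card (a * b) (by rw [ho, hcard])
  have e2 : Multiplicative (ZMod 12) ≃* Hopf.T (Hopf.can G) :=
    mulEquivOfCyclicCardEq (by
      rw [hcard, Nat.card_eq_fintype_card, Fintype.card_multiplicative, ZMod.card])
  exact Hopf.hasSchurMultiplier_of_equiv (Hopf.can G) hπ e2

/-- The Schur multiplier of `M22` is cyclic of order 12. -/
theorem m22_multiplier : Cfsg.HasCyclicSchurMultiplier ↥M22 12 :=
  hasCyclic_twelve_of_bound (fun _ _ _ σ hσ => M22Bound.m22_bound σ hσ)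
    (M22Cover.proj M22C4Data.dat M22C4.good) (M22Cover.proj_surjective _ _)
    (M22Cover.ker_le_center _ _) (M22Cover.zX _ _) (M22Cover.zX_mem _ _)
    (M22Cover.zX_order M22C4Data.dat M22C4.good)
    (M22Cover.proj M22C3Data.dat M22C3.good) (M22Cover.proj_surjective _ _)
    (M22Cover.ker_le_center _ _) (M22Cover.zX _ _) (M22Cover.zX_mem _ _)
    (M22Cover.zX_order M22C3Data.dat M22C3.good)

end Cfsg.Agent.Lib.Helper35.M22Mult
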