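-- The Schur multiplier of M23 is trivial: transfer into a Sylow 2-subgroup `E ⋊ D` that
-- splits in every central extension (all involutions of M23 are conjugate and lift to
-- involutions), into a Sylow 3-subgroup with an involution inverting one generator, and cyclic
-- Sylow subgroups for the other primes.
import Cfsg.Agent.Lib.Helper35.M23MElts
import Cfsg.Agent.Lib.Helper35.StemB

set_option autoImplicit false

namespace Cfsg.Agent.Lib.Helper35.M23Mult

open Cfsg Cfsg.Spor Cfsg.Agent.Lib.Helper7.GolayBase Cfsg.Agent.Lib.Helper7.GolayPerm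
  Cfsg.Agent.Lib.Helper35.PermTab Cfsg.Agent.Lib.Helper35.M23MData
  Cfsg.Agent.Lib.Helper35.M23Aut Cfsg.Agent.Lib.Helper35.M23MElts
  Cfsg.Agent.Lib.Helper35.StemB

section Lift

variable {Γ : Type} [Group Γ] (σ : Γ →* ↥M23)

/-- The extension viewed as a homomorphism into the permutations of the 24 points. -/
def tau : Γ →* Equiv.Perm GolayPt := (Subgroup.subtype M23).comp σ

theorem tau_apply (x : Γ) : tau σ x = (σ x : Equiv.Perm GolayPt) := rfl

theorem tau_ker : (tau σ).ker = σ.ker := by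
  ext x
  rw [MonoidHom.mem_ker, MonoidHom.mem_ker, tau_apply]
  exact ⟨fun h => Subtype.ext h, fun h => by rw [h]; rfl⟩

theorem tau_lift (hs : Function.Surjective σ) {g : Equiv.Perm GolayPt} (hg : g ∈ M23) :
    ∃ u : Γ, tau σ u = g := by
  obtain ⟨u, hu⟩ := hs ⟨g, hg⟩
  exact ⟨u, by rw [tau_apply, hu]⟩

theorem tau_range (hs : Function.Surjective σ) : (tau σ).range = M23 := by
  ext g
  constructor
  · rintro ⟨u, rfl⟩
    exact (σ u).2
  · intro hg
    exact tau_lift σ hs hg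

end Lift

theorem D_le : D ≤ M23 := by
  unfold D
  rw [Subgroup.closure_le]
  rintro g (rfl | rfl)
  · exact s1_spec.1
  · exact s2_spec.1

/-- The 2-part: a stem extension of `M23` with kernel of exponent 2 is an isomorphism. -/
theorem m23_two (Γ : Type) [Group Γ] [Finite Γ] (σ : Γ →* ↥M23) (hσ : IsStemExtension σ)
    (hexp : ∀ k ∈ σ.ker, k ^ 2 = 1) : σ.ker = ⊥ := by
  obtain ⟨hsurj, hcen, hcomm⟩ := hσ
  have hc : (tau σ).ker ≤ Subgroup.center Γ := by rw [tau_ker]; exact hcen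
  have h2 : ∀ k ∈ (tau σ).ker, k * k = 1 := fun k hk => by
    rw [← pow_two]; exact hexp k (by rwa [tau_ker] at hk)
  obtain ⟨cl, hcl⟩ := tau_lift σ hsurj c_spec.1
  obtain ⟨yl, hyl⟩ := tau_lift σ hsurj y_spec.1
  obtain ⟨s1l, hs1l⟩ := tau_lift σ hsurj s1_spec.1
  obtain ⟨s2l, hs2l⟩ := tau_lift σ hsurj s2_spec.1
  obtain ⟨g1l, hg1l⟩ := tau_lift σ hsurj g1_spec.1
  obtain ⟨g2l, hg2l⟩ := tau_lift σ hsurj g2_spec.1
  obtain ⟨g3l, hg3l⟩ := tau_lift σ hsurj g3_spec.1
  obtain ⟨w0l, hw0l⟩ := tau_lift σ hsurj (E_le w0_spec.1)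
  obtain ⟨f0l, hf0l⟩ := tau_lift σ hsurj (E_le f0_spec.1)
  obtain ⟨f1l, hf1l⟩ := tau_lift σ hsurj (E_le f1_spec.1)
  have hgw : Good (tau σ) w0 := by
    have := good_of_pure hc h2 w0l f0l f1l (by rw [map_mul, hw0l]; exact E_sq _ w0_spec.1)
      yl (yl * yl) (yl * yl * yl * yl * yl) (yl * yl * yl) (yl * yl * yl * yl * yl * yl)
      (yl * yl * yl * yl)
      (by rw [hyl, hw0l, hf0l]; exact y_rel1)
      (by simp only [map_mul, hyl, hw0l, hf1l]; exact y_rel2)
      (by simp only [map_mul, hyl, hw0l, hf0l]; exact y_rel12)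
      (by simp only [map_mul, hyl, hw0l, hf1l]; exact y_rel13)
      (by simp only [map_mul, hyl, hw0l, hf0l, hf1l]; exact y_rel23)
      (by simp only [map_mul, hyl, hw0l, hf0l, hf1l]; exact y_rel123)
    rwa [hw0l] at this
  have hgoodE : ∀ e ∈ E, Good (tau σ) e := by
    intro e he
    rcases E_conj e he with rfl | ⟨u, hu, hue⟩
    · exact good_one h2
    · obtain ⟨ul, hul⟩ := tau_lift σ hsurj hu
      exact good_of_conj hgw ul (by rw [hul]; exact hue)
  have hgs1 : Good (tau σ) (tau σ s1l) := by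
    rw [hs1l]; exact good_of_conj hgw g1l (by rw [hg1l]; exact conj_s1)
  have hgs2 : Good (tau σ) (tau σ s2l) := by
    rw [hs2l]; exact good_of_conj hgw g2l (by rw [hg2l]; exact conj_s2)
  have hgr : Good (tau σ) ((tau σ s1l * tau σ s2l) * (tau σ s1l * tau σ s2l)) := by
    rw [hs1l, hs2l]; exact good_of_conj hgw g3l (by rw [hg3l]; exact conj_r2)
  obtain ⟨K, hK, hKmap⟩ := exists_complement_two hc h2 E cl s1l s2l
    (fun e he => tau_lift σ hsurj (E_le he)) hgoodE
    (by rw [hcl]; exact E_c) (by rw [hcl]; exact E_c') (by rw [hcl]; exact E_fpf)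
    (by rw [hs1l]; exact E_s1) (by rw [hs2l]; exact E_s2)
    (by rw [hs1l, hcl]; exact Or.inl s1_c) (by rw [hs2l, hcl]; exact Or.inr s2_c)
    hgs1 hgs2 hgr (by rw [hs1l, hs2l]; exact D_E)
  rw [hs1l, hs2l] at hKmap
  rw [eq_bot_iff]
  intro z hz
  rw [Subgroup.mem_bot]
  by_contra hz1
  have hzord : orderOf z = 2 := orderOf_eq_prime (hexp z hz) hz1
  have hzk : z ∈ (tau σ).ker := by rw [tau_ker]; exact hz
  have hcard : Nat.card (tau σ).range = Nat.card ↥(E ⊔ D) * 79695 := by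
    rw [tau_range σ hsurj, card_M23, card_sup_of_le_normalizer D_le_normalizer E_inf_D, E_card,
      D_card]
  have hP : E ⊔ D ≤ (tau σ).range := by
    rw [tau_range σ hsurj]; exact sup_le E_le D_le
  have h3 := mem_commutator_comap (tau σ) hc (E ⊔ D) hP 79695 hcard hzk (hcomm hz)
    (by rw [hzord]; decide)
  exact hz1 (eq_one_of_complement (tau σ) hc K hK (E ⊔ D) hKmap hzk h3)

/-- The 3-part: a stem extension of `M23` with kernel of exponent 3 is an isomorphism. -/
theorem m23_three (Γ : Type) [Group Γ] [Finite Γ] (σ : Γ →* ↥M23) (hσ : IsStemExtension σ)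
    (hexp : ∀ k ∈ σ.ker, k ^ 3 = 1) : σ.ker = ⊥ := by
  obtain ⟨hsurj, hcen, hcomm⟩ := hσ
  have hc : (tau σ).ker ≤ Subgroup.center Γ := by rw [tau_ker]; exact hcen
  obtain ⟨cl, hcl⟩ := tau_lift σ hsurj c_spec.1
  obtain ⟨bl, hbl⟩ := tau_lift σ hsurj b_spec.1
  obtain ⟨tl, htl⟩ := tau_lift σ hsurj t_spec.1
  rw [eq_bot_iff]
  intro z hz
  rw [Subgroup.mem_bot]
  by_contra hz1
  have hzord : orderOf z = 3 := orderOf_eq_prime (hexp z hz) hz1
  have hzk : z ∈ (tau σ).ker := by rw [tau_ker]; exact hz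
  have hcard : Nat.card (tau σ).range =
      Nat.card ↥(Subgroup.closure ({c, b} : Set (Equiv.Perm GolayPt))) * 1133440 := by
    rw [tau_range σ hsurj, card_M23, P9_card]
  have hP : Subgroup.closure ({c, b} : Set (Equiv.Perm GolayPt)) ≤ (tau σ).range := by
    rw [tau_range σ hsurj, Subgroup.closure_le]
    rintro g (rfl | rfl)
    · exact c_spec.1
    · exact b_spec.1
  have h3 := mem_commutator_comap (tau σ) hc _ hP 1133440 hcard hzk (hcomm hz)
    (by rw [hzord]; decide)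
  have h4 := eq_one_of_abelian_pair (tau σ) hc 3 (by decide)
    (fun k hk => hexp k (by rwa [tau_ker] at hk)) cl bl tl
    (by rw [hcl, hbl]; exact cb_comm) (by rw [htl, hcl]; exact t_c)
    (by rw [htl, hbl]; exact t_b) (z := z) (by rw [hcl, hbl]; exact h3)
  exact hz1 h4

theorem sq_not_dvd {p : ℕ} (hp : p.Prime) (h2 : p ≠ 2) (h3 : p ≠ 3) : ¬ p ^ 2 ∣ 10200960 := by
  intro h
  have hcop : Nat.Coprime (p ^ 2) 1152 := by
    apply Nat.Coprime.pow_left
    rw [show (1152 : ℕ) = 2 ^ 7 * 3 ^ 2 from rfl]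
    apply Nat.Coprime.mul_right
    · exact Nat.Coprime.pow_right _ ((Nat.coprime_primes hp Nat.prime_two).mpr h2)
    · exact Nat.Coprime.pow_right _ ((Nat.coprime_primes hp Nat.prime_three).mpr h3)
  have h' : p ^ 2 ∣ 8855 := by
    apply hcop.dvd_of_dvd_mul_left
    rw [show (1152 * 8855 : ℕ) = 10200960 from rfl]; exact h
  have hle : p ^ 2 ≤ 8855 := Nat.le_of_dvd (by norm_num) h'
  have hp95 : p < 95 := by nlinarith
  have hp2 := hp.two_le
  interval_cases p <;> revert h' <;> decide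

/-- The Schur multiplier of `M23` is trivial. -/
theorem m23_multiplier : HasCyclicSchurMultiplier ↥M23 1 := by
  apply Cfsg.Agent.Lib.Helper35.Stem.hasCyclicSchurMultiplier_one
  intro Γ _ _ σ hσ
  apply Cfsg.Agent.Lib.Helper35.Stem.eq_bot_of_no_prime_order
  intro z hz hprime
  by_cases h2 : orderOf z = 2
  · have h := eq_one_of_exponent_case 2 m23_two Γ σ hσ z hz
      (by rw [← h2]; exact pow_orderOf_eq_one z)
    rw [h, orderOf_one] at h2
    exact absurd h2 (by norm_num)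
  by_cases h3 : orderOf z = 3
  · have h := eq_one_of_exponent_case 3 m23_three Γ σ hσ z hz
      (by rw [← h3]; exact pow_orderOf_eq_one z)
    rw [h, orderOf_one] at h3
    exact absurd h3 (by norm_num)
  · have : Fact (orderOf z).Prime := ⟨hprime⟩
    exact false_of_sq_not_dvd σ hσ.2.1 (orderOf z)
      (by rw [card_M23]; exact sq_not_dvd hprime h2 h3) hz (hσ.2.2 hz) rfl

end Cfsg.Agent.Lib.Helper35.M23Mult
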