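import Mathlib
import Cfsg.Agent.Lib.Helper35.M24D
import Cfsg.Agent.Lib.Helper7.M24Mem
import Cfsg.Agent.Lib.Helper7.GolayRigid
import Cfsg.Agent.Lib.Helper7.M24Octad

/-!
# Packed permutations: soundness of the validity test

`vP c c' = true` gives an element of `M24` with packed code `c` and inverse code `c'`.
-/

set_option autoImplicit false

namespace Cfsg.Agent.Lib.Helper35.M24V

open Cfsg Cfsg.Agent.Lib.Helper7.GolayBase Cfsg.Agent.Lib.Helper7.GolayPerm
  Cfsg.Agent.Lib.Helper7.GolayCode Cfsg.Agent.Lib.Helper7.GolayRigid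
  Cfsg.Agent.Lib.Helper7.M24Mem
  Cfsg.Agent.Lib.Helper35.PermTab Cfsg.Agent.Lib.Helper35.M24P Cfsg.Agent.Lib.Helper35.M24D
open scoped Pointwise

theorem anyL_nil {α : Type} (f : α → Bool) : anyL f [] = false := rfl
theorem anyL_cons {α : Type} (f : α → Bool) (a : α) (l : List α) :
    anyL f (a :: l) = cond (f a) true (anyL f l) := rfl
theorem allL_nil {α : Type} (f : α → Bool) : allL f [] = true := rfl
theorem allL_cons {α : Type} (f : α → Bool) (a : α) (l : List α) :
    allL f (a :: l) = cond (f a) (allL f l) false := rfl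

theorem anyL_iff {α : Type} (f : α → Bool) : ∀ l : List α,
    anyL f l = true ↔ ∃ a ∈ l, f a = true
  | [] => by simp [anyL_nil]
  | a :: l => by
    rw [anyL_cons]
    cases h : f a
    · simp [anyL_iff f l, h]
    · simp [h]

theorem allL_iff {α : Type} (f : α → Bool) : ∀ l : List α,
    allL f l = true ↔ ∀ a ∈ l, f a = true
  | [] => by simp [allL_nil]
  | a :: l => by
    rw [allL_cons]
    cases h : f a
    · simp [h]
    · simp [allL_iff f l, h]

theorem pts8_spec : ∀ y ∈ pts8, y % 8 = 0 ∧ y < 192 := by decide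

theorem mem_pts8 (p : GolayPt) : 8 * idx p ∈ pts8 := by
  have h := idx_lt p
  generalize idx p = i at h
  interval_cases i <;> decide

theorem pts8_exists {x : Nat} (h : x ∈ pts8) : ∃ p : GolayPt, x = 8 * idx p := by
  obtain ⟨h1, h2⟩ := pts8_spec x h
  refine ⟨pt (x / 8), ?_⟩
  rw [idx_pt (by omega)]
  omega

theorem bit_eq (j : Nat) : bit (8 * j) = 2 ^ j := by
  have : 8 * j / 2 ^ 3 = j := by omega
  simp [bit, Nat.shiftLeft_eq, Nat.shiftRight_eq_div_pow]

theorem mk_or (a b : Nat) : mk (a ||| b) = mk a ∪ mk b := by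
  ext p
  simp only [mem_mk, Finset.mem_union, Nat.testBit_or, Bool.or_eq_true]

theorem mk_two_pow (p : GolayPt) : mk (2 ^ idx p) = {p} := by
  ext q
  rw [mem_mk, Nat.testBit_two_pow, Finset.mem_singleton]
  simp only [decide_eq_true_eq]
  exact ⟨fun h => (idx_injective h).symm, fun h => by rw [h]⟩

theorem imgL_nil (c : Nat) : imgL c [] = 0 := rfl
theorem imgL_cons (c i8 : Nat) (l : List Nat) :
    imgL c (i8 :: l) = Nat.lor (bit (ent c i8)) (imgL c l) := rfl

theorem mk_imgL (g : Equiv.Perm GolayPt) : ∀ ps : List GolayPt,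
    mk (imgL (pk g) (ps.map (fun p => 8 * idx p))) = (ps.map g).toFinset
  | [] => by simp [imgL_nil, mk_zero]
  | p :: ps => by
    rw [List.map_cons, imgL_cons, lor_eq, mk_or, ent_pk, bit_eq, mk_two_pow, mk_imgL g ps]
    simp

/-- The points of a list of byte positions. -/
def ptsOf (l : List Nat) : List GolayPt := l.map (fun x => pt (x / 8))

theorem map_ptsOf {l : List Nat} (h : ∀ x ∈ l, x ∈ pts8) :
    (ptsOf l).map (fun p => 8 * idx p) = l := by
  rw [ptsOf, List.map_map]
  conv_rhs => rw [← List.map_id l]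
  apply List.map_congr_left
  intro x hx
  obtain ⟨h1, h2⟩ := pts8_spec x (h x hx)
  show 8 * idx (pt (x / 8)) = id x
  rw [idx_pt (by omega)]
  simp only [id]
  omega

theorem pkT_idT : pkT idT = idP := by decide +kernel

theorem mk_imgL' (g : Equiv.Perm GolayPt) {l : List Nat} (h : ∀ x ∈ l, x ∈ pts8) :
    mk (imgL (pk g) l) = (mk (imgL idP l)).image g := by
  have e1 := mk_imgL g (ptsOf l)
  have e2 := mk_imgL 1 (ptsOf l)
  rw [map_ptsOf h] at e1 e2
  rw [pk_one] at e2
  rw [e1, e2]
  ext q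
  simp

/-! ### Membership in `M24` -/

theorem mem_M24_of_basis (σ : Equiv.Perm GolayPt) (B : List Nat)
    (hB : ∀ b ∈ basisMasks, b ∈ spanList B)
    (h : ∀ b ∈ B, ∃ c' ∈ codeList, mk c' = (mk b).image σ) : σ ∈ M24 := by
  classical
  apply mem_M24_of_subset
  rintro _ ⟨s, hs, rfl⟩
  obtain ⟨c, hc, rfl⟩ := (mem_supports_iff s).mp hs
  have hc' : c ∈ spanList B := spanList_subset hB c hc
  have key : ∃ c' ∈ codeList, mk c' = (mk c).image σ := by
    refine spanList_induction (P := fun c => ∃ c' ∈ codeList, mk c' = (mk c).image σ)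
      ?_ ?_ h c hc'
    · exact ⟨0, zero_mem_codeList, by simp [mk_zero]⟩
    · rintro a b ⟨a', ha', ea⟩ ⟨b', hb', eb⟩
      refine ⟨a' ^^^ b', xor_mem_codeList ha' hb', ?_⟩
      rw [mk_xor, mk_xor, ea, eb, Finset.image_symmDiff _ _ σ.injective]
  obtain ⟨c', hc'', e⟩ := key
  show σ • mk c ∈ supports (golayCode : Set (GolayPt → ZMod 2))
  rw [smul_finset_def, ← e]
  exact mk_mem_supports hc''

theorem octT_ok : octT.ok 0 16777216 = true := by decide +kernel

theorem octT_chk : octT.all (fun m => inCode m && (popc m == 8)) = true := by decide +kernel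

theorem octT_sound {m : Nat} (h : octT.mem m = true) : m ∈ octadList := by
  have h1 := (T.all_iff _ octT).mp octT_chk m (T.mem_sound octT m h)
  simp only [Bool.and_eq_true, beq_iff_eq] at h1
  exact mem_octadList.mpr ⟨inCode_sound h1.1, h1.2⟩

theorem octT_chk2 : octadList.all (fun m => octT.mem m) = true := by decide +kernel

theorem octT_iff (m : Nat) : octT.mem m = true ↔ m ∈ octadList :=
  ⟨octT_sound, fun h => List.all_eq_true.mp octT_chk2 m h⟩

theorem basis12_pts : ∀ l ∈ basis12, ∀ x ∈ l, x ∈ pts8 := by decide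

theorem basis12_map : basis12.map (imgL idP) = basis12M := by decide +kernel

theorem basis12_span : basisMasks.all (fun b => (spanList basis12M).contains b) = true := by
  decide +kernel

theorem mem_M24_of_octOK {g : Equiv.Perm GolayPt} (h : octOK (pk g) = true) : g ∈ M24 := by
  apply mem_M24_of_basis g basis12M
  · intro b hb
    have := List.all_eq_true.mp basis12_span b hb
    simpa using this
  · intro b hb
    rw [← basis12_map, List.mem_map] at hb
    obtain ⟨l, hl, rfl⟩ := hb
    have h1 := (allL_iff _ _).mp h l hl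
    exact ⟨imgL (pk g) l, (mem_octadList.mp (octT_sound h1)).1, mk_imgL' g (basis12_pts l hl)⟩

/-! ### Permutations from packed codes -/

theorem unpk_length (c : Nat) : (unpk c).length = 24 := rfl

theorem structP_spec {c : Nat} (h : structP c = true) :
    c = pkT (unpk c) ∧ ∀ a ∈ unpk c, a < 24 := by
  unfold structP at h
  cases h1 : Nat.beq (pkT (unpk c)) c
  · rw [h1] at h; exact absurd h (by simp)
  · rw [h1] at h
    simp only [cond_true] at h
    refine ⟨(Nat.eq_of_beq_eq_true h1).symm, fun a ha => ?_⟩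
    have := (allL_iff _ _).mp h a ha
    exact (T.blt_iff a 24).mp this

theorem getD_lt {l : List Nat} (hl : l.length = 24) (h : ∀ a ∈ l, a < 24) {i : Nat}
    (hi : i < 24) : l.getD i 0 < 24 := by
  have hi' : i < l.length := by rw [hl]; exact hi
  rw [List.getD_eq_getElem _ _ hi']
  exact h _ (List.getElem_mem hi')

theorem tmul_eq_idT {l l' : List Nat} (hl : l.length = 24) (hl' : l'.length = 24)
    (h : ∀ a ∈ l, a < 24) (h' : ∀ a ∈ l', a < 24)
    (e : mulP (pkT l) (pkT l') = idP) : ∀ i, i < 24 → l.getD (l'.getD i 0) 0 = i := by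
  rw [mulP_pkT l l' (fun a ha => lt_trans (h a ha) (by norm_num)) hl'
    (fun a ha => lt_trans (h' a ha) (by norm_num)), ← pkT_idT] at e
  have e2 : tmul l l' = idT := by
    apply pkT_injective _ _ _ _ _ e
    · simp [tmul, idT, hl']
    · intro a ha
      simp only [tmul, List.mem_map] at ha
      obtain ⟨j, hj, rfl⟩ := ha
      exact lt_trans (getD_lt hl h (h' j hj)) (by norm_num)
    · intro a ha
      simp only [idT, List.mem_range] at ha
      omega
  intro i hi
  have hi' : i < l'.length := by rw [hl']; exact hi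
  have e3 : (tmul l l').getD i 0 = idT.getD i 0 := by rw [e2]
  have e4 : (tmul l l').getD i 0 = l.getD (l'.getD i 0) 0 := by
    simp [tmul, List.getD_eq_getElem?_getD, hi']
  have e5 : idT.getD i 0 = i := by
    simp [idT, List.getD_eq_getElem?_getD, hi]
  rw [← e4, e3, e5]

/-- The permutation with table `l` and inverse table `l'`. -/
def ofTabs (l l' : List Nat) (h1 : ∀ i, i < 24 → l.getD i 0 < 24)
    (h2 : ∀ i, i < 24 → l'.getD i 0 < 24) (h3 : ∀ i, i < 24 → l.getD (l'.getD i 0) 0 = i)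
    (h4 : ∀ i, i < 24 → l'.getD (l.getD i 0) 0 = i) : Equiv.Perm GolayPt where
  toFun p := pt (l.getD (idx p) 0)
  invFun p := pt (l'.getD (idx p) 0)
  left_inv p := by
    show pt (l'.getD (idx (pt (l.getD (idx p) 0))) 0) = p
    rw [idx_pt (h1 _ (idx_lt p)), h4 _ (idx_lt p), pt_idx]
  right_inv p := by
    show pt (l.getD (idx (pt (l'.getD (idx p) 0))) 0) = p
    rw [idx_pt (h2 _ (idx_lt p)), h3 _ (idx_lt p), pt_idx]

theorem pk_eq_of_rep {g : Equiv.Perm GolayPt} {l : List Nat} (h : Rep g l) : pk g = pkT l := by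
  rw [pk, ← eq_tab_of_rep h]

theorem exists_perm {c c' : Nat} (hc : structP c = true) (hc' : structP c' = true)
    (e1 : mulP c c' = idP) (e2 : mulP c' c = idP) :
    ∃ g : Equiv.Perm GolayPt, pk g = c ∧ pk g⁻¹ = c' := by
  obtain ⟨s1, s2⟩ := structP_spec hc
  obtain ⟨s1', s2'⟩ := structP_spec hc'
  rw [s1, s1'] at e1 e2
  have h3 := tmul_eq_idT (unpk_length c) (unpk_length c') s2 s2' e1
  have h4 := tmul_eq_idT (unpk_length c') (unpk_length c) s2' s2 e2
  have h1 : ∀ i, i < 24 → (unpk c).getD i 0 < 24 := fun i hi => getD_lt (unpk_length c) s2 hi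
  have h2 : ∀ i, i < 24 → (unpk c').getD i 0 < 24 := fun i hi => getD_lt (unpk_length c') s2' hi
  refine ⟨ofTabs (unpk c) (unpk c') h1 h2 h3 h4, ?_, ?_⟩
  · have hr : Rep (ofTabs (unpk c) (unpk c') h1 h2 h3 h4) (unpk c) := by
      refine ⟨unpk_length c, fun p => ?_⟩
      show (unpk c).getD (idx p) 0 = idx (pt ((unpk c).getD (idx p) 0))
      rw [idx_pt (h1 _ (idx_lt p))]
    rw [pk_eq_of_rep hr, ← s1]
  · have hr : Rep (ofTabs (unpk c) (unpk c') h1 h2 h3 h4)⁻¹ (unpk c') := by
      refine ⟨unpk_length c', fun p => ?_⟩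
      show (unpk c').getD (idx p) 0 = idx (pt ((unpk c').getD (idx p) 0))
      rw [idx_pt (h2 _ (idx_lt p))]
    rw [pk_eq_of_rep hr, ← s1']

theorem vP_spec {c c' : Nat} (h : vP c c' = true) :
    structP c = true ∧ structP c' = true ∧ mulP c c' = idP ∧ mulP c' c = idP ∧
      octOK c = true := by
  unfold vP at h
  cases h1 : structP c
  · rw [h1] at h; exact absurd h (by simp)
  cases h2 : structP c'
  · rw [h1, h2] at h; exact absurd h (by simp)
  cases h3 : Nat.beq (mulP c c') idP
  · rw [h1, h2, h3] at h; exact absurd h (by simp)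
  cases h4 : Nat.beq (mulP c' c) idP
  · rw [h1, h2, h3, h4] at h; exact absurd h (by simp)
  rw [h1, h2, h3, h4] at h
  exact ⟨rfl, rfl, Nat.eq_of_beq_eq_true h3, Nat.eq_of_beq_eq_true h4, h⟩

/-- Soundness of the validity test. -/
theorem vP_sound {c c' : Nat} (h : vP c c' = true) :
    ∃ g : Equiv.Perm GolayPt, g ∈ M24 ∧ pk g = c ∧ pk g⁻¹ = c' := by
  obtain ⟨h1, h2, h3, h4, h5⟩ := vP_spec h
  obtain ⟨g, e1, e2⟩ := exists_perm h1 h2 h3 h4
  refine ⟨g, ?_, e1, e2⟩
  apply mem_M24_of_octOK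
  rw [e1]; exact h5

theorem vI_spec {c : Nat} (h : vI c = true) :
    structP c = true ∧ mulP c c = idP ∧ octOK c = true := by
  unfold vI at h
  cases h1 : structP c
  · rw [h1] at h; exact absurd h (by simp)
  cases h3 : Nat.beq (mulP c c) idP
  · rw [h1, h3] at h; exact absurd h (by simp)
  rw [h1, h3] at h
  exact ⟨rfl, Nat.eq_of_beq_eq_true h3, h⟩

/-- Soundness of the validity test for involutions. -/
theorem vI_sound {c : Nat} (h : vI c = true) :
    ∃ g : Equiv.Perm GolayPt, g ∈ M24 ∧ pk g = c ∧ g * g = 1 := by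
  obtain ⟨h1, h3, h5⟩ := vI_spec h
  obtain ⟨g, e1, e2⟩ := exists_perm h1 h1 h3 h3
  refine ⟨g, ?_, e1, ?_⟩
  · apply mem_M24_of_octOK
    rw [e1]; exact h5
  · have : g⁻¹ = g := pk_injective (by rw [e1, e2])
    calc g * g = g⁻¹ * g := by rw [this]
      _ = 1 := inv_mul_cancel g

end Cfsg.Agent.Lib.Helper35.M24V
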