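import Mathlib
import Cfsg.Agent.Lib.Helper35.M24V

/-!
# Packed permutations: the label of the classes of elements of order 11, 15, 21, 23
-/

set_option autoImplicit false

namespace Cfsg.Agent.Lib.Helper35.M24Lab

open Cfsg Cfsg.Agent.Lib.Helper7.GolayBase Cfsg.Agent.Lib.Helper7.GolayPerm
  Cfsg.Agent.Lib.Helper7.GolayCode Cfsg.Agent.Lib.Helper7.GolayRigid
  Cfsg.Agent.Lib.Helper35.PermTab Cfsg.Agent.Lib.Helper35.M24P Cfsg.Agent.Lib.Helper35.M24D
  Cfsg.Agent.Lib.Helper35.M24V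
open scoped Pointwise

/-! ### Powers -/

theorem powP_zero (c : Nat) : powP c 0 = idP := rfl
theorem powP_succ (c k : Nat) : powP c (k + 1) = mulP (powP c k) c := rfl

theorem pk_pow (g : Equiv.Perm GolayPt) : ∀ k : Nat, pk (g ^ k) = powP (pk g) k
  | 0 => by rw [pow_zero, pk_one, powP_zero]
  | k + 1 => by rw [pow_succ, pk_mul, pk_pow g k, powP_succ]

theorem pk_eq_idP {x : Equiv.Perm GolayPt} : pk x = idP ↔ x = 1 :=
  ⟨fun h => pk_injective (h.trans pk_one.symm), fun h => h ▸ pk_one⟩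

theorem beq_pk (x : Equiv.Perm GolayPt) : Nat.beq (pk x) idP = decide (x = 1) := by
  by_cases h : x = 1
  · subst h
    rw [pk_one]
    simp
  · have : pk x ≠ idP := fun e => h (pk_eq_idP.mp e)
    rw [decide_eq_false h]
    cases hb : Nat.beq (pk x) idP
    · rfl
    · exact absurd (Nat.eq_of_beq_eq_true hb) this

/-! ### Orbit patterns -/

theorem stepN_zero (c x : Nat) : stepN c 0 x = x := rfl
theorem stepN_succ (c d x : Nat) : stepN c (d + 1) x = ent c (stepN c d x) := rfl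

theorem stepN_spec (g : Equiv.Perm GolayPt) (p : GolayPt) : ∀ d : Nat,
    stepN (pk g) d (8 * idx p) = 8 * idx ((g ^ d) p)
  | 0 => by rw [stepN_zero, pow_zero]; rfl
  | d + 1 => by
    rw [stepN_succ, stepN_spec g p d, ent_pk, pow_succ']
    rfl

/-- The points reached from `p` after the partial sums of `steps` steps. -/
def oset (g : Equiv.Perm GolayPt) : List Nat → GolayPt → Finset GolayPt
  | [], p => {p}
  | d :: l, p => insert p (oset g l ((g ^ d) p))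

theorem omask_nil (c x : Nat) : omask c [] x = bit x := rfl
theorem omask_cons (c d : Nat) (l : List Nat) (x : Nat) :
    omask c (d :: l) x = Nat.lor (bit x) (omask c l (stepN c d x)) := rfl

theorem mk_omask (g : Equiv.Perm GolayPt) : ∀ (steps : List Nat) (p : GolayPt),
    mk (omask (pk g) steps (8 * idx p)) = oset g steps p
  | [], p => by rw [omask_nil, bit_eq, mk_two_pow]; rfl
  | d :: l, p => by
    rw [omask_cons, lor_eq, mk_or, bit_eq, mk_two_pow, stepN_spec, mk_omask g l]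
    simp only [oset]
    rw [Finset.insert_eq]

theorem omask_lt (g : Equiv.Perm GolayPt) : ∀ (steps : List Nat) (p : GolayPt),
    omask (pk g) steps (8 * idx p) < 2 ^ 24
  | [], p => by
    rw [omask_nil, bit_eq]
    exact Nat.pow_lt_pow_right (by norm_num) (idx_lt p)
  | d :: l, p => by
    rw [omask_cons, lor_eq, bit_eq, stepN_spec]
    exact Nat.or_lt_two_pow (Nat.pow_lt_pow_right (by norm_num) (idx_lt p)) (omask_lt g l _)

/-- The class invariant: some translate of the pattern along the cycles is an octad. -/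
def InvG (steps : List Nat) (g : Equiv.Perm GolayPt) : Prop := ∃ p, oset g steps p ∈ octads

theorem invP_iff (steps : List Nat) (g : Equiv.Perm GolayPt) :
    invP steps (pk g) = true ↔ InvG steps g := by
  unfold invP
  rw [anyL_iff]
  constructor
  · rintro ⟨x, hx, h⟩
    obtain ⟨p, rfl⟩ := pts8_exists hx
    exact ⟨p, (mem_octads_iff _).mpr ⟨_, octT_sound h, mk_omask g steps p⟩⟩
  · rintro ⟨p, hp⟩
    refine ⟨8 * idx p, mem_pts8 p, ?_⟩
    obtain ⟨m, hm, e⟩ := (mem_octads_iff _).mp hp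
    rw [← mk_omask g steps p] at e
    have hm' : m < 2 ^ 24 := codeList_lt m (mem_octadList.mp hm).1
    rw [← mk_injOn hm' (omask_lt g steps p) e]
    exact (octT_iff m).mpr hm

theorem oset_conj (h g : Equiv.Perm GolayPt) : ∀ (steps : List Nat) (p : GolayPt),
    oset (h * g * h⁻¹) steps (h p) = (oset g steps p).image h
  | [], p => by simp [oset]
  | d :: l, p => by
    have e : ((h * g * h⁻¹) ^ d) (h p) = h ((g ^ d) p) := by
      rw [conj_pow]
      simp [Equiv.Perm.mul_apply]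
    simp only [oset]
    rw [e, oset_conj h g l, Finset.image_insert]

theorem InvG_conj {steps : List Nat} {g h : Equiv.Perm GolayPt} (hh : h ∈ M24)
    (hg : InvG steps g) : InvG steps (h * g * h⁻¹) := by
  obtain ⟨p, hp⟩ := hg
  refine ⟨h p, ?_⟩
  rw [oset_conj]
  exact Cfsg.Agent.Lib.Helper7.M24Octad.smul_mem_octads hh hp

theorem InvG_conj_iff {steps : List Nat} {g h : Equiv.Perm GolayPt} (hh : h ∈ M24) :
    InvG steps (h * g * h⁻¹) ↔ InvG steps g := by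
  refine ⟨fun hg => ?_, InvG_conj hh⟩
  have := InvG_conj (M24.inv_mem hh) hg
  have e : h⁻¹ * (h * g * h⁻¹) * h⁻¹⁻¹ = g := by group
  rwa [e] at this

/-! ### Cycles of length two -/

theorem has2_spec {g : Equiv.Perm GolayPt} (h : has2 (pk g) = true) :
    ∃ p, g (g p) = p ∧ g p ≠ p := by
  unfold has2 at h
  obtain ⟨x, hx, hx2⟩ := (anyL_iff _ _).mp h
  obtain ⟨p, rfl⟩ := pts8_exists hx
  rw [ent_pk, ent_pk] at hx2
  refine ⟨p, ?_, ?_⟩
  · cases h1 : Nat.beq (8 * idx (g p)) (8 * idx p)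
    · rw [h1] at hx2
      have := Nat.eq_of_beq_eq_true hx2
      exact idx_injective (by omega)
    · rw [h1] at hx2
      exact absurd hx2 (by simp)
  · intro e
    rw [e] at hx2
    simp at hx2

theorem odd_pow_ne_one {g : Equiv.Perm GolayPt} (h : ∃ p, g (g p) = p ∧ g p ≠ p) (k : Nat) :
    g ^ (2 * k + 1) ≠ 1 := by
  obtain ⟨p, h1, h2⟩ := h
  intro e
  have key : ∀ k : Nat, (g ^ (2 * k + 1)) p = g p := by
    intro k
    induction k with
    | zero => simp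
    | succ k ih =>
      have : 2 * (k + 1) + 1 = (2 * k + 1) + 2 := by ring
      rw [this, pow_add, Equiv.Perm.mul_apply, pow_two, Equiv.Perm.mul_apply, h1, ih]
  have := key k
  rw [e] at this
  exact h2 this.symm

/-! ### The label -/

theorem labP_eq (g : Equiv.Perm GolayPt) : labP (pk g) = cond (has2 (pk g)) 0
    (cond (decide (g ^ 3 = 1)) 0 (cond (decide (g ^ 5 = 1)) 0 (cond (decide (g ^ 7 = 1)) 0
      (cond (decide (g ^ 11 = 1)) 1
        (cond (decide (g ^ 15 = 1)) (cond (invP E15 (pk g)) 2 3)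
          (cond (decide (g ^ 21 = 1)) (cond (invP E21 (pk g)) 4 5)
            (cond (decide (g ^ 23 = 1)) (cond (invP E23 (pk g)) 6 7) 0))))))) := by
  have e2 : mulP (pk g) (pk g) = pk (g ^ 2) := by rw [← pk_mul, pow_two]
  have e3 : mulP (pk (g ^ 2)) (pk g) = pk (g ^ 3) := by rw [← pk_mul]; rfl
  have e5 : mulP (pk (g ^ 3)) (pk (g ^ 2)) = pk (g ^ 5) := by rw [← pk_mul, ← pow_add]
  have e7 : mulP (pk (g ^ 5)) (pk (g ^ 2)) = pk (g ^ 7) := by rw [← pk_mul, ← pow_add]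
  have e8 : mulP (pk (g ^ 7)) (pk g) = pk (g ^ 8) := by rw [← pk_mul]; rfl
  have e11 : mulP (pk (g ^ 8)) (pk (g ^ 3)) = pk (g ^ 11) := by rw [← pk_mul, ← pow_add]
  have e15 : mulP (pk (g ^ 8)) (pk (g ^ 7)) = pk (g ^ 15) := by rw [← pk_mul, ← pow_add]
  have e16 : mulP (pk (g ^ 8)) (pk (g ^ 8)) = pk (g ^ 16) := by rw [← pk_mul, ← pow_add]
  have e21 : mulP (pk (g ^ 16)) (pk (g ^ 5)) = pk (g ^ 21) := by rw [← pk_mul, ← pow_add]
  have e23 : mulP (pk (g ^ 16)) (pk (g ^ 7)) = pk (g ^ 23) := by rw [← pk_mul, ← pow_add]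
  unfold labP lab1 lab2 lab3 lab4 lab5 lab6
  rw [e2, e3, e5, e7, e8, e11, e15, e16, e21, e23]
  simp only [beq_pk]

theorem labP_cases (g : Equiv.Perm GolayPt) :
    labP (pk g) = 0 ∨
    (labP (pk g) = 1 ∧ g ^ 3 ≠ 1 ∧ g ^ 11 = 1) ∨
    (labP (pk g) = 2 ∧ g ^ 3 ≠ 1 ∧ g ^ 5 ≠ 1 ∧ g ^ 15 = 1 ∧ invP E15 (pk g) = true) ∨
    (labP (pk g) = 3 ∧ g ^ 3 ≠ 1 ∧ g ^ 5 ≠ 1 ∧ g ^ 15 = 1 ∧ invP E15 (pk g) = false) ∨
    (labP (pk g) = 4 ∧ g ^ 3 ≠ 1 ∧ g ^ 7 ≠ 1 ∧ g ^ 21 = 1 ∧ invP E21 (pk g) = true) ∨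
    (labP (pk g) = 5 ∧ g ^ 3 ≠ 1 ∧ g ^ 7 ≠ 1 ∧ g ^ 21 = 1 ∧ invP E21 (pk g) = false) ∨
    (labP (pk g) = 6 ∧ g ^ 3 ≠ 1 ∧ g ^ 23 = 1 ∧ invP E23 (pk g) = true) ∨
    (labP (pk g) = 7 ∧ g ^ 3 ≠ 1 ∧ g ^ 23 = 1 ∧ invP E23 (pk g) = false) := by
  rw [labP_eq]
  cases h0 : has2 (pk g)
  swap
  · left; rfl
  by_cases h3 : g ^ 3 = 1
  · left; simp [h3]
  by_cases h5 : g ^ 5 = 1
  · left; simp [h3, h5]
  by_cases h7 : g ^ 7 = 1
  · left; simp [h3, h5, h7]
  by_cases h11 : g ^ 11 = 1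
  · right; left; simp [h3, h5, h7, h11]
  by_cases h15 : g ^ 15 = 1
  · cases hi : invP E15 (pk g)
    · right; right; right; left; simp [h3, h5, h7, h11, h15]
    · right; right; left; simp [h3, h5, h7, h11, h15]
  by_cases h21 : g ^ 21 = 1
  · cases hi : invP E21 (pk g)
    · right; right; right; right; right; left; simp [h3, h5, h7, h11, h15, h21]
    · right; right; right; right; left; simp [h3, h5, h7, h11, h15, h21]
  by_cases h23 : g ^ 23 = 1
  · cases hi : invP E23 (pk g)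
    · right; right; right; right; right; right; right; simp [h3, h5, h7, h11, h15, h21, h23]
    · right; right; right; right; right; right; left; simp [h3, h5, h7, h11, h15, h21, h23]
  left; simp [h3, h5, h7, h11, h15, h21, h23]

theorem labP_ne_zero {g : Equiv.Perm GolayPt} (h0 : has2 (pk g) = false) (h3 : g ^ 3 ≠ 1)
    (h5 : g ^ 5 ≠ 1) (h7 : g ^ 7 ≠ 1)
    (h : g ^ 11 = 1 ∨ g ^ 15 = 1 ∨ g ^ 21 = 1 ∨ g ^ 23 = 1) : labP (pk g) ≠ 0 := by
  rw [labP_eq, h0]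
  by_cases h11 : g ^ 11 = 1
  · simp [h3, h5, h7, h11]
  by_cases h15 : g ^ 15 = 1
  · cases hi : invP E15 (pk g) <;> simp [h3, h5, h7, h11, h15]
  by_cases h21 : g ^ 21 = 1
  · cases hi : invP E21 (pk g) <;> simp [h3, h5, h7, h11, h15, h21]
  by_cases h23 : g ^ 23 = 1
  · cases hi : invP E23 (pk g) <;> simp [h3, h5, h7, h11, h15, h21, h23]
  · rcases h with h | h | h | h
    · exact absurd h h11
    · exact absurd h h15
    · exact absurd h h21
    · exact absurd h h23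

theorem ord_of_two {x : Equiv.Perm GolayPt} {n a b : Nat} (hn : 0 < n)
    (hp : ∀ p : ℕ, p.Prime → p ∣ n → n / p = a ∨ n / p = b)
    (h : x ^ n = 1) (ha : x ^ a ≠ 1) (hb : x ^ b ≠ 1) : orderOf x = n := by
  apply orderOf_eq_of_pow_and_pow_div_prime hn h
  intro p hp1 hp2
  rcases hp p hp1 hp2 with e | e <;> rw [e] <;> assumption

theorem primes15 : ∀ p : ℕ, p.Prime → p ∣ 15 → 15 / p = 5 ∨ 15 / p = 3 := by
  intro p hp hd
  have : p ≤ 15 := Nat.le_of_dvd (by norm_num) hd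
  interval_cases p <;> simp_all (config := { decide := true })

theorem primes21 : ∀ p : ℕ, p.Prime → p ∣ 21 → 21 / p = 7 ∨ 21 / p = 3 := by
  intro p hp hd
  have : p ≤ 21 := Nat.le_of_dvd (by norm_num) hd
  interval_cases p <;> simp_all (config := { decide := true })

/-- The meaning of the labels. -/
theorem lab_one {g : Equiv.Perm GolayPt} (h : labP (pk g) = 1) : orderOf g = 11 := by
  rcases labP_cases g with h' | ⟨-, h3, h11⟩ | ⟨h', -⟩ | ⟨h', -⟩ | ⟨h', -⟩ | ⟨h', -⟩ | ⟨h', -⟩ |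
    ⟨h', -⟩ <;> first | omega | skip
  have : Fact (Nat.Prime 11) := ⟨by norm_num⟩
  exact orderOf_eq_prime h11 (fun e => h3 (by rw [e, one_pow]))

theorem lab_two {g : Equiv.Perm GolayPt} (h : labP (pk g) = 2) :
    orderOf g = 15 ∧ InvG E15 g := by
  rcases labP_cases g with h' | ⟨h', -⟩ | ⟨-, h3, h5, h15, hi⟩ | ⟨h', -⟩ | ⟨h', -⟩ | ⟨h', -⟩ |
    ⟨h', -⟩ | ⟨h', -⟩ <;> first | omega | skip
  exact ⟨ord_of_two (by norm_num) primes15 h15 h5 h3, (invP_iff _ _).mp hi⟩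

theorem lab_three {g : Equiv.Perm GolayPt} (h : labP (pk g) = 3) :
    orderOf g = 15 ∧ ¬ InvG E15 g := by
  rcases labP_cases g with h' | ⟨h', -⟩ | ⟨h', -⟩ | ⟨-, h3, h5, h15, hi⟩ | ⟨h', -⟩ | ⟨h', -⟩ |
    ⟨h', -⟩ | ⟨h', -⟩ <;> first | omega | skip
  refine ⟨ord_of_two (by norm_num) primes15 h15 h5 h3, fun hI => ?_⟩
  rw [(invP_iff _ _).mpr hI] at hi
  exact absurd hi (by simp)

theorem lab_four {g : Equiv.Perm GolayPt} (h : labP (pk g) = 4) :
    orderOf g = 21 ∧ InvG E21 g := by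
  rcases labP_cases g with h' | ⟨h', -⟩ | ⟨h', -⟩ | ⟨h', -⟩ | ⟨-, h3, h7, h21, hi⟩ | ⟨h', -⟩ |
    ⟨h', -⟩ | ⟨h', -⟩ <;> first | omega | skip
  exact ⟨ord_of_two (by norm_num) primes21 h21 h7 h3, (invP_iff _ _).mp hi⟩

theorem lab_five {g : Equiv.Perm GolayPt} (h : labP (pk g) = 5) :
    orderOf g = 21 ∧ ¬ InvG E21 g := by
  rcases labP_cases g with h' | ⟨h', -⟩ | ⟨h', -⟩ | ⟨h', -⟩ | ⟨h', -⟩ | ⟨-, h3, h7, h21, hi⟩ |
    ⟨h', -⟩ | ⟨h', -⟩ <;> first | omega | skip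
  refine ⟨ord_of_two (by norm_num) primes21 h21 h7 h3, fun hI => ?_⟩
  rw [(invP_iff _ _).mpr hI] at hi
  exact absurd hi (by simp)

theorem lab_six {g : Equiv.Perm GolayPt} (h : labP (pk g) = 6) :
    orderOf g = 23 ∧ InvG E23 g := by
  rcases labP_cases g with h' | ⟨h', -⟩ | ⟨h', -⟩ | ⟨h', -⟩ | ⟨h', -⟩ | ⟨h', -⟩ |
    ⟨-, h3, h23, hi⟩ | ⟨h', -⟩ <;> first | omega | skip
  have : Fact (Nat.Prime 23) := ⟨by norm_num⟩
  exact ⟨orderOf_eq_prime h23 (fun e => h3 (by rw [e, one_pow])), (invP_iff _ _).mp hi⟩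

theorem lab_seven {g : Equiv.Perm GolayPt} (h : labP (pk g) = 7) :
    orderOf g = 23 ∧ ¬ InvG E23 g := by
  rcases labP_cases g with h' | ⟨h', -⟩ | ⟨h', -⟩ | ⟨h', -⟩ | ⟨h', -⟩ | ⟨h', -⟩ | ⟨h', -⟩ |
    ⟨-, h3, h23, hi⟩ <;> first | omega | skip
  have : Fact (Nat.Prime 23) := ⟨by norm_num⟩
  refine ⟨orderOf_eq_prime h23 (fun e => h3 (by rw [e, one_pow])), fun hI => ?_⟩
  rw [(invP_iff _ _).mpr hI] at hi
  exact absurd hi (by simp)

/-- Elements of order 11, 15, 21, 23 have a nonzero label. -/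
theorem lab_ne_zero {g : Equiv.Perm GolayPt}
    (h : orderOf g = 11 ∨ orderOf g = 15 ∨ orderOf g = 21 ∨ orderOf g = 23) :
    labP (pk g) ≠ 0 := by
  have hpow := pow_orderOf_eq_one g
  have hodd : ∃ k, orderOf g = 2 * k + 1 := by
    rcases h with h | h | h | h
    · exact ⟨5, h⟩
    · exact ⟨7, h⟩
    · exact ⟨10, h⟩
    · exact ⟨11, h⟩
  have h0 : has2 (pk g) = false := by
    cases h2 : has2 (pk g)
    · rfl
    · obtain ⟨k, hk⟩ := hodd
      rw [hk] at hpow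
      exact absurd hpow (odd_pow_ne_one (has2_spec h2) k)
  have hnd : ∀ m : Nat, ¬ orderOf g ∣ m → g ^ m ≠ 1 := fun m hm e =>
    hm (orderOf_dvd_of_pow_eq_one e)
  apply labP_ne_zero h0
  · apply hnd; rcases h with h | h | h | h <;> rw [h] <;> norm_num
  · apply hnd; rcases h with h | h | h | h <;> rw [h] <;> norm_num
  · apply hnd; rcases h with h | h | h | h <;> rw [h] <;> norm_num
  · rcases h with h | h | h | h
    · left; rw [← h]; exact hpow
    · right; left; rw [← h]; exact hpow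
    · right; right; left; rw [← h]; exact hpow
    · right; right; right; rw [← h]; exact hpow

end Cfsg.Agent.Lib.Helper35.M24Lab
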