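import Mathlib
import Cfsg.Agent.Lib.Helper35.M24W
import Cfsg.Agent.Lib.Helper35.M24Lab
import Cfsg.Agent.Lib.Helper35.M24F5

/-!
# Packed permutations: the meaning of the label `labW`

For `g ∈ M24`: `labW (pk g) = 1` iff `g` has order 11; `2, 3` iff order 15; `4, 5` iff order 21;
`6, 7` iff order 23, the two values separated by the class invariant `InvG`.
-/

set_option autoImplicit false

namespace Cfsg.Agent.Lib.Helper35.M24WS

open Cfsg Cfsg.Agent.Lib.Helper7.GolayBase Cfsg.Agent.Lib.Helper7.GolayPerm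
  Cfsg.Agent.Lib.Helper7.GolayCode Cfsg.Agent.Lib.Helper7.GolayRigid
  Cfsg.Agent.Lib.Helper35.PermTab Cfsg.Agent.Lib.Helper35.M24P Cfsg.Agent.Lib.Helper35.M24D
  Cfsg.Agent.Lib.Helper35.M24V Cfsg.Agent.Lib.Helper35.M24Lab Cfsg.Agent.Lib.Helper35.M24W
  Cfsg.Agent.Lib.Helper35.M24F5 Cfsg.Agent.Lib.Helper35.M24Fix
open scoped Pointwise

theorem nbeq (a b : Nat) : Nat.beq a b = decide (a = b) := by
  by_cases h : a = b
  · subst h; simp
  · rw [decide_eq_false h]
    cases hb : Nat.beq a b
    · rfl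
    · exact absurd (Nat.eq_of_beq_eq_true hb) h

/-! ### Return times -/

/-- `k` is the first return time of `p` under `g`. -/
def IsRet (g : Equiv.Perm GolayPt) (p : GolayPt) (k : Nat) : Prop :=
  0 < k ∧ (g ^ k) p = p ∧ ∀ j, 0 < j → j < k → (g ^ j) p ≠ p

theorem retGo_succ (c x0 f y k : Nat) : retGo c x0 (f + 1) y k =
    cond (Nat.beq y x0) k (retGo c x0 f (ent c y) (k + 1)) := rfl

theorem beq_idx (p q : GolayPt) : Nat.beq (8 * idx p) (8 * idx q) = decide (p = q) := by
  rw [nbeq]
  by_cases h : p = q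
  · subst h; simp
  · rw [decide_eq_false h, decide_eq_false]
    intro e
    exact h (idx_injective (by omega))

theorem retGo_sound (g : Equiv.Perm GolayPt) (p : GolayPt) : ∀ (f k : Nat), 0 < k →
    (∀ j, 0 < j → j < k → (g ^ j) p ≠ p) →
    retGo (pk g) (8 * idx p) f (8 * idx ((g ^ k) p)) k ≠ 0 →
    IsRet g p (retGo (pk g) (8 * idx p) f (8 * idx ((g ^ k) p)) k)
  | 0, k, _, _, h => absurd rfl h
  | f + 1, k, hk, hmin, h => by
    rw [retGo_succ, beq_idx] at h ⊢
    by_cases e : (g ^ k) p = p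
    · rw [decide_eq_true e] at h ⊢
      exact ⟨hk, e, hmin⟩
    · rw [decide_eq_false e] at h ⊢
      simp only [cond_false] at h ⊢
      have e2 : ent (pk g) (8 * idx ((g ^ k) p)) = 8 * idx ((g ^ (k + 1)) p) := by
        rw [ent_pk, pow_succ']; rfl
      rw [e2] at h ⊢
      refine retGo_sound g p f (k + 1) (Nat.succ_pos k) (fun j hj hjk => ?_) h
      by_cases hjk' : j < k
      · exact hmin j hj hjk'
      · have : j = k := by omega
        rw [this]; exact e

theorem ent_one (g : Equiv.Perm GolayPt) (p : GolayPt) :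
    ent (pk g) (8 * idx p) = 8 * idx ((g ^ 1) p) := by rw [ent_pk, pow_one]

theorem ret_sound {g : Equiv.Perm GolayPt} {p : GolayPt} (h : ret (pk g) (8 * idx p) ≠ 0) :
    IsRet g p (ret (pk g) (8 * idx p)) := by
  unfold ret at h ⊢
  rw [ent_one] at h ⊢
  exact retGo_sound g p 24 1 one_pos (fun j hj hj1 => by omega) h

theorem retGo_complete (g : Equiv.Perm GolayPt) (p : GolayPt) (m : Nat) (hm : (g ^ m) p = p) :
    ∀ (f k : Nat), 0 < k → k ≤ m → m < k + f →
    retGo (pk g) (8 * idx p) f (8 * idx ((g ^ k) p)) k ≠ 0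
  | 0, k, _, h1, h2 => by omega
  | f + 1, k, hk, h1, h2 => by
    rw [retGo_succ, beq_idx]
    by_cases e : (g ^ k) p = p
    · rw [decide_eq_true e]
      simp only [cond_true]
      omega
    · rw [decide_eq_false e]
      simp only [cond_false]
      have e2 : ent (pk g) (8 * idx ((g ^ k) p)) = 8 * idx ((g ^ (k + 1)) p) := by
        rw [ent_pk, pow_succ']; rfl
      rw [e2]
      have hkm : k ≠ m := fun hkm => e (hkm ▸ hm)
      exact retGo_complete g p m hm f (k + 1) (Nat.succ_pos k) (by omega) (by omega)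

theorem ret_complete {g : Equiv.Perm GolayPt} {p : GolayPt} {m : Nat} (hm0 : 0 < m)
    (hm : m ≤ 24) (h : (g ^ m) p = p) : ret (pk g) (8 * idx p) ≠ 0 := by
  unfold ret
  rw [ent_one]
  exact retGo_complete g p m h 24 1 one_pos hm0 (by omega)

theorem IsRet.pow_mod {g : Equiv.Perm GolayPt} {p : GolayPt} {k : Nat} (h : IsRet g p k)
    (e : Nat) : (g ^ e) p = (g ^ (e % k)) p := by
  have hk : ∀ a : Nat, ((g ^ k) ^ a) p = p := by
    intro a
    induction a with
    | zero => simp
    | succ a ih => rw [pow_succ, Equiv.Perm.mul_apply, h.2.1, ih]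
  conv_lhs => rw [← Nat.mod_add_div e k]
  rw [pow_add, pow_mul, Equiv.Perm.mul_apply, hk]

theorem IsRet.dvd {g : Equiv.Perm GolayPt} {p : GolayPt} {k n : Nat} (h : IsRet g p k)
    (hn : (g ^ n) p = p) : k ∣ n := by
  by_contra hnd
  have h1 := h.pow_mod n
  rw [hn] at h1
  have : 0 < n % k := Nat.pos_of_ne_zero (fun e => hnd (Nat.dvd_of_mod_eq_zero e))
  exact h.2.2 (n % k) this (Nat.mod_lt _ h.1) h1.symm

theorem IsRet.inj_aux {g : Equiv.Perm GolayPt} {p : GolayPt} {k : Nat} (h : IsRet g p k)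
    {i j : Nat} (hij : i ≤ j) (hj : j < k) (e : (g ^ i) p = (g ^ j) p) : i = j := by
  by_contra hne
  have hlt : i < j := lt_of_le_of_ne hij hne
  have e1 : g ^ j = g ^ i * g ^ (j - i) := by rw [← pow_add]; congr 1; omega
  rw [e1, Equiv.Perm.mul_apply] at e
  have e2 : (g ^ (j - i)) p = p := ((g ^ i).injective e).symm
  exact h.2.2 (j - i) (by omega) (by omega) e2

theorem IsRet.inj {g : Equiv.Perm GolayPt} {p : GolayPt} {k : Nat} (h : IsRet g p k)
    {i j : Nat} (hi : i < k) (hj : j < k) (e : (g ^ i) p = (g ^ j) p) : i = j := by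
  rcases le_total i j with hij | hij
  · exact h.inj_aux hij hj e
  · exact (h.inj_aux hij hi e.symm).symm

/-- The cycle of `p`. -/
def orb (g : Equiv.Perm GolayPt) (p : GolayPt) (k : Nat) : Finset GolayPt :=
  (Finset.range k).image (fun j => (g ^ j) p)

theorem card_orb {g : Equiv.Perm GolayPt} {p : GolayPt} {k : Nat} (h : IsRet g p k) :
    (orb g p k).card = k := by
  rw [orb, Finset.card_image_of_injOn, Finset.card_range]
  intro i hi j hj e
  exact h.inj (Finset.mem_range.mp hi) (Finset.mem_range.mp hj) e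

theorem pow_mem_orb {g : Equiv.Perm GolayPt} {p : GolayPt} {k : Nat} (h : IsRet g p k)
    (e : Nat) : (g ^ e) p ∈ orb g p k :=
  Finset.mem_image.mpr ⟨e % k, Finset.mem_range.mpr (Nat.mod_lt _ h.1), (h.pow_mod e).symm⟩

theorem orb_closed {g : Equiv.Perm GolayPt} {p : GolayPt} {k : Nat} (h : IsRet g p k) :
    ∀ q ∈ orb g p k, ∀ d : Nat, (g ^ d) q ∈ orb g p k := by
  intro q hq d
  obtain ⟨j, -, rfl⟩ := Finset.mem_image.mp hq
  rw [← Equiv.Perm.mul_apply, ← pow_add]
  exact pow_mem_orb h _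

theorem orb_subset_fixed {g : Equiv.Perm GolayPt} {p : GolayPt} {k : Nat} (h : IsRet g p k) :
    orb g p k ⊆ fixedPts (g ^ k) := by
  intro q hq
  obtain ⟨j, -, rfl⟩ := Finset.mem_image.mp hq
  rw [mem_fixedPts, ← Equiv.Perm.mul_apply, ← pow_add, add_comm, pow_add, Equiv.Perm.mul_apply,
    h.2.1]

theorem le_24 {g : Equiv.Perm GolayPt} {p : GolayPt} {k : Nat} (h : IsRet g p k) : k ≤ 24 := by
  have := Finset.card_le_univ (orb g p k)
  rw [card_orb h, card_golayPt] at this
  exact this

/-- A long cycle determines the order. -/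
theorem order_of_ret {g : Equiv.Perm GolayPt} {p : GolayPt} {k : Nat} (hg : g ∈ M24)
    (h : IsRet g p k) (h9 : 9 ≤ k) : orderOf g = k := by
  have h1 : g ^ k = 1 := by
    apply eq_one_of_fix_nine (M24.pow_mem hg k)
    have := Finset.card_le_card (orb_subset_fixed h)
    rw [card_orb h] at this
    omega
  rw [orderOf_eq_iff h.1]
  refine ⟨h1, fun m hm hm0 e => h.2.2 m hm0 hm ?_⟩
  rw [e]; rfl

/-! ### The octad test along a cycle -/

theorem octTest_iff (g : Equiv.Perm GolayPt) (steps : List Nat) (p : GolayPt) :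
    octT.mem (omask (pk g) steps (8 * idx p)) = true ↔ oset g steps p ∈ octads := by
  constructor
  · intro h
    exact (mem_octads_iff _).mpr ⟨_, octT_sound h, mk_omask g steps p⟩
  · intro hp
    obtain ⟨m, hm, e⟩ := (mem_octads_iff _).mp hp
    rw [← mk_omask g steps p] at e
    have hm' : m < 2 ^ 24 := codeList_lt m (mem_octadList.mp hm).1
    rw [← mk_injOn hm' (omask_lt g steps p) e]
    exact (octT_iff m).mpr hm

theorem oset_subset (g : Equiv.Perm GolayPt) (O : Finset GolayPt)
    (hO : ∀ q ∈ O, ∀ d : Nat, (g ^ d) q ∈ O) : ∀ (l : List Nat) (q : GolayPt), q ∈ O →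
    oset g l q ⊆ O
  | [], q, hq => by simp [oset, hq]
  | d :: l, q, hq => by
    simp only [oset]
    exact Finset.insert_subset hq (oset_subset g O hO l _ (hO q hq d))

theorem InvG_iff_of_ret {g : Equiv.Perm GolayPt} {p : GolayPt} {k : Nat} {steps : List Nat}
    (hg : g ∈ M24) (h : IsRet g p k) (hord : orderOf g = k) (h13 : 13 ≤ k)
    (hdiv : ∀ r, r ∣ k → 8 ≤ r → r = k) : InvG steps g ↔ oset g steps p ∈ octads := by
  constructor
  swap
  · exact fun hp => ⟨p, hp⟩
  rintro ⟨q, hq⟩
  have hk1 : g ^ k = 1 := hord ▸ pow_orderOf_eq_one g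
  have hq0 : ret (pk g) (8 * idx q) ≠ 0 := ret_complete h.1 (le_24 h) (by rw [hk1]; rfl)
  have hr := ret_sound hq0
  generalize ret (pk g) (8 * idx q) = r at hr
  have hrk : r ∣ k := hr.dvd (by rw [hk1]; rfl)
  have h8 : 8 ≤ r := by
    have hsub : oset g steps q ⊆ orb g q r :=
      oset_subset g _ (orb_closed hr) steps q (by simpa using pow_mem_orb hr 0)
    have hc : (oset g steps q).card = 8 := by
      unfold octads wordsOfWeight at hq
      exact hq.2
    have := Finset.card_le_card hsub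
    rw [card_orb hr, hc] at this
    exact this
  have hrk' : r = k := hdiv r hrk h8
  subst hrk'
  have hint : ¬ Disjoint (orb g q r) (orb g p r) := by
    intro hd
    have e := Finset.card_union_of_disjoint hd
    have hle := Finset.card_le_univ (orb g q r ∪ orb g p r)
    rw [e, card_orb hr, card_orb h, card_golayPt] at hle
    omega
  rw [Finset.not_disjoint_iff] at hint
  obtain ⟨z, hz1, hz2⟩ := hint
  obtain ⟨i, hi, rfl⟩ := Finset.mem_image.mp hz1
  obtain ⟨j, hj, e⟩ := Finset.mem_image.mp hz2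
  have hi' : i < r := Finset.mem_range.mp hi
  have hq' : (g ^ (r - i + j)) p = q := by
    rw [pow_add, Equiv.Perm.mul_apply, e, ← Equiv.Perm.mul_apply, ← pow_add,
      Nat.sub_add_cancel (le_of_lt hi')]
    exact hr.2.1
  generalize r - i + j = m at hq'
  have e2 : (g ^ m)⁻¹ * g * (g ^ m)⁻¹⁻¹ = g := by
    rw [inv_inv, mul_assoc, ← pow_succ', pow_succ, inv_mul_cancel_left]
  have e3 : (g ^ m)⁻¹ q = p := by rw [← hq']; simp
  have := oset_conj (g ^ m)⁻¹ g steps q
  rw [e2, e3] at this
  rw [this]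
  exact Cfsg.Agent.Lib.Helper7.M24Octad.smul_mem_octads (M24.inv_mem (M24.pow_mem hg m)) hq

/-! ### The label -/

theorem labL_nil (c : Nat) : labL c [] = 0 := rfl
theorem labL_cons (c x : Nat) (l : List Nat) : labL c (x :: l) =
    cond (Nat.blt 6 (ret c x)) (labAt c x (ret c x)) (labL c l) := rfl

theorem labL_cases (c : Nat) : ∀ l : List Nat,
    labL c l = 0 ∨ ∃ x ∈ l, 6 < ret c x ∧ labL c l = labAt c x (ret c x)
  | [] => Or.inl rfl
  | x :: l => by
    rw [labL_cons]
    cases h : Nat.blt 6 (ret c x)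
    · rcases labL_cases c l with h0 | ⟨y, hy, h1, h2⟩
      · left; simpa using h0
      · right; exact ⟨y, List.mem_cons_of_mem _ hy, h1, by simpa using h2⟩
    · right
      exact ⟨x, List.mem_cons_self, (T.blt_iff _ _).mp h, rfl⟩

theorem labL_of_exists (c : Nat) : ∀ l : List Nat, (∃ x ∈ l, 6 < ret c x) →
    ∃ x ∈ l, 6 < ret c x ∧ labL c l = labAt c x (ret c x)
  | [], h => by obtain ⟨x, hx, -⟩ := h; simp at hx
  | x :: l, h => by
    rw [labL_cons]
    cases hb : Nat.blt 6 (ret c x)
    · obtain ⟨y, hy, h6⟩ := h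
      have hy' : y ∈ l := by
        rcases List.mem_cons.mp hy with rfl | hy
        · rw [(T.blt_iff _ _).mpr h6] at hb
          exact absurd hb (by simp)
        · exact hy
      obtain ⟨z, hz, h1, h2⟩ := labL_of_exists c l ⟨y, hy', h6⟩
      exact ⟨z, List.mem_cons_of_mem _ hz, h1, by simpa using h2⟩
    · exact ⟨x, List.mem_cons_self, (T.blt_iff _ _).mp hb, rfl⟩

theorem labAt_11 (c x : Nat) : labAt c x 11 = 1 := rfl
theorem labAt_15 (c x : Nat) : labAt c x 15 = cond (octT.mem (omask c E15 x)) 2 3 := rfl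
theorem labAt_21 (c x : Nat) : labAt c x 21 = cond (octT.mem (omask c E21 x)) 4 5 := rfl
theorem labAt_23 (c x : Nat) : labAt c x 23 = cond (octT.mem (omask c E23 x)) 6 7 := rfl

theorem labAt_zero (c x k : Nat) (h11 : k ≠ 11) (h15 : k ≠ 15) (h21 : k ≠ 21) (h23 : k ≠ 23) :
    labAt c x k = 0 := by
  unfold labAt
  rw [nbeq, nbeq, nbeq, nbeq, decide_eq_false h11, decide_eq_false h15, decide_eq_false h21,
    decide_eq_false h23]
  rfl

theorem labW_spec {g : Equiv.Perm GolayPt} (hg : g ∈ M24) (h0 : labW (pk g) ≠ 0) :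
    ∃ (p : GolayPt) (k : Nat), IsRet g p k ∧ orderOf g = k ∧
      labW (pk g) = labAt (pk g) (8 * idx p) k ∧ (k = 11 ∨ k = 15 ∨ k = 21 ∨ k = 23) := by
  rcases labL_cases (pk g) pts8 with h | ⟨x, hx, h6, e⟩
  · exact absurd h h0
  obtain ⟨p, rfl⟩ := pts8_exists hx
  have hr := ret_sound (g := g) (p := p) (by omega)
  have e' : labW (pk g) = labAt (pk g) (8 * idx p) (ret (pk g) (8 * idx p)) := e
  generalize ret (pk g) (8 * idx p) = k at hr e' h6
  have hk : k = 11 ∨ k = 15 ∨ k = 21 ∨ k = 23 := by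
    by_contra hcon
    push Not at hcon
    rw [e', labAt_zero _ _ _ hcon.1 hcon.2.1 hcon.2.2.1 hcon.2.2.2] at h0
    exact h0 rfl
  exact ⟨p, k, hr, order_of_ret hg hr (by omega), e', hk⟩

theorem div15 : ∀ r, r ∣ 15 → 8 ≤ r → r = 15 := by
  intro r hr h8
  have := Nat.le_of_dvd (by norm_num) hr
  interval_cases r <;> first | rfl | (exfalso; revert hr; decide)

theorem div21 : ∀ r, r ∣ 21 → 8 ≤ r → r = 21 := by
  intro r hr h8
  have := Nat.le_of_dvd (by norm_num) hr
  interval_cases r <;> first | rfl | (exfalso; revert hr; decide)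

theorem div23 : ∀ r, r ∣ 23 → 8 ≤ r → r = 23 := by
  intro r hr h8
  have := Nat.le_of_dvd (by norm_num) hr
  interval_cases r <;> first | rfl | (exfalso; revert hr; decide)

theorem lab_pair {g : Equiv.Perm GolayPt} {p : GolayPt} {k a : Nat} {steps : List Nat}
    (hg : g ∈ M24) (hr : IsRet g p k) (hord : orderOf g = k) (h13 : 13 ≤ k)
    (hdiv : ∀ r, r ∣ k → 8 ≤ r → r = k)
    (e : labW (pk g) = cond (octT.mem (omask (pk g) steps (8 * idx p))) a (a + 1)) :
    (labW (pk g) = a → InvG steps g) ∧ (labW (pk g) = a + 1 → ¬ InvG steps g) := by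
  have hiff := (InvG_iff_of_ret (steps := steps) hg hr hord h13 hdiv).trans
    (octTest_iff g steps p).symm
  cases hb : octT.mem (omask (pk g) steps (8 * idx p))
  · rw [hb] at e hiff
    simp only [cond_false] at e
    refine ⟨fun h => ?_, fun _ hI => ?_⟩
    · omega
    · exact absurd (hiff.mp hI) (by simp)
  · rw [hb] at e hiff
    simp only [cond_true] at e
    refine ⟨fun _ => hiff.mpr rfl, fun h => ?_⟩
    omega

/-- The meaning of the labels. -/
theorem lab_sound {g : Equiv.Perm GolayPt} (hg : g ∈ M24) :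
    (labW (pk g) = 1 → orderOf g = 11) ∧
    (labW (pk g) = 2 → orderOf g = 15 ∧ InvG E15 g) ∧
    (labW (pk g) = 3 → orderOf g = 15 ∧ ¬ InvG E15 g) ∧
    (labW (pk g) = 4 → orderOf g = 21 ∧ InvG E21 g) ∧
    (labW (pk g) = 5 → orderOf g = 21 ∧ ¬ InvG E21 g) ∧
    (labW (pk g) = 6 → orderOf g = 23 ∧ InvG E23 g) ∧
    (labW (pk g) = 7 → orderOf g = 23 ∧ ¬ InvG E23 g) := by
  by_cases h0 : labW (pk g) = 0
  · rw [h0]
    refine ⟨?_, ?_, ?_, ?_, ?_, ?_, ?_⟩ <;> intro h <;> exact absurd h (by norm_num)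
  obtain ⟨p, k, hr, hord, e, hk⟩ := labW_spec hg h0
  rcases hk with rfl | rfl | rfl | rfl
  · rw [labAt_11] at e
    rw [e]
    refine ⟨fun _ => hord, ?_, ?_, ?_, ?_, ?_, ?_⟩ <;> intro h <;> exact absurd h (by norm_num)
  · rw [labAt_15] at e
    have hp := lab_pair hg hr hord (by norm_num) div15 e
    have hv : labW (pk g) = 2 ∨ labW (pk g) = 3 := by
      rw [e]; cases octT.mem (omask (pk g) E15 (8 * idx p)) <;> simp
    refine ⟨?_, fun h => ⟨hord, hp.1 h⟩, fun h => ⟨hord, hp.2 h⟩, ?_, ?_, ?_, ?_⟩ <;>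
      intro h <;> omega
  · rw [labAt_21] at e
    have hp := lab_pair hg hr hord (by norm_num) div21 e
    have hv : labW (pk g) = 4 ∨ labW (pk g) = 5 := by
      rw [e]; cases octT.mem (omask (pk g) E21 (8 * idx p)) <;> simp
    refine ⟨?_, ?_, ?_, fun h => ⟨hord, hp.1 h⟩, fun h => ⟨hord, hp.2 h⟩, ?_, ?_⟩ <;>
      intro h <;> omega
  · rw [labAt_23] at e
    have hp := lab_pair hg hr hord (by norm_num) div23 e
    have hv : labW (pk g) = 6 ∨ labW (pk g) = 7 := by
      rw [e]; cases octT.mem (omask (pk g) E23 (8 * idx p)) <;> simp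
    refine ⟨?_, ?_, ?_, ?_, ?_, fun h => ⟨hord, hp.1 h⟩, fun h => ⟨hord, hp.2 h⟩⟩ <;>
      intro h <;> omega

/-! ### Completeness -/

theorem cover_two {g : Equiv.Perm GolayPt} (hg : g ∈ M24) (a b : Nat)
    (h : ∀ p, (g ^ a) p = p ∨ (g ^ b) p = p) : g ^ a = 1 ∨ g ^ b = 1 := by
  have hcov : Finset.univ ⊆ fixedPts (g ^ a) ∪ fixedPts (g ^ b) := fun p _ => by
    rw [Finset.mem_union, mem_fixedPts, mem_fixedPts]; exact h p
  have hc := Finset.card_le_card hcov
  rw [Finset.card_univ, card_golayPt] at hc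
  have hc2 := Finset.card_union_le (fixedPts (g ^ a)) (fixedPts (g ^ b))
  have : 9 ≤ (fixedPts (g ^ a)).card ∨ 9 ≤ (fixedPts (g ^ b)).card := by omega
  rcases this with h9 | h9
  · exact Or.inl (eq_one_of_fix_nine (M24.pow_mem hg a) h9)
  · exact Or.inr (eq_one_of_fix_nine (M24.pow_mem hg b) h9)

/-- An element of order 11, 15, 21, 23 has a cycle whose length is the order. -/
theorem exists_full {g : Equiv.Perm GolayPt} (hg : g ∈ M24)
    (h : orderOf g = 11 ∨ orderOf g = 15 ∨ orderOf g = 21 ∨ orderOf g = 23) :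
    ∃ p, IsRet g p (orderOf g) := by
  by_contra hcon
  push Not at hcon
  have hn1 : g ^ orderOf g = 1 := pow_orderOf_eq_one g
  have hn24 : 0 < orderOf g ∧ orderOf g ≤ 24 := by rcases h with h | h | h | h <;> omega
  have hret : ∀ p, IsRet g p (ret (pk g) (8 * idx p)) := fun p =>
    ret_sound (ret_complete hn24.1 hn24.2 (by rw [hn1]; rfl))
  have hdvd : ∀ p, ret (pk g) (8 * idx p) ∣ orderOf g := fun p =>
    (hret p).dvd (by rw [hn1]; rfl)
  have hne : ∀ p, ret (pk g) (8 * idx p) ≠ orderOf g := fun p e => hcon p (e ▸ hret p)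
  have hnd : ∀ m : Nat, ¬ orderOf g ∣ m → g ^ m ≠ 1 := fun m hm e =>
    hm (orderOf_dvd_of_pow_eq_one e)
  -- the small divisors
  have key : ∀ (a b : Nat), (∀ r, r ∣ orderOf g → r ≠ orderOf g → r ∣ a ∨ r ∣ b) →
      g ^ a = 1 ∨ g ^ b = 1 := by
    intro a b hab
    apply cover_two hg
    intro p
    rcases hab _ (hdvd p) (hne p) with hd | hd
    · left
      obtain ⟨c, rfl⟩ := hd
      have := (hret p).pow_mod (ret (pk g) (8 * idx p) * c)
      rw [Nat.mul_mod_right] at this
      rw [this]; rfl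
    · right
      obtain ⟨c, rfl⟩ := hd
      have := (hret p).pow_mod (ret (pk g) (8 * idx p) * c)
      rw [Nat.mul_mod_right] at this
      rw [this]; rfl
  rcases h with h | h | h | h
  · have := key 1 1 (by
      rw [h]; intro r hr hne
      have := Nat.le_of_dvd (by norm_num) hr
      interval_cases r <;> first | (left; decide) | (exfalso; revert hr; decide) | exact absurd rfl hne)
    rcases this with e | e <;> exact hnd 1 (by rw [h]; norm_num) e
  · have := key 3 5 (by
      rw [h]; intro r hr hne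
      have := Nat.le_of_dvd (by norm_num) hr
      interval_cases r <;> first | (left; decide) | (right; decide) | (exfalso; revert hr; decide) | exact absurd rfl hne)
    rcases this with e | e
    · exact hnd 3 (by rw [h]; norm_num) e
    · exact hnd 5 (by rw [h]; norm_num) e
  · have := key 3 7 (by
      rw [h]; intro r hr hne
      have := Nat.le_of_dvd (by norm_num) hr
      interval_cases r <;> first | (left; decide) | (right; decide) | (exfalso; revert hr; decide) | exact absurd rfl hne)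
    rcases this with e | e
    · exact hnd 3 (by rw [h]; norm_num) e
    · exact hnd 7 (by rw [h]; norm_num) e
  · have := key 1 1 (by
      rw [h]; intro r hr hne
      have := Nat.le_of_dvd (by norm_num) hr
      interval_cases r <;> first | (left; decide) | (exfalso; revert hr; decide) | exact absurd rfl hne)
    rcases this with e | e <;> exact hnd 1 (by rw [h]; norm_num) e

/-- Elements of order 11, 15, 21, 23 have a nonzero label. -/
theorem labW_ne_zero {g : Equiv.Perm GolayPt} (hg : g ∈ M24)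
    (h : orderOf g = 11 ∨ orderOf g = 15 ∨ orderOf g = 21 ∨ orderOf g = 23) :
    labW (pk g) ≠ 0 := by
  obtain ⟨p0, hp0⟩ := exists_full hg h
  have hn1 : g ^ orderOf g = 1 := pow_orderOf_eq_one g
  have hn24 : 0 < orderOf g ∧ orderOf g ≤ 24 := by rcases h with h | h | h | h <;> omega
  have hp0r : ret (pk g) (8 * idx p0) = orderOf g := by
    have h1 := ret_sound (g := g) (p := p0) (ret_complete hn24.1 hn24.2 (by rw [hn1]; rfl))
    have h2 := h1.dvd hp0.2.1
    have h3 := hp0.dvd h1.2.1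
    exact Nat.dvd_antisymm h2 h3
  obtain ⟨x, hx, h6, e⟩ := labL_of_exists (pk g) pts8
    ⟨8 * idx p0, mem_pts8 p0, by rw [hp0r]; rcases h with h | h | h | h <;> omega⟩
  obtain ⟨q, rfl⟩ := pts8_exists hx
  have hr := ret_sound (g := g) (p := q) (by omega)
  have e' : labW (pk g) = labAt (pk g) (8 * idx q) (ret (pk g) (8 * idx q)) := e
  have hdv : ret (pk g) (8 * idx q) ∣ orderOf g := hr.dvd (by rw [hn1]; rfl)
  generalize ret (pk g) (8 * idx q) = k at hr e' h6 hdv
  -- `k ≥ 9`, otherwise `k = 7` and the order is 21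
  have h9 : 9 ≤ k := by
    by_contra hlt
    have hk : k = 7 ∨ k = 8 := by omega
    have h21 : orderOf g = 21 ∧ k = 7 := by
      rcases hk with rfl | rfl <;> rcases h with h | h | h | h <;> rw [h] at hdv ⊢ <;>
        first | exact ⟨rfl, rfl⟩ | (exfalso; revert hdv; decide)
    obtain ⟨h21, rfl⟩ := h21
    rw [h21] at hp0
    have hdisj : Disjoint (fixedPts (g ^ 7)) (orb g p0 21) := by
      rw [Finset.disjoint_left]
      intro z hz1 hz2
      obtain ⟨j, -, rfl⟩ := Finset.mem_image.mp hz2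
      rw [mem_fixedPts, ← Equiv.Perm.mul_apply, ← pow_add, add_comm, pow_add,
        Equiv.Perm.mul_apply] at hz1
      exact hp0.2.2 7 (by norm_num) (by norm_num) ((g ^ j).injective hz1)
    have hsub := orb_subset_fixed hr
    have h1 := Finset.card_le_card hsub
    rw [card_orb hr] at h1
    have h2 := Finset.card_union_of_disjoint hdisj
    have h3 := Finset.card_le_univ (fixedPts (g ^ 7) ∪ orb g p0 21)
    rw [h2, card_orb hp0, card_golayPt] at h3
    omega
  have hord := order_of_ret hg hr h9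
  rw [e']
  rcases h with h | h | h | h
  · have : k = 11 := by omega
    subst this; rw [labAt_11]; norm_num
  · have : k = 15 := by omega
    subst this; rw [labAt_15]; cases octT.mem (omask (pk g) E15 (8 * idx q)) <;> simp
  · have : k = 21 := by omega
    subst this; rw [labAt_21]; cases octT.mem (omask (pk g) E21 (8 * idx q)) <;> simp
  · have : k = 23 := by omega
    subst this; rw [labAt_23]; cases octT.mem (omask (pk g) E23 (8 * idx q)) <;> simp

/-! ### A bound -/

theorem cond_le {b : Bool} {x y n : Nat} (hx : x ≤ n) (hy : y ≤ n) : cond b x y ≤ n := by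
  cases b
  · exact hy
  · exact hx

theorem labAt_le (c x k : Nat) : labAt c x k ≤ 7 := by
  unfold labAt
  exact cond_le (by norm_num) (cond_le (cond_le (by norm_num) (by norm_num))
    (cond_le (cond_le (by norm_num) (by norm_num))
      (cond_le (cond_le (by norm_num) (by norm_num)) (by norm_num))))

theorem labW_le (c : Nat) : labW c ≤ 7 := by
  rcases labL_cases c pts8 with h | ⟨x, -, -, e⟩
  · have : labW c = 0 := h
    omega
  · have : labW c = labAt c x (ret c x) := e
    rw [this]; exact labAt_le _ _ _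

end Cfsg.Agent.Lib.Helper35.M24WS
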