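import Mathlib
import Cfsg.Agent.Lib.Helper35.M24BlkElts
import Cfsg.Agent.Lib.Helper35.M24WS

/-!
# S5006: explicit facts about the elements `r11, r15, r21, r23` of `M24`

Orders, elements normalising the cyclic subgroups, commuting involutions, the class invariants
and the square roots used in the parity count.
-/

set_option autoImplicit false
set_option Elab.async false
set_option linter.unusedSimpArgs false

namespace Cfsg.Agent.Lib.Helper35.M24BlkData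

open Cfsg Cfsg.Agent.Lib.Helper7.GolayBase Cfsg.Agent.Lib.Helper7.GolayPerm
  Cfsg.Agent.Lib.Helper35.PermTab Cfsg.Agent.Lib.Helper35.M24P Cfsg.Agent.Lib.Helper35.M24D
  Cfsg.Agent.Lib.Helper35.M24V Cfsg.Agent.Lib.Helper35.M24Lab Cfsg.Agent.Lib.Helper35.M24W
  Cfsg.Agent.Lib.Helper35.M24WS Cfsg.Agent.Lib.Helper35.M24BlkElts

def n11P : Nat := 796167457348969257249944578191586651465998003960013674648
def n11P' : Nat := 1571610270402774628672666230042446670432321568921537749048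

theorem ex_n11 : ∃ g : Equiv.Perm GolayPt, g ∈ M24 ∧ pk g = n11P ∧ pk g⁻¹ = n11P' :=
  vP_sound (by decide +kernel)

noncomputable def n11 : Equiv.Perm GolayPt := ex_n11.choose

theorem n11_mem : n11 ∈ M24 := ex_n11.choose_spec.1
theorem pk_n11 : pk n11 = n11P := ex_n11.choose_spec.2.1
theorem pk_n11_inv : pk n11⁻¹ = n11P' := ex_n11.choose_spec.2.2

def n23P : Nat := 2331867518560436940628667485286216561071255296984246288
def n23P' : Nat := 2366194196621690820315349685678482009305095653468378517688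

theorem ex_n23 : ∃ g : Equiv.Perm GolayPt, g ∈ M24 ∧ pk g = n23P ∧ pk g⁻¹ = n23P' :=
  vP_sound (by decide +kernel)

noncomputable def n23 : Equiv.Perm GolayPt := ex_n23.choose

theorem n23_mem : n23 ∈ M24 := ex_n23.choose_spec.1
theorem pk_n23 : pk n23 = n23P := ex_n23.choose_spec.2.1
theorem pk_n23_inv : pk n23⁻¹ = n23P' := ex_n23.choose_spec.2.2

def n15P : Nat := 13849436009064311965923501610598739530482206877826988048
def n15P' : Nat := 205411390310919163384824768312149836111482869558246641848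

theorem ex_n15 : ∃ g : Equiv.Perm GolayPt, g ∈ M24 ∧ pk g = n15P ∧ pk g⁻¹ = n15P' :=
  vP_sound (by decide +kernel)

noncomputable def n15 : Equiv.Perm GolayPt := ex_n15.choose

theorem n15_mem : n15 ∈ M24 := ex_n15.choose_spec.1
theorem pk_n15 : pk n15 = n15P := ex_n15.choose_spec.2.1
theorem pk_n15_inv : pk n15⁻¹ = n15P' := ex_n15.choose_spec.2.2

def c21P : Nat := 9994228574113621913087362699755245279950636734404390928
def c21P' : Nat := 406895607424893317015698266160286675479661981912897951928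

theorem ex_c21 : ∃ g : Equiv.Perm GolayPt, g ∈ M24 ∧ pk g = c21P ∧ pk g⁻¹ = c21P' :=
  vP_sound (by decide +kernel)

noncomputable def c21 : Equiv.Perm GolayPt := ex_c21.choose

theorem c21_mem : c21 ∈ M24 := ex_c21.choose_spec.1
theorem pk_c21 : pk c21 = c21P := ex_c21.choose_spec.2.1
theorem pk_c21_inv : pk c21⁻¹ = c21P' := ex_c21.choose_spec.2.2

def u5P : Nat := 790776678828499112581156536436393086804238967448616859808
def u5P' : Nat := 790776678828499112581156536436393086804238967448616859808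

theorem ex_u5 : ∃ g : Equiv.Perm GolayPt, g ∈ M24 ∧ pk g = u5P ∧ pk g⁻¹ = u5P' :=
  vP_sound (by decide +kernel)

noncomputable def u5 : Equiv.Perm GolayPt := ex_u5.choose

theorem u5_mem : u5 ∈ M24 := ex_u5.choose_spec.1
theorem pk_u5 : pk u5 = u5P := ex_u5.choose_spec.2.1
theorem pk_u5_inv : pk u5⁻¹ = u5P' := ex_u5.choose_spec.2.2

def u7P : Nat := 1193877082003800680459702556381413335979173634119346710608
def u7P' : Nat := 1193877082003800680459702556381413335979173634119346710608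

theorem ex_u7 : ∃ g : Equiv.Perm GolayPt, g ∈ M24 ∧ pk g = u7P ∧ pk g⁻¹ = u7P' :=
  vP_sound (by decide +kernel)

noncomputable def u7 : Equiv.Perm GolayPt := ex_u7.choose

theorem u7_mem : u7 ∈ M24 := ex_u7.choose_spec.1
theorem pk_u7 : pk u7 = u7P := ex_u7.choose_spec.2.1
theorem pk_u7_inv : pk u7⁻¹ = u7P' := ex_u7.choose_spec.2.2

theorem r11_pow : r11 ^ 11 = 1 := by
  apply pk_injective
  simp only [pk_mul, pk_pow, pk_one, pk_r11, pk_r11_inv, pk_r15, pk_r15_inv, pk_r21, pk_r21_inv, pk_r23, pk_r23_inv, pk_n11, pk_n11_inv, pk_n23, pk_n23_inv, pk_n15, pk_n15_inv, pk_c21, pk_c21_inv, pk_u5, pk_u5_inv, pk_u7, pk_u7_inv]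
  decide +kernel

theorem r11_ne : r11 ≠ 1 := by
  intro h
  have h2 := congrArg pk h
  simp only [pk_mul, pk_pow, pk_one, pk_r11, pk_r11_inv, pk_r15, pk_r15_inv, pk_r21, pk_r21_inv, pk_r23, pk_r23_inv, pk_n11, pk_n11_inv, pk_n23, pk_n23_inv, pk_n15, pk_n15_inv, pk_c21, pk_c21_inv, pk_u5, pk_u5_inv, pk_u7, pk_u7_inv] at h2
  exact absurd h2 (by decide +kernel)

theorem r23_pow : r23 ^ 23 = 1 := by
  apply pk_injective
  simp only [pk_mul, pk_pow, pk_one, pk_r11, pk_r11_inv, pk_r15, pk_r15_inv, pk_r21, pk_r21_inv, pk_r23, pk_r23_inv, pk_n11, pk_n11_inv, pk_n23, pk_n23_inv, pk_n15, pk_n15_inv, pk_c21, pk_c21_inv, pk_u5, pk_u5_inv, pk_u7, pk_u7_inv]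
  decide +kernel

theorem r23_ne : r23 ≠ 1 := by
  intro h
  have h2 := congrArg pk h
  simp only [pk_mul, pk_pow, pk_one, pk_r11, pk_r11_inv, pk_r15, pk_r15_inv, pk_r21, pk_r21_inv, pk_r23, pk_r23_inv, pk_n11, pk_n11_inv, pk_n23, pk_n23_inv, pk_n15, pk_n15_inv, pk_c21, pk_c21_inv, pk_u5, pk_u5_inv, pk_u7, pk_u7_inv] at h2
  exact absurd h2 (by decide +kernel)

theorem r15_pow : r15 ^ 15 = 1 := by
  apply pk_injective
  simp only [pk_mul, pk_pow, pk_one, pk_r11, pk_r11_inv, pk_r15, pk_r15_inv, pk_r21, pk_r21_inv, pk_r23, pk_r23_inv, pk_n11, pk_n11_inv, pk_n23, pk_n23_inv, pk_n15, pk_n15_inv, pk_c21, pk_c21_inv, pk_u5, pk_u5_inv, pk_u7, pk_u7_inv]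
  decide +kernel

theorem r15_ne3 : r15 ^ 3 ≠ 1 := by
  intro h
  have h2 := congrArg pk h
  simp only [pk_mul, pk_pow, pk_one, pk_r11, pk_r11_inv, pk_r15, pk_r15_inv, pk_r21, pk_r21_inv, pk_r23, pk_r23_inv, pk_n11, pk_n11_inv, pk_n23, pk_n23_inv, pk_n15, pk_n15_inv, pk_c21, pk_c21_inv, pk_u5, pk_u5_inv, pk_u7, pk_u7_inv] at h2
  exact absurd h2 (by decide +kernel)

theorem r15_ne5 : r15 ^ 5 ≠ 1 := by
  intro h
  have h2 := congrArg pk h
  simp only [pk_mul, pk_pow, pk_one, pk_r11, pk_r11_inv, pk_r15, pk_r15_inv, pk_r21, pk_r21_inv, pk_r23, pk_r23_inv, pk_n11, pk_n11_inv, pk_n23, pk_n23_inv, pk_n15, pk_n15_inv, pk_c21, pk_c21_inv, pk_u5, pk_u5_inv, pk_u7, pk_u7_inv] at h2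
  exact absurd h2 (by decide +kernel)

theorem r21_pow : r21 ^ 21 = 1 := by
  apply pk_injective
  simp only [pk_mul, pk_pow, pk_one, pk_r11, pk_r11_inv, pk_r15, pk_r15_inv, pk_r21, pk_r21_inv, pk_r23, pk_r23_inv, pk_n11, pk_n11_inv, pk_n23, pk_n23_inv, pk_n15, pk_n15_inv, pk_c21, pk_c21_inv, pk_u5, pk_u5_inv, pk_u7, pk_u7_inv]
  decide +kernel

theorem r21_ne3 : r21 ^ 3 ≠ 1 := by
  intro h
  have h2 := congrArg pk h
  simp only [pk_mul, pk_pow, pk_one, pk_r11, pk_r11_inv, pk_r15, pk_r15_inv, pk_r21, pk_r21_inv, pk_r23, pk_r23_inv, pk_n11, pk_n11_inv, pk_n23, pk_n23_inv, pk_n15, pk_n15_inv, pk_c21, pk_c21_inv, pk_u5, pk_u5_inv, pk_u7, pk_u7_inv] at h2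
  exact absurd h2 (by decide +kernel)

theorem r21_ne7 : r21 ^ 7 ≠ 1 := by
  intro h
  have h2 := congrArg pk h
  simp only [pk_mul, pk_pow, pk_one, pk_r11, pk_r11_inv, pk_r15, pk_r15_inv, pk_r21, pk_r21_inv, pk_r23, pk_r23_inv, pk_n11, pk_n11_inv, pk_n23, pk_n23_inv, pk_n15, pk_n15_inv, pk_c21, pk_c21_inv, pk_u5, pk_u5_inv, pk_u7, pk_u7_inv] at h2
  exact absurd h2 (by decide +kernel)

theorem r5_pow : (r15 ^ 3) ^ 5 = 1 := by
  apply pk_injective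
  simp only [pk_mul, pk_pow, pk_one, pk_r11, pk_r11_inv, pk_r15, pk_r15_inv, pk_r21, pk_r21_inv, pk_r23, pk_r23_inv, pk_n11, pk_n11_inv, pk_n23, pk_n23_inv, pk_n15, pk_n15_inv, pk_c21, pk_c21_inv, pk_u5, pk_u5_inv, pk_u7, pk_u7_inv]
  decide +kernel

theorem r7_pow : (r21 ^ 3) ^ 7 = 1 := by
  apply pk_injective
  simp only [pk_mul, pk_pow, pk_one, pk_r11, pk_r11_inv, pk_r15, pk_r15_inv, pk_r21, pk_r21_inv, pk_r23, pk_r23_inv, pk_n11, pk_n11_inv, pk_n23, pk_n23_inv, pk_n15, pk_n15_inv, pk_c21, pk_c21_inv, pk_u5, pk_u5_inv, pk_u7, pk_u7_inv]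
  decide +kernel

theorem n11_conj : n11 * r11 * n11⁻¹ = r11 ^ 2 := by
  apply pk_injective
  simp only [pk_mul, pk_pow, pk_one, pk_r11, pk_r11_inv, pk_r15, pk_r15_inv, pk_r21, pk_r21_inv, pk_r23, pk_r23_inv, pk_n11, pk_n11_inv, pk_n23, pk_n23_inv, pk_n15, pk_n15_inv, pk_c21, pk_c21_inv, pk_u5, pk_u5_inv, pk_u7, pk_u7_inv]
  decide +kernel

theorem n23_conj : n23 * r23 * n23⁻¹ = r23 ^ 2 := by
  apply pk_injective
  simp only [pk_mul, pk_pow, pk_one, pk_r11, pk_r11_inv, pk_r15, pk_r15_inv, pk_r21, pk_r21_inv, pk_r23, pk_r23_inv, pk_n11, pk_n11_inv, pk_n23, pk_n23_inv, pk_n15, pk_n15_inv, pk_c21, pk_c21_inv, pk_u5, pk_u5_inv, pk_u7, pk_u7_inv]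
  decide +kernel

theorem n15_conj : n15 * r15 ^ 3 * n15⁻¹ = (r15 ^ 3) ^ 2 := by
  apply pk_injective
  simp only [pk_mul, pk_pow, pk_one, pk_r11, pk_r11_inv, pk_r15, pk_r15_inv, pk_r21, pk_r21_inv, pk_r23, pk_r23_inv, pk_n11, pk_n11_inv, pk_n23, pk_n23_inv, pk_n15, pk_n15_inv, pk_c21, pk_c21_inv, pk_u5, pk_u5_inv, pk_u7, pk_u7_inv]
  decide +kernel

theorem c21_conj : c21 * r21 * c21⁻¹ = r21 ^ 2 := by
  apply pk_injective
  simp only [pk_mul, pk_pow, pk_one, pk_r11, pk_r11_inv, pk_r15, pk_r15_inv, pk_r21, pk_r21_inv, pk_r23, pk_r23_inv, pk_n11, pk_n11_inv, pk_n23, pk_n23_inv, pk_n15, pk_n15_inv, pk_c21, pk_c21_inv, pk_u5, pk_u5_inv, pk_u7, pk_u7_inv]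
  decide +kernel

theorem u5_sq : u5 * u5 = 1 := by
  apply pk_injective
  simp only [pk_mul, pk_pow, pk_one, pk_r11, pk_r11_inv, pk_r15, pk_r15_inv, pk_r21, pk_r21_inv, pk_r23, pk_r23_inv, pk_n11, pk_n11_inv, pk_n23, pk_n23_inv, pk_n15, pk_n15_inv, pk_c21, pk_c21_inv, pk_u5, pk_u5_inv, pk_u7, pk_u7_inv]
  decide +kernel

theorem u5_ne : u5 ≠ 1 := by
  intro h
  have h2 := congrArg pk h
  simp only [pk_mul, pk_pow, pk_one, pk_r11, pk_r11_inv, pk_r15, pk_r15_inv, pk_r21, pk_r21_inv, pk_r23, pk_r23_inv, pk_n11, pk_n11_inv, pk_n23, pk_n23_inv, pk_n15, pk_n15_inv, pk_c21, pk_c21_inv, pk_u5, pk_u5_inv, pk_u7, pk_u7_inv] at h2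
  exact absurd h2 (by decide +kernel)

theorem u5_comm : u5 * r15 ^ 3 = r15 ^ 3 * u5 := by
  apply pk_injective
  simp only [pk_mul, pk_pow, pk_one, pk_r11, pk_r11_inv, pk_r15, pk_r15_inv, pk_r21, pk_r21_inv, pk_r23, pk_r23_inv, pk_n11, pk_n11_inv, pk_n23, pk_n23_inv, pk_n15, pk_n15_inv, pk_c21, pk_c21_inv, pk_u5, pk_u5_inv, pk_u7, pk_u7_inv]
  decide +kernel

theorem u7_sq : u7 * u7 = 1 := by
  apply pk_injective
  simp only [pk_mul, pk_pow, pk_one, pk_r11, pk_r11_inv, pk_r15, pk_r15_inv, pk_r21, pk_r21_inv, pk_r23, pk_r23_inv, pk_n11, pk_n11_inv, pk_n23, pk_n23_inv, pk_n15, pk_n15_inv, pk_c21, pk_c21_inv, pk_u5, pk_u5_inv, pk_u7, pk_u7_inv]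
  decide +kernel

theorem u7_ne : u7 ≠ 1 := by
  intro h
  have h2 := congrArg pk h
  simp only [pk_mul, pk_pow, pk_one, pk_r11, pk_r11_inv, pk_r15, pk_r15_inv, pk_r21, pk_r21_inv, pk_r23, pk_r23_inv, pk_n11, pk_n11_inv, pk_n23, pk_n23_inv, pk_n15, pk_n15_inv, pk_c21, pk_c21_inv, pk_u5, pk_u5_inv, pk_u7, pk_u7_inv] at h2
  exact absurd h2 (by decide +kernel)

theorem u7_comm : u7 * r21 ^ 3 = r21 ^ 3 * u7 := by
  apply pk_injective
  simp only [pk_mul, pk_pow, pk_one, pk_r11, pk_r11_inv, pk_r15, pk_r15_inv, pk_r21, pk_r21_inv, pk_r23, pk_r23_inv, pk_n11, pk_n11_inv, pk_n23, pk_n23_inv, pk_n15, pk_n15_inv, pk_c21, pk_c21_inv, pk_u5, pk_u5_inv, pk_u7, pk_u7_inv]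
  decide +kernel

theorem r11_ord : orderOf r11 = 11 := by
  have : Fact (Nat.Prime 11) := ⟨by norm_num⟩
  exact orderOf_eq_prime r11_pow r11_ne

theorem r23_ord : orderOf r23 = 23 := by
  have : Fact (Nat.Prime 23) := ⟨by norm_num⟩
  exact orderOf_eq_prime r23_pow r23_ne

theorem r15_ord : orderOf r15 = 15 := ord_of_two (by norm_num) primes15 r15_pow r15_ne5 r15_ne3

theorem r21_ord : orderOf r21 = 21 := ord_of_two (by norm_num) primes21 r21_pow r21_ne7 r21_ne3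

theorem r5_ord : orderOf (r15 ^ 3) = 5 := by
  have : Fact (Nat.Prime 5) := ⟨by norm_num⟩
  exact orderOf_eq_prime r5_pow r15_ne3

theorem r7_ord : orderOf (r21 ^ 3) = 7 := by
  have : Fact (Nat.Prime 7) := ⟨by norm_num⟩
  exact orderOf_eq_prime r7_pow r21_ne3

theorem u5_ord : orderOf u5 = 2 := by
  have : Fact (Nat.Prime 2) := ⟨Nat.prime_two⟩
  exact orderOf_eq_prime (by rw [pow_two]; exact u5_sq) u5_ne

theorem u7_ord : orderOf u7 = 2 := by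
  have : Fact (Nat.Prime 2) := ⟨Nat.prime_two⟩
  exact orderOf_eq_prime (by rw [pow_two]; exact u7_sq) u7_ne

theorem lab_r11 : labW (pk (r11)) = 1 := by
  simp only [pk_mul, pk_pow, pk_one, pk_r11, pk_r11_inv, pk_r15, pk_r15_inv, pk_r21, pk_r21_inv, pk_r23, pk_r23_inv, pk_n11, pk_n11_inv, pk_n23, pk_n23_inv, pk_n15, pk_n15_inv, pk_c21, pk_c21_inv, pk_u5, pk_u5_inv, pk_u7, pk_u7_inv]
  decide +kernel

theorem lab_r15 : labW (pk (r15)) = 2 := by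
  simp only [pk_mul, pk_pow, pk_one, pk_r11, pk_r11_inv, pk_r15, pk_r15_inv, pk_r21, pk_r21_inv, pk_r23, pk_r23_inv, pk_n11, pk_n11_inv, pk_n23, pk_n23_inv, pk_n15, pk_n15_inv, pk_c21, pk_c21_inv, pk_u5, pk_u5_inv, pk_u7, pk_u7_inv]
  decide +kernel

theorem lab_r15b : labW (pk (r15 ^ 11)) = 3 := by
  simp only [pk_mul, pk_pow, pk_one, pk_r11, pk_r11_inv, pk_r15, pk_r15_inv, pk_r21, pk_r21_inv, pk_r23, pk_r23_inv, pk_n11, pk_n11_inv, pk_n23, pk_n23_inv, pk_n15, pk_n15_inv, pk_c21, pk_c21_inv, pk_u5, pk_u5_inv, pk_u7, pk_u7_inv]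
  decide +kernel

theorem lab_r21 : labW (pk (r21)) = 4 := by
  simp only [pk_mul, pk_pow, pk_one, pk_r11, pk_r11_inv, pk_r15, pk_r15_inv, pk_r21, pk_r21_inv, pk_r23, pk_r23_inv, pk_n11, pk_n11_inv, pk_n23, pk_n23_inv, pk_n15, pk_n15_inv, pk_c21, pk_c21_inv, pk_u5, pk_u5_inv, pk_u7, pk_u7_inv]
  decide +kernel

theorem lab_r21b : labW (pk (r21⁻¹)) = 5 := by
  simp only [pk_mul, pk_pow, pk_one, pk_r11, pk_r11_inv, pk_r15, pk_r15_inv, pk_r21, pk_r21_inv, pk_r23, pk_r23_inv, pk_n11, pk_n11_inv, pk_n23, pk_n23_inv, pk_n15, pk_n15_inv, pk_c21, pk_c21_inv, pk_u5, pk_u5_inv, pk_u7, pk_u7_inv]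
  decide +kernel

theorem lab_r23 : labW (pk (r23)) = 6 := by
  simp only [pk_mul, pk_pow, pk_one, pk_r11, pk_r11_inv, pk_r15, pk_r15_inv, pk_r21, pk_r21_inv, pk_r23, pk_r23_inv, pk_n11, pk_n11_inv, pk_n23, pk_n23_inv, pk_n15, pk_n15_inv, pk_c21, pk_c21_inv, pk_u5, pk_u5_inv, pk_u7, pk_u7_inv]
  decide +kernel

theorem lab_r23b : labW (pk (r23⁻¹)) = 7 := by
  simp only [pk_mul, pk_pow, pk_one, pk_r11, pk_r11_inv, pk_r15, pk_r15_inv, pk_r21, pk_r21_inv, pk_r23, pk_r23_inv, pk_n11, pk_n11_inv, pk_n23, pk_n23_inv, pk_n15, pk_n15_inv, pk_c21, pk_c21_inv, pk_u5, pk_u5_inv, pk_u7, pk_u7_inv]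
  decide +kernel

theorem inv_r15 : InvG E15 r15 := ((lab_sound r15_mem).2.1 lab_r15).2
theorem inv_r15b : ¬ InvG E15 (r15 ^ 11) :=
  ((lab_sound (M24.pow_mem r15_mem 11)).2.2.1 lab_r15b).2
theorem inv_r21 : InvG E21 r21 := ((lab_sound r21_mem).2.2.2.1 lab_r21).2
theorem inv_r21b : ¬ InvG E21 r21⁻¹ :=
  ((lab_sound (M24.inv_mem r21_mem)).2.2.2.2.1 lab_r21b).2
theorem inv_r23 : InvG E23 r23 := ((lab_sound r23_mem).2.2.2.2.2.1 lab_r23).2
theorem inv_r23b : ¬ InvG E23 r23⁻¹ :=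
  ((lab_sound (M24.inv_mem r23_mem)).2.2.2.2.2.2 lab_r23b).2

theorem sq0 : r11 ^ 6 * r11 ^ 6 = r11 := by
  apply pk_injective
  simp only [pk_mul, pk_pow, pk_one, pk_r11, pk_r11_inv, pk_r15, pk_r15_inv, pk_r21, pk_r21_inv, pk_r23, pk_r23_inv, pk_n11, pk_n11_inv, pk_n23, pk_n23_inv, pk_n15, pk_n15_inv, pk_c21, pk_c21_inv, pk_u5, pk_u5_inv, pk_u7, pk_u7_inv]
  decide +kernel

theorem pk_s0 : pk (r11 ^ 6) = 3350098273289109221001165388748088764542722966276057090168 := by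
  simp only [pk_mul, pk_pow, pk_one, pk_r11, pk_r11_inv, pk_r15, pk_r15_inv, pk_r21, pk_r21_inv, pk_r23, pk_r23_inv, pk_n11, pk_n11_inv, pk_n23, pk_n23_inv, pk_n15, pk_n15_inv, pk_c21, pk_c21_inv, pk_u5, pk_u5_inv, pk_u7, pk_u7_inv]
  decide +kernel

theorem sq1 : r15 ^ 8 * r15 ^ 8 = r15 := by
  apply pk_injective
  simp only [pk_mul, pk_pow, pk_one, pk_r11, pk_r11_inv, pk_r15, pk_r15_inv, pk_r21, pk_r21_inv, pk_r23, pk_r23_inv, pk_n11, pk_n11_inv, pk_n23, pk_n23_inv, pk_n15, pk_n15_inv, pk_c21, pk_c21_inv, pk_u5, pk_u5_inv, pk_u7, pk_u7_inv]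
  decide +kernel

theorem pk_s1 : pk (r15 ^ 8) = 1579305509311206397931676234868138363409759571860977633368 := by
  simp only [pk_mul, pk_pow, pk_one, pk_r11, pk_r11_inv, pk_r15, pk_r15_inv, pk_r21, pk_r21_inv, pk_r23, pk_r23_inv, pk_n11, pk_n11_inv, pk_n23, pk_n23_inv, pk_n15, pk_n15_inv, pk_c21, pk_c21_inv, pk_u5, pk_u5_inv, pk_u7, pk_u7_inv]
  decide +kernel

theorem sq2 : r15 ^ 13 * r15 ^ 13 = r15 ^ 11 := by
  apply pk_injective
  simp only [pk_mul, pk_pow, pk_one, pk_r11, pk_r11_inv, pk_r15, pk_r15_inv, pk_r21, pk_r21_inv, pk_r23, pk_r23_inv, pk_n11, pk_n11_inv, pk_n23, pk_n23_inv, pk_n15, pk_n15_inv, pk_c21, pk_c21_inv, pk_u5, pk_u5_inv, pk_u7, pk_u7_inv]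
  decide +kernel

theorem pk_s2 : pk (r15 ^ 13) = 3933179866849517013678756734503737141496718845705686909048 := by
  simp only [pk_mul, pk_pow, pk_one, pk_r11, pk_r11_inv, pk_r15, pk_r15_inv, pk_r21, pk_r21_inv, pk_r23, pk_r23_inv, pk_n11, pk_n11_inv, pk_n23, pk_n23_inv, pk_n15, pk_n15_inv, pk_c21, pk_c21_inv, pk_u5, pk_u5_inv, pk_u7, pk_u7_inv]
  decide +kernel

theorem sq3 : r21 ^ 11 * r21 ^ 11 = r21 := by
  apply pk_injective
  simp only [pk_mul, pk_pow, pk_one, pk_r11, pk_r11_inv, pk_r15, pk_r15_inv, pk_r21, pk_r21_inv, pk_r23, pk_r23_inv, pk_n11, pk_n11_inv, pk_n23, pk_n23_inv, pk_n15, pk_n15_inv, pk_c21, pk_c21_inv, pk_u5, pk_u5_inv, pk_u7, pk_u7_inv]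
  decide +kernel

theorem pk_s3 : pk (r21 ^ 11) = 786239137888711509588198548073688026687550302982769233968 := by
  simp only [pk_mul, pk_pow, pk_one, pk_r11, pk_r11_inv, pk_r15, pk_r15_inv, pk_r21, pk_r21_inv, pk_r23, pk_r23_inv, pk_n11, pk_n11_inv, pk_n23, pk_n23_inv, pk_n15, pk_n15_inv, pk_c21, pk_c21_inv, pk_u5, pk_u5_inv, pk_u7, pk_u7_inv]
  decide +kernel

theorem sq4 : r21 ^ 10 * r21 ^ 10 = r21⁻¹ := by
  apply pk_injective
  simp only [pk_mul, pk_pow, pk_one, pk_r11, pk_r11_inv, pk_r15, pk_r15_inv, pk_r21, pk_r21_inv, pk_r23, pk_r23_inv, pk_n11, pk_n11_inv, pk_n23, pk_n23_inv, pk_n15, pk_n15_inv, pk_c21, pk_c21_inv, pk_u5, pk_u5_inv, pk_u7, pk_u7_inv]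
  decide +kernel

theorem pk_s4 : pk (r21 ^ 10) = 4133945831498985137159385210646567562256870917708478185568 := by
  simp only [pk_mul, pk_pow, pk_one, pk_r11, pk_r11_inv, pk_r15, pk_r15_inv, pk_r21, pk_r21_inv, pk_r23, pk_r23_inv, pk_n11, pk_n11_inv, pk_n23, pk_n23_inv, pk_n15, pk_n15_inv, pk_c21, pk_c21_inv, pk_u5, pk_u5_inv, pk_u7, pk_u7_inv]
  decide +kernel

theorem sq5 : r23 ^ 12 * r23 ^ 12 = r23 := by
  apply pk_injective
  simp only [pk_mul, pk_pow, pk_one, pk_r11, pk_r11_inv, pk_r15, pk_r15_inv, pk_r21, pk_r21_inv, pk_r23, pk_r23_inv, pk_n11, pk_n11_inv, pk_n23, pk_n23_inv, pk_n15, pk_n15_inv, pk_c21, pk_c21_inv, pk_u5, pk_u5_inv, pk_u7, pk_u7_inv]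
  decide +kernel

theorem pk_s5 : pk (r23 ^ 12) = 1962399579803288668920817844754939479313865975287547205808 := by
  simp only [pk_mul, pk_pow, pk_one, pk_r11, pk_r11_inv, pk_r15, pk_r15_inv, pk_r21, pk_r21_inv, pk_r23, pk_r23_inv, pk_n11, pk_n11_inv, pk_n23, pk_n23_inv, pk_n15, pk_n15_inv, pk_c21, pk_c21_inv, pk_u5, pk_u5_inv, pk_u7, pk_u7_inv]
  decide +kernel

theorem sq6 : r23 ^ 11 * r23 ^ 11 = r23⁻¹ := by
  apply pk_injective
  simp only [pk_mul, pk_pow, pk_one, pk_r11, pk_r11_inv, pk_r15, pk_r15_inv, pk_r21, pk_r21_inv, pk_r23, pk_r23_inv, pk_n11, pk_n11_inv, pk_n23, pk_n23_inv, pk_n15, pk_n15_inv, pk_c21, pk_c21_inv, pk_u5, pk_u5_inv, pk_u7, pk_u7_inv]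
  decide +kernel

theorem pk_s6 : pk (r23 ^ 11) = 2353922305664790774652396626611191145206424413562899837008 := by
  simp only [pk_mul, pk_pow, pk_one, pk_r11, pk_r11_inv, pk_r15, pk_r15_inv, pk_r21, pk_r21_inv, pk_r23, pk_r23_inv, pk_n11, pk_n11_inv, pk_n23, pk_n23_inv, pk_n15, pk_n15_inv, pk_c21, pk_c21_inv, pk_u5, pk_u5_inv, pk_u7, pk_u7_inv]
  decide +kernel

end Cfsg.Agent.Lib.Helper35.M24BlkData
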