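-- Explicit elements of M24 for its Schur multiplier: a complement S of order 64 to the
-- elementary abelian group E in a Sylow 2-subgroup, elements of order three fixing prescribed
-- points of the octad fixed by E, and an extraspecial Sylow 3-subgroup with an inverting
-- involution.
import Cfsg.Agent.Lib.Helper35.M24MData
import Cfsg.Agent.Lib.Helper35.M23MElts
import Cfsg.Agent.Lib.Helper35.StemB

set_option autoImplicit false

namespace Cfsg.Agent.Lib.Helper35.M24MElts

open Cfsg Cfsg.Spor Cfsg.Agent.Lib.Helper7.GolayBase Cfsg.Agent.Lib.Helper7.GolayPerm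
  Cfsg.Agent.Lib.Helper35.PermTab Cfsg.Agent.Lib.Helper35.M23MElts
  Cfsg.Agent.Lib.Helper35.StemB
open scoped commutatorElement

theorem rows_rep : ∀ r ∈ M24MData.rows, ∃ g ∈ M24, Rep g r.2.2 := by
  intro r hr
  rw [Cfsg.Agent.Lib.Helper7.M24Main.M24_eq_H]
  exact chk_sound Cfsg.Agent.Lib.Helper7.M24Core.H Cfsg.Agent.Lib.Helper7.M24Data.tabs
    Cfsg.Agent.Lib.Helper7.M24Core.tabs_rep M24MData.rows [] (by simp) M24MData.rows_chk r hr

theorem ofT_spec24 {t : List Nat} (ht : t ∈ M24MData.rows.map (fun r => r.2.2)) :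
    ofT t ∈ M24 ∧ tab (ofT t) = t := by
  obtain ⟨r, hr, rfl⟩ := List.mem_map.mp ht
  obtain ⟨g, hg, hrep⟩ := rows_rep r hr
  rw [ofT_eq hrep]
  exact ⟨hg, (eq_tab_of_rep hrep).symm⟩

theorem apply_pt (g : Equiv.Perm GolayPt) {i : Nat} (hi : i < 24) :
    g (pt i) = pt ((tab g).getD i 0) := (rep_tab g).apply hi

/-- Generators of the complement. -/
noncomputable def u1 : Equiv.Perm GolayPt := ofT M24MData.t1T
/-- Generators of the complement. -/
noncomputable def u2 : Equiv.Perm GolayPt := ofT M24MData.t2T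
/-- Generators of the complement. -/
noncomputable def u3 : Equiv.Perm GolayPt := ofT M24MData.t3T
/-- Generator of the Sylow 3-subgroup. -/
noncomputable def a7 : Equiv.Perm GolayPt := ofT M24MData.aT
/-- Generator of the Sylow 3-subgroup. -/
noncomputable def b7 : Equiv.Perm GolayPt := ofT M24MData.bT
/-- The inverting involution. -/
noncomputable def t7 : Equiv.Perm GolayPt := ofT M24MData.tT

theorem u1_spec : u1 ∈ M24 ∧ tab u1 = M24MData.t1T := ofT_spec24 (by decide +kernel)
theorem u2_spec : u2 ∈ M24 ∧ tab u2 = M24MData.t2T := ofT_spec24 (by decide +kernel)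
theorem u3_spec : u3 ∈ M24 ∧ tab u3 = M24MData.t3T := ofT_spec24 (by decide +kernel)
theorem a7_spec : a7 ∈ M24 ∧ tab a7 = M24MData.aT := ofT_spec24 (by decide +kernel)
theorem b7_spec : b7 ∈ M24 ∧ tab b7 = M24MData.bT := ofT_spec24 (by decide +kernel)
theorem t7_spec : t7 ∈ M24 ∧ tab t7 = M24MData.tT := ofT_spec24 (by decide +kernel)

/-! ### The complement `S` -/

/-- A Sylow 2-subgroup of the stabiliser of the octad and a point outside it. -/
noncomputable def S : Subgroup (Equiv.Perm GolayPt) := Subgroup.closure {u1, u2, u3}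

theorem S_gens : ∀ g ∈ ({u1, u2, u3} : Set (Equiv.Perm GolayPt)),
    tab g ∈ [M24MData.t1T, M24MData.t2T, M24MData.t3T] := by
  rintro g (rfl | rfl | rfl)
  · rw [u1_spec.2]; simp
  · rw [u2_spec.2]; simp
  · rw [u3_spec.2]; simp

theorem S_gens' : ∀ t ∈ [M24MData.t1T, M24MData.t2T, M24MData.t3T],
    ∃ g ∈ ({u1, u2, u3} : Set (Equiv.Perm GolayPt)), tab g = t := by
  intro t ht
  simp only [List.mem_cons, List.not_mem_nil, or_false] at ht
  rcases ht with rfl | rfl | rfl
  · exact ⟨u1, by simp, u1_spec.2⟩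
  · exact ⟨u2, by simp, u2_spec.2⟩
  · exact ⟨u3, by simp, u3_spec.2⟩

theorem SL_gen : genB [M24MData.t1T, M24MData.t2T, M24MData.t3T] M24MData.SL = true := by
  decide +kernel

theorem S_iff (h : Equiv.Perm GolayPt) : h ∈ S ↔ tab h ∈ M24MData.SL :=
  mem_closure_iff _ [M24MData.t1T, M24MData.t2T, M24MData.t3T] M24MData.SL S_gens S_gens'
    (by decide +kernel) (by decide +kernel) (by decide +kernel) SL_gen h

theorem S_card : Nat.card S = 64 :=
  card_closure _ [M24MData.t1T, M24MData.t2T, M24MData.t3T] M24MData.SL S_gens S_gens'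
    (by decide +kernel) (by decide +kernel) (by decide +kernel) SL_gen (by decide +kernel)

theorem S_le : S ≤ M24 := by
  unfold S
  rw [Subgroup.closure_le]
  rintro g (rfl | rfl | rfl)
  · exact u1_spec.1
  · exact u2_spec.1
  · exact u3_spec.1

theorem S_fix4 : ∀ s ∈ S, s (pt 4) = pt 4 := by
  intro s hs
  rw [apply_pt s (by norm_num)]
  congr 1
  exact (by decide +kernel : ∀ t ∈ M24MData.SL, t.getD 4 0 = 4) _ ((S_iff s).mp hs)

/-- The indices of the points of the octad fixed by `E`. -/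
def Oidx : List Nat := [23, 0, 1, 2, 3, 5, 14, 17]

theorem S_O : ∀ s ∈ S, ∃ i ∈ Oidx, s (pt 23) = pt i := by
  intro s hs
  refine ⟨(tab s).getD 23 0, ?_, apply_pt s (by norm_num)⟩
  exact (by decide +kernel : ∀ t ∈ M24MData.SL, t.getD 23 0 ∈ Oidx) _ ((S_iff s).mp hs)

theorem E_fixO : ∀ e ∈ E, ∀ i ∈ Oidx, e (pt i) = pt i := E_all _ (fun t ht e he i hi => by
  have hi24 : i < 24 := (by decide : ∀ i ∈ Oidx, i < 24) i hi
  rw [apply_pt e hi24, he]
  congr 1
  exact (by decide +kernel : ∀ t ∈ M23MData.EL, ∀ i ∈ Oidx, t.getD i 0 = i) t ht i hi)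

theorem u1_sq : u1 * u1 = 1 := by
  apply tab_injective; rw [tab_mul, u1_spec.2, tab_one]; decide +kernel
theorem u2_sq : u2 * u2 = 1 := by
  apply tab_injective; rw [tab_mul, u2_spec.2, tab_one]; decide +kernel
theorem u3_sq : u3 * u3 = 1 := by
  apply tab_injective; rw [tab_mul, u3_spec.2, tab_one]; decide +kernel

theorem normalizer_of_sq {s : Equiv.Perm GolayPt} (hs2 : s * s = 1)
    (hsE : ∀ e ∈ E, s * e * s ∈ E) :
    s ∈ Subgroup.normalizer (E : Set (Equiv.Perm GolayPt)) := by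
  have hs : s⁻¹ = s := inv_eq_of_mul_eq_one_left hs2
  rw [Subgroup.mem_normalizer_iff]
  intro h
  rw [hs]
  refine ⟨hsE h, fun hh => ?_⟩
  have := hsE _ hh
  have e : s * (s * h * s) * s = (s * s) * h * (s * s) := by group
  rwa [e, hs2, one_mul, mul_one] at this

theorem S_le_normalizer : S ≤ Subgroup.normalizer (E : Set (Equiv.Perm GolayPt)) := by
  unfold S
  rw [Subgroup.closure_le]
  rintro s (rfl | rfl | rfl)
  · exact normalizer_of_sq u1_sq (E_all _ (fun t ht e he => by
      rw [E_iff, tab_mul, tab_mul, he, u1_spec.2]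
      exact (by decide +kernel : ∀ t ∈ M23MData.EL,
        tmul (tmul M24MData.t1T t) M24MData.t1T ∈ M23MData.EL) t ht))
  · exact normalizer_of_sq u2_sq (E_all _ (fun t ht e he => by
      rw [E_iff, tab_mul, tab_mul, he, u2_spec.2]
      exact (by decide +kernel : ∀ t ∈ M23MData.EL,
        tmul (tmul M24MData.t2T t) M24MData.t2T ∈ M23MData.EL) t ht))
  · exact normalizer_of_sq u3_sq (E_all _ (fun t ht e he => by
      rw [E_iff, tab_mul, tab_mul, he, u3_spec.2]
      exact (by decide +kernel : ∀ t ∈ M23MData.EL,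
        tmul (tmul M24MData.t3T t) M24MData.t3T ∈ M23MData.EL) t ht))

theorem E_inf_S : E ⊓ S = ⊥ := by
  rw [eq_bot_iff]
  intro x hx
  obtain ⟨hE, hS⟩ := Subgroup.mem_inf.mp hx
  rw [Subgroup.mem_bot]
  apply tab_injective
  rw [tab_one]
  exact (by decide +kernel : ∀ t ∈ M23MData.EL, t ∈ M24MData.SL → t = idT) _
    ((E_iff x).mp hE) ((S_iff x).mp hS)

theorem ES_card : Nat.card ↥(E ⊔ S) = 1024 := by
  rw [card_sup_of_le_normalizer S_le_normalizer E_inf_S, E_card, S_card]

/-! ### Elements of order three -/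

/-- A second element of order three acting on `E` without fixed points. -/
noncomputable def c2 : Equiv.Perm GolayPt := c⁻¹ * b

theorem c2_tab : tab c2 = tmul (tmul M23MData.cT M23MData.cT) M23MData.bT := by
  unfold c2; rw [tab_mul, cinv_tab, b_spec.2]

theorem c2inv_tab : tab c2⁻¹ = tmul (tmul M23MData.bT M23MData.bT) M23MData.cT := by
  unfold c2; rw [mul_inv_rev, inv_inv, tab_mul, binv_tab, c_spec.2]

theorem c_fix : ∀ i ∈ [23, 0, 1, 2, 3], c (pt i) = pt i := by
  intro i hi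
  have hi24 : i < 24 := (by decide : ∀ i ∈ [23, 0, 1, 2, 3], i < 24) i hi
  rw [apply_pt c hi24, c_spec.2]
  congr 1
  exact (by decide +kernel : ∀ i ∈ [23, 0, 1, 2, 3], M23MData.cT.getD i 0 = i) i hi

theorem c2_fix : ∀ i ∈ [23, 3, 5, 14, 17], c2 (pt i) = pt i := by
  intro i hi
  have hi24 : i < 24 := (by decide : ∀ i ∈ [23, 3, 5, 14, 17], i < 24) i hi
  rw [apply_pt c2 hi24, c2_tab]
  congr 1
  exact (by decide +kernel : ∀ i ∈ [23, 3, 5, 14, 17],
    (tmul (tmul M23MData.cT M23MData.cT) M23MData.bT).getD i 0 = i) i hi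

theorem E_inv : ∀ e ∈ E, e⁻¹ = e := fun e he => inv_eq_of_mul_eq_one_left (E_sq e he)

theorem E_comm_c : ∀ e ∈ E, ∃ e' ∈ E, e = ⁅e', c⁆ := E_all _ (fun t ht e he => by
  have key : ∀ t ∈ M23MData.EL, ∃ t' ∈ M23MData.EL,
      t = tmul (tmul (tmul t' M23MData.cT) t') (tmul M23MData.cT M23MData.cT) := by
    decide +kernel
  obtain ⟨t', ht', h⟩ := key t ht
  obtain ⟨h1, h2⟩ := E_ofT ht'
  refine ⟨ofT t', h1, ?_⟩
  apply tab_injective
  rw [commutatorElement_def, E_inv _ h1, tab_mul, tab_mul, tab_mul, h2, c_spec.2, cinv_tab, he, h])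

theorem E_comm_c2 : ∀ e ∈ E, ∃ e' ∈ E, e = ⁅e', c2⁆ := E_all _ (fun t ht e he => by
  have key : ∀ t ∈ M23MData.EL, ∃ t' ∈ M23MData.EL,
      t = tmul (tmul (tmul t' (tmul (tmul M23MData.cT M23MData.cT) M23MData.bT)) t')
        (tmul (tmul M23MData.bT M23MData.bT) M23MData.cT) := by
    decide +kernel
  obtain ⟨t', ht', h⟩ := key t ht
  obtain ⟨h1, h2⟩ := E_ofT ht'
  refine ⟨ofT t', h1, ?_⟩
  apply tab_injective
  rw [commutatorElement_def, E_inv _ h1, tab_mul, tab_mul, tab_mul, h2, c2_tab, c2inv_tab, he, h])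

theorem c2_mem : c2 ∈ M24 :=
  M24.mul_mem (M24.inv_mem (Cfsg.Agent.Lib.Helper35.M23Aut.M23_le_M24 c_spec.1))
    (Cfsg.Agent.Lib.Helper35.M23Aut.M23_le_M24 b_spec.1)

/-! ### The Sylow 3-subgroup -/

theorem a7inv_tab : tab a7⁻¹ = tmul M24MData.aT M24MData.aT :=
  tab_inv_of_mul (h := a7 * a7) (by rw [tab_mul, a7_spec.2]) (by rw [a7_spec.2]; decide +kernel)

theorem b7inv_tab : tab b7⁻¹ = tmul M24MData.bT M24MData.bT :=
  tab_inv_of_mul (h := b7 * b7) (by rw [tab_mul, b7_spec.2]) (by rw [b7_spec.2]; decide +kernel)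

theorem t7_sq : t7 * t7 = 1 := by
  apply tab_injective; rw [tab_mul, t7_spec.2, tab_one]; decide +kernel

theorem t7_inv : t7⁻¹ = t7 := inv_eq_of_mul_eq_one_left t7_sq

theorem comm_a7_b7 : ⁅a7, b7⁆ = c := by
  apply tab_injective
  rw [commutatorElement_def, tab_mul, tab_mul, tab_mul, a7_spec.2, b7_spec.2, a7inv_tab,
    b7inv_tab, c_spec.2]
  decide +kernel

theorem c_a7 : c * a7 = a7 * c := by
  apply tab_injective
  rw [tab_mul, tab_mul, c_spec.2, a7_spec.2]; decide +kernel

theorem c_b7 : c * b7 = b7 * c := by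
  apply tab_injective
  rw [tab_mul, tab_mul, c_spec.2, b7_spec.2]; decide +kernel

theorem a7_cube : a7 ^ 3 = 1 := by
  apply tab_injective
  rw [pow_succ, pow_two, tab_mul, tab_mul, a7_spec.2, tab_one]; decide +kernel

theorem c_order : orderOf c = 3 := by
  apply orderOf_eq_prime
  · apply tab_injective
    rw [pow_succ, pow_two, tab_mul, tab_mul, c_spec.2, tab_one]; decide +kernel
  · intro h
    have := congrArg tab h
    rw [c_spec.2, tab_one] at this
    revert this
    decide +kernel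

theorem t7_a7 : t7 * a7 * t7⁻¹ = a7⁻¹ := by
  apply tab_injective
  rw [t7_inv, tab_mul, tab_mul, t7_spec.2, a7_spec.2, a7inv_tab]; decide +kernel

theorem t7_b7 : t7 * b7 * t7⁻¹ = b7⁻¹ := by
  apply tab_injective
  rw [t7_inv, tab_mul, tab_mul, t7_spec.2, b7_spec.2, b7inv_tab]; decide +kernel

theorem P27_eq : Subgroup.closure ({a7, b7} : Set (Equiv.Perm GolayPt)) =
    Subgroup.closure ({a7, a7⁻¹, b7, b7⁻¹} : Set (Equiv.Perm GolayPt)) := by
  apply le_antisymm
  · apply Subgroup.closure_mono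
    rintro g (rfl | rfl) <;> simp
  · rw [Subgroup.closure_le]
    rintro g (rfl | rfl | rfl | rfl)
    · exact Subgroup.subset_closure (by simp)
    · exact Subgroup.inv_mem _ (Subgroup.subset_closure (by simp))
    · exact Subgroup.subset_closure (by simp)
    · exact Subgroup.inv_mem _ (Subgroup.subset_closure (by simp))

theorem P27_card : Nat.card (Subgroup.closure ({a7, b7} : Set (Equiv.Perm GolayPt))) = 27 := by
  rw [P27_eq]
  refine card_closure _ [M24MData.aT, tmul M24MData.aT M24MData.aT, M24MData.bT,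
    tmul M24MData.bT M24MData.bT] M24MData.P27L ?_ ?_ (by decide +kernel)
    (by decide +kernel) (by decide +kernel) (by decide +kernel) (by decide +kernel)
  · rintro g (rfl | rfl | rfl | rfl)
    · rw [a7_spec.2]; simp
    · rw [a7inv_tab]; simp
    · rw [b7_spec.2]; simp
    · rw [b7inv_tab]; simp
  · intro t ht
    simp only [List.mem_cons, List.not_mem_nil, or_false] at ht
    rcases ht with rfl | rfl | rfl | rfl
    · exact ⟨a7, by simp, a7_spec.2⟩
    · exact ⟨a7⁻¹, by simp, a7inv_tab⟩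
    · exact ⟨b7, by simp, b7_spec.2⟩
    · exact ⟨b7⁻¹, by simp, b7inv_tab⟩

end Cfsg.Agent.Lib.Helper35.M24MElts
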