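-- The Schur multiplier of M24 is trivial.  The point stabiliser M23 has trivial multiplier, so
-- every element of M24 with a fixed point has a canonical lift in any central extension; these
-- lifts split the extension over a Sylow 2-subgroup `E ⋊ S`.  The Sylow 3-subgroup is
-- extraspecial with an involution inverting both generators, and the other Sylow subgroups
-- are cyclic.
import Cfsg.Agent.Lib.Helper35.M24MElts
import Cfsg.Agent.Lib.Helper35.M23Mult
import Cfsg.Agent.Lib.Helper35.StemC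
import Cfsg.Agent.Lib.Helper35.M24Aut
import Cfsg.Agent.Lib.Helper66.Hopf
import Cfsg.Agent.Lib.Helper7.MathieuSimple

set_option autoImplicit false

namespace Cfsg.Agent.Lib.Helper35.M24Mult

open Cfsg Cfsg.Spor Cfsg.Agent.Lib.Helper7.GolayBase Cfsg.Agent.Lib.Helper7.GolayPerm
  Cfsg.Agent.Lib.Helper35.PermTab Cfsg.Agent.Lib.Helper35.M23Aut
  Cfsg.Agent.Lib.Helper35.M23MElts Cfsg.Agent.Lib.Helper35.M24MElts
  Cfsg.Agent.Lib.Helper35.StemB Cfsg.Agent.Lib.Helper35.StemC
open scoped commutatorElement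

/-- `M23` is perfect. -/
theorem m23_perfect : M23 ≤ ⁅M23, M23⁆ := by
  intro x hx
  have hsimple := Cfsg.Agent.Lib.Helper7.MathieuSimple.m23_simple (none : GolayPt)
  set T : Subgroup ↥M24 := MulAction.stabilizer ↥M24 (none : GolayPt) with hT
  let φ : ↥T →* Equiv.Perm GolayPt := M24.subtype.comp T.subtype
  have hφ : ∀ y : ↥T, φ y ∈ M23 := fun y =>
    mem_M23.mpr ⟨y.1.2, MulAction.mem_stabilizer_iff.mp y.2⟩
  have toT : ∀ g ∈ M23, ∃ y : ↥T, φ y = g := fun g hg =>
    ⟨⟨⟨g, (mem_M23.mp hg).1⟩, MulAction.mem_stabilizer_iff.mpr (mem_M23.mp hg).2⟩, rfl⟩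
  have hcomm : commutator ↥T = ⊤ := by
    rcases (inferInstance : (commutator ↥T).Normal).eq_bot_or_eq_top with h | h
    · exfalso
      obtain ⟨y1, hy1⟩ := toT s2 s2_spec.1
      obtain ⟨y2, hy2⟩ := toT c c_spec.1
      have h1 : ⁅y1, y2⁆ ∈ commutator ↥T := by
        rw [commutator_def]
        exact Subgroup.commutator_mem_commutator (Subgroup.mem_top _) (Subgroup.mem_top _)
      rw [h, Subgroup.mem_bot, commutatorElement_eq_one_iff_mul_comm] at h1
      have h2 : s2 * c = c * s2 := by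
        have := congrArg φ h1
        rwa [map_mul, map_mul, hy1, hy2] at this
      have h3 : c = c⁻¹ := by
        rw [← s2_c, h2, mul_inv_cancel_right]
      have h4 : c ^ 2 = 1 := by
        rw [pow_two]; nth_rewrite 2 [h3]; exact mul_inv_cancel c
      have h5 := orderOf_dvd_of_pow_eq_one h4
      rw [c_order] at h5
      exact absurd h5 (by decide)
    · exact h
  obtain ⟨y, rfl⟩ := toT x hx
  have h1 : φ y ∈ (commutator ↥T).map φ := ⟨y, by rw [hcomm]; exact Subgroup.mem_top _, rfl⟩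
  rw [commutator_def, Subgroup.map_commutator] at h1
  have hle : (⊤ : Subgroup ↥T).map φ ≤ M23 := by
    rintro _ ⟨y, -, rfl⟩
    exact hφ y
  exact Subgroup.commutator_mono hle hle h1

theorem exists_map_none (β : GolayPt) : ∃ g ∈ M24, g (none : GolayPt) = β := by
  by_cases h : β = none
  · exact ⟨1, M24.one_mem, by rw [h]; rfl⟩
  · obtain ⟨g, hg, h1, -⟩ := Cfsg.Agent.Lib.Helper35.M24Aut.exists_map_pair
      (a := (none : GolayPt)) (b := β) (a' := β) (b' := none) (fun e => h e.symm) h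
    exact ⟨g, hg, h1⟩

section Lift

variable {Γ : Type} [Group Γ] (σ : Γ →* ↥M24)

/-- The commutator subgroup of the preimage of `M23` meets the kernel trivially. -/
theorem L_none_inf_ker (hs : Function.Surjective σ) (hc : σ.ker ≤ Subgroup.center Γ) :
    L (incl σ) (none : GolayPt) ⊓ (incl σ).ker = ⊥ := by
  set X : Subgroup Γ :=
    (MulAction.stabilizer (Equiv.Perm GolayPt) (none : GolayPt)).comap (incl σ) with hX
  let ξ : ↥X →* ↥M23 := ((incl σ).comp X.subtype).codRestrict M23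
    (fun x => mem_M23.mpr ⟨(σ x.1).2, MulAction.mem_stabilizer_iff.mp (Subgroup.mem_comap.mp x.2)⟩)
  have hξ : Function.Surjective ξ := by
    rintro ⟨g, hg⟩
    obtain ⟨hg24, hgn⟩ := mem_M23.mp hg
    obtain ⟨u, hu⟩ := incl_lift σ hs hg24
    exact ⟨⟨u, Subgroup.mem_comap.mpr (MulAction.mem_stabilizer_iff.mpr (by rw [hu]; exact hgn))⟩,
      Subtype.ext hu⟩
  have hξc : ξ.ker ≤ Subgroup.center ↥X := by
    intro x hx
    have h1 : incl σ x.1 = 1 := congrArg Subtype.val (MonoidHom.mem_ker.mp hx)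
    have h2 : x.1 ∈ Subgroup.center Γ :=
      hc (by rw [← incl_ker]; exact MonoidHom.mem_ker.mpr h1)
    rw [Subgroup.mem_center_iff]
    intro y
    exact Subtype.ext (Subgroup.mem_center_iff.mp h2 y.1)
  have key := Cfsg.Agent.Lib.Helper66.Hopf.commutator_inf_ker_eq_bot_of_trivial ↥M23
    Cfsg.Agent.Lib.Helper35.M23Mult.m23_multiplier ξ hξ hξc
  rw [eq_bot_iff]
  rintro z ⟨hzL, hzk⟩
  rw [Subgroup.mem_bot]
  have hzL' : z ∈ (commutator ↥X).map X.subtype := by
    rw [Subgroup.map_subtype_commutator]; exact hzL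
  obtain ⟨y, hy, rfl⟩ := hzL'
  have hyk : y ∈ ξ.ker := MonoidHom.mem_ker.mpr (Subtype.ext (MonoidHom.mem_ker.mp hzk))
  have : y ∈ commutator ↥X ⊓ ξ.ker := Subgroup.mem_inf.mpr ⟨hy, hyk⟩
  rw [key, Subgroup.mem_bot] at this
  rw [this]; rfl

/-- Every element of `M23` lifts into the commutator subgroup of the preimage of `M23`. -/
theorem L_none_lift (hs : Function.Surjective σ) :
    ∀ x ∈ (incl σ).range, x • (none : GolayPt) = none →
      ∃ u ∈ L (incl σ) (none : GolayPt), incl σ u = x := by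
  intro x hx hxn
  rw [incl_range σ hs] at hx
  have hx23 : x ∈ M23 := mem_M23.mpr ⟨hx, hxn⟩
  have h1 := m23_perfect hx23
  have h2 : (L (incl σ) (none : GolayPt)).map (incl σ) = ⁅M23, M23⁆ := by
    unfold L
    rw [Subgroup.map_commutator, Subgroup.map_comap_eq, incl_range σ hs]
    rfl
  rw [← h2] at h1
  obtain ⟨u, hu, rfl⟩ := h1
  exact ⟨u, hu, rfl⟩

theorem L_inf_ker (hs : Function.Surjective σ) (hc : σ.ker ≤ Subgroup.center Γ) (β : GolayPt) :
    L (incl σ) β ⊓ (incl σ).ker = ⊥ := by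
  obtain ⟨g, hg, hgβ⟩ := exists_map_none β
  obtain ⟨v, hv⟩ := incl_lift σ hs hg
  exact L_inf_ker_of_conj (L_none_inf_ker σ hs hc) v (by rw [hv]; exact hgβ)

theorem L_lift (hs : Function.Surjective σ) (β : GolayPt) :
    ∀ x ∈ (incl σ).range, x • β = β → ∃ u ∈ L (incl σ) β, incl σ u = x := by
  obtain ⟨g, hg, hgβ⟩ := exists_map_none β
  obtain ⟨v, hv⟩ := incl_lift σ hs hg
  exact exists_lift_of_conj (L_none_lift σ hs) v (by rw [hv]; exact hgβ)

end Lift

theorem pt23 : pt 23 = (none : GolayPt) := rfl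

/-- The 2-part: a stem extension of `M24` with kernel of exponent 2 is an isomorphism. -/
theorem m24_two (Γ : Type) [Group Γ] [Finite Γ] (σ : Γ →* ↥M24) (hσ : IsStemExtension σ)
    (hexp : ∀ k ∈ σ.ker, k ^ 2 = 1) : σ.ker = ⊥ := by
  obtain ⟨hsurj, hcen, hcomm⟩ := hσ
  have hc : (incl σ).ker ≤ Subgroup.center Γ := by rw [incl_ker]; exact hcen
  have hr : (incl σ).range = M24 := incl_range σ hsurj
  obtain ⟨K, hK, hKmap⟩ := exists_complement_of_lifts (τ := incl σ)
    (L_inf_ker σ hsurj hcen) (L_lift σ hsurj)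
    E S (by rw [hr]; exact E_le.trans M23_le_M24) (by rw [hr]; exact S_le)
    {p | ∃ i ∈ Oidx, p = pt i} (none : GolayPt) (pt 4) ⟨23, by decide, pt23.symm⟩
    (fun e he β hβ => by
      obtain ⟨i, hi, rfl⟩ := hβ
      exact E_fixO e he i hi)
    (fun s hs => by
      obtain ⟨i, hi, h⟩ := S_O s hs
      exact ⟨i, hi, h⟩)
    (fun s hs => S_fix4 s hs)
    S_le_normalizer
    (by
      rintro β ⟨i, hi, rfl⟩
      by_cases h : i ∈ [23, 0, 1, 2, 3]
      · exact ⟨c, by rw [hr]; exact M23_le_M24 c_spec.1, c_fix 23 (by decide), c_fix i h,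
          E_comm_c⟩
      · have h' : i ∈ [23, 3, 5, 14, 17] := by
          simp only [Oidx, List.mem_cons, List.not_mem_nil, or_false] at hi h ⊢
          omega
        exact ⟨c2, by rw [hr]; exact c2_mem, c2_fix 23 (by decide), c2_fix i h', E_comm_c2⟩)
    E_inf_S
  rw [eq_bot_iff]
  intro z hz
  rw [Subgroup.mem_bot]
  by_contra hz1
  have hzord : orderOf z = 2 := orderOf_eq_prime (hexp z hz) hz1
  have hzk : z ∈ (incl σ).ker := by rw [incl_ker]; exact hz
  have hcard : Nat.card (incl σ).range = Nat.card ↥(E ⊔ S) * 239085 := by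
    rw [hr, Cfsg.Agent.Lib.Helper7.M24Main.card_M24, ES_card]
  have hP : E ⊔ S ≤ (incl σ).range := by
    rw [hr]; exact sup_le (E_le.trans M23_le_M24) S_le
  have h3 := mem_commutator_comap (incl σ) hc (E ⊔ S) hP 239085 hcard hzk (hcomm hz)
    (by rw [hzord]; decide)
  exact hz1 (eq_one_of_complement (incl σ) hc K hK (E ⊔ S) hKmap hzk h3)

/-- The 3-part: a stem extension of `M24` with kernel of exponent 3 is an isomorphism. -/
theorem m24_three (Γ : Type) [Group Γ] [Finite Γ] (σ : Γ →* ↥M24) (hσ : IsStemExtension σ)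
    (hexp : ∀ k ∈ σ.ker, k ^ 3 = 1) : σ.ker = ⊥ := by
  obtain ⟨hsurj, hcen, hcomm⟩ := hσ
  have hc : (incl σ).ker ≤ Subgroup.center Γ := by rw [incl_ker]; exact hcen
  have hr : (incl σ).range = M24 := incl_range σ hsurj
  obtain ⟨al, hal⟩ := incl_lift σ hsurj a7_spec.1
  obtain ⟨bl, hbl⟩ := incl_lift σ hsurj b7_spec.1
  obtain ⟨tl, htl⟩ := incl_lift σ hsurj t7_spec.1
  rw [eq_bot_iff]
  intro z hz
  rw [Subgroup.mem_bot]
  by_contra hz1
  have hzord : orderOf z = 3 := orderOf_eq_prime (hexp z hz) hz1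
  have hzk : z ∈ (incl σ).ker := by rw [incl_ker]; exact hz
  have hcard : Nat.card (incl σ).range =
      Nat.card ↥(Subgroup.closure ({a7, b7} : Set (Equiv.Perm GolayPt))) * 9067520 := by
    rw [hr, Cfsg.Agent.Lib.Helper7.M24Main.card_M24, P27_card]
  have hP : Subgroup.closure ({a7, b7} : Set (Equiv.Perm GolayPt)) ≤ (incl σ).range := by
    rw [hr, Subgroup.closure_le]
    rintro g (rfl | rfl)
    · exact a7_spec.1
    · exact b7_spec.1
  have h3 := mem_commutator_comap (incl σ) hc _ hP 9067520 hcard hzk (hcomm hz)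
    (by rw [hzord]; decide)
  have h4 := eq_one_of_extraspecial (incl σ) hc 3 (by decide)
    (fun k hk => hexp k (by rwa [incl_ker] at hk)) al bl tl
    (by rw [hal, hbl, comm_a7_b7]; exact c_a7) (by rw [hal, hbl, comm_a7_b7]; exact c_b7)
    (by rw [hal]; exact a7_cube) (by rw [hal, hbl, comm_a7_b7]; exact c_order)
    (by rw [htl, hal]; exact t7_a7) (by rw [htl, hbl]; exact t7_b7) (z := z) hzk
    (by rw [hal, hbl]; exact h3)
  exact hz1 h4

theorem sq_not_dvd {p : ℕ} (hp : p.Prime) (h2 : p ≠ 2) (h3 : p ≠ 3) :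
    ¬ p ^ 2 ∣ 244823040 := by
  intro h
  have hcop : Nat.Coprime (p ^ 2) 27648 := by
    apply Nat.Coprime.pow_left
    rw [show (27648 : ℕ) = 2 ^ 10 * 3 ^ 3 from rfl]
    apply Nat.Coprime.mul_right
    · exact Nat.Coprime.pow_right _ ((Nat.coprime_primes hp Nat.prime_two).mpr h2)
    · exact Nat.Coprime.pow_right _ ((Nat.coprime_primes hp Nat.prime_three).mpr h3)
  have h' : p ^ 2 ∣ 8855 := by
    apply hcop.dvd_of_dvd_mul_left
    rw [show (27648 * 8855 : ℕ) = 244823040 from rfl]; exact h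
  have hle : p ^ 2 ≤ 8855 := Nat.le_of_dvd (by norm_num) h'
  have hp95 : p < 95 := by nlinarith
  have hp2 := hp.two_le
  interval_cases p <;> revert h' <;> decide

/-- The Schur multiplier of `M24` is trivial. -/
theorem m24_multiplier : HasCyclicSchurMultiplier ↥M24 1 := by
  apply Cfsg.Agent.Lib.Helper35.Stem.hasCyclicSchurMultiplier_one
  intro Γ _ _ σ hσ
  apply Cfsg.Agent.Lib.Helper35.Stem.eq_bot_of_no_prime_order
  intro z hz hprime
  by_cases h2 : orderOf z = 2
  · have h := eq_one_of_exponent_case 2 m24_two Γ σ hσ z hz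
      (by rw [← h2]; exact pow_orderOf_eq_one z)
    rw [h, orderOf_one] at h2
    exact absurd h2 (by norm_num)
  by_cases h3 : orderOf z = 3
  · have h := eq_one_of_exponent_case 3 m24_three Γ σ hσ z hz
      (by rw [← h3]; exact pow_orderOf_eq_one z)
    rw [h, orderOf_one] at h3
    exact absurd h3 (by norm_num)
  · have : Fact (orderOf z).Prime := ⟨hprime⟩
    exact false_of_sq_not_dvd σ hσ.2.1 (orderOf z)
      (by rw [Cfsg.Agent.Lib.Helper7.M24Main.card_M24]; exact sq_not_dvd hprime h2 h3) hz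
      (hσ.2.2 hz) rfl

end Cfsg.Agent.Lib.Helper35.M24Mult
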