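import Mathlib
import Cfsg.Agent.Lib.Helper35.PermTab

/-!
# Packed permutations of the 24 Golay points

A permutation is packed into one natural number: the image of the point `i` is stored, multiplied
by `8`, in the byte `i`.  Products are computed by arithmetic on these numbers, which the kernel
evaluates quickly.  Also: binary search trees of natural numbers with recursor-defined
operations.
-/

set_option autoImplicit false

namespace Cfsg.Agent.Lib.Helper35.M24P

open Cfsg Cfsg.Agent.Lib.Helper7.GolayBase Cfsg.Agent.Lib.Helper7.GolayPerm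
  Cfsg.Agent.Lib.Helper35.PermTab

theorem land_eq (a b : Nat) : Nat.land a b = a &&& b := rfl
theorem lor_eq (a b : Nat) : Nat.lor a b = a ||| b := rfl
theorem xor_eq (a b : Nat) : Nat.xor a b = a ^^^ b := rfl
theorem shr_eq (a b : Nat) : Nat.shiftRight a b = a >>> b := rfl
theorem shl_eq (a b : Nat) : Nat.shiftLeft a b = a <<< b := rfl

/-- The packed code of a table. -/
def pkT : List Nat → Nat
  | [] => 0
  | a :: l => 8 * a + 256 * pkT l

/-- The byte at bit position `i8`. -/
def ent (c i8 : Nat) : Nat := Nat.land (Nat.shiftRight c i8) 255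

/-- One byte of a product. -/
def term (s t i8 : Nat) : Nat := Nat.shiftLeft (ent s (ent t i8)) i8

/-- The product of two packed permutations. -/
def mulP (s t : Nat) : Nat :=
  (Nat.add (term s t 0) (Nat.add (term s t 8) (Nat.add (term s t 16) (Nat.add (term s t 24) (Nat.add (term s t 32) (Nat.add (term s t 40) (Nat.add (term s t 48) (Nat.add (term s t 56) (Nat.add (term s t 64) (Nat.add (term s t 72) (Nat.add (term s t 80) (Nat.add (term s t 88) (Nat.add (term s t 96) (Nat.add (term s t 104) (Nat.add (term s t 112) (Nat.add (term s t 120) (Nat.add (term s t 128) (Nat.add (term s t 136) (Nat.add (term s t 144) (Nat.add (term s t 152) (Nat.add (term s t 160) (Nat.add (term s t 168) (Nat.add (term s t 176) (term s t 184))))))))))))))))))))))))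

/-- The packed identity. -/
def idP : Nat := 4528587414232371672327021198331688533828430582248316602368

theorem ent_zero (i : Nat) : ent 0 i = 0 := by
  simp [ent, land_eq, shr_eq, Nat.zero_shiftRight]

theorem ent_pkT : ∀ (t : List Nat) (_ : ∀ a ∈ t, a < 32) (i : Nat),
    ent (pkT t) (8 * i) = 8 * t.getD i 0
  | [], _, i => by simp [pkT, ent_zero]
  | a :: l, ht, 0 => by
    have ha : a < 32 := ht a (by simp)
    simp only [pkT, ent, land_eq, shr_eq, Nat.mul_zero, Nat.shiftRight_zero, List.getD_cons_zero]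
    have : (255 : ℕ) = 2 ^ 8 - 1 := by norm_num
    rw [this, Nat.and_two_pow_sub_one_eq_mod]
    omega
  | a :: l, ht, i + 1 => by
    have ha : a < 32 := ht a (by simp)
    have ih := ent_pkT l (fun b hb => ht b (by simp [hb])) i
    have h1 : (8 * a + 256 * pkT l) >>> (8 * (i + 1)) = pkT l >>> (8 * i) := by
      have : 8 * (i + 1) = 8 + 8 * i := by ring
      rw [this, Nat.shiftRight_add, Nat.shiftRight_eq_div_pow (8 * a + 256 * pkT l) 8]
      congr 1
      omega
    simp only [pkT, ent, land_eq, shr_eq, List.getD_cons_succ] at ih ⊢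
    rw [h1, ih]

theorem length24 (t : List Nat) (h : t.length = 24) :
    ∃ a0 a1 a2 a3 a4 a5 a6 a7 a8 a9 a10 a11 a12 a13 a14 a15 a16 a17 a18 a19 a20 a21 a22 a23 : Nat, t = [a0, a1, a2, a3, a4, a5, a6, a7, a8, a9, a10, a11, a12, a13, a14, a15, a16, a17, a18, a19, a20, a21, a22, a23] := by
  rcases t with _ | ⟨a0, t⟩
  · simp at h
  rcases t with _ | ⟨a1, t⟩
  · simp at h
  rcases t with _ | ⟨a2, t⟩
  · simp at h
  rcases t with _ | ⟨a3, t⟩
  · simp at h
  rcases t with _ | ⟨a4, t⟩
  · simp at h
  rcases t with _ | ⟨a5, t⟩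
  · simp at h
  rcases t with _ | ⟨a6, t⟩
  · simp at h
  rcases t with _ | ⟨a7, t⟩
  · simp at h
  rcases t with _ | ⟨a8, t⟩
  · simp at h
  rcases t with _ | ⟨a9, t⟩
  · simp at h
  rcases t with _ | ⟨a10, t⟩
  · simp at h
  rcases t with _ | ⟨a11, t⟩
  · simp at h
  rcases t with _ | ⟨a12, t⟩
  · simp at h
  rcases t with _ | ⟨a13, t⟩
  · simp at h
  rcases t with _ | ⟨a14, t⟩
  · simp at h
  rcases t with _ | ⟨a15, t⟩
  · simp at h
  rcases t with _ | ⟨a16, t⟩
  · simp at h
  rcases t with _ | ⟨a17, t⟩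
  · simp at h
  rcases t with _ | ⟨a18, t⟩
  · simp at h
  rcases t with _ | ⟨a19, t⟩
  · simp at h
  rcases t with _ | ⟨a20, t⟩
  · simp at h
  rcases t with _ | ⟨a21, t⟩
  · simp at h
  rcases t with _ | ⟨a22, t⟩
  · simp at h
  rcases t with _ | ⟨a23, t⟩
  · simp at h
  rcases t with _ | ⟨b, t⟩
  · exact ⟨a0, a1, a2, a3, a4, a5, a6, a7, a8, a9, a10, a11, a12, a13, a14, a15, a16, a17, a18, a19, a20, a21, a22, a23, rfl⟩
  · simp at h

theorem mulP_pkT (s t : List Nat) (hs : ∀ a ∈ s, a < 32) (ht : t.length = 24)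
    (ht' : ∀ a ∈ t, a < 32) : mulP (pkT s) (pkT t) = pkT (tmul s t) := by
  have key : ∀ i : Nat, term (pkT s) (pkT t) (8 * i) =
      (8 * s.getD (t.getD i 0) 0) <<< (8 * i) := by
    intro i
    rw [term, ent_pkT t ht' i, ent_pkT s hs (t.getD i 0), shl_eq]
  obtain ⟨a0, a1, a2, a3, a4, a5, a6, a7, a8, a9, a10, a11, a12, a13, a14, a15, a16, a17, a18, a19, a20, a21, a22, a23, rfl⟩ := length24 t ht
  have k0 : term (pkT s) (pkT [a0, a1, a2, a3, a4, a5, a6, a7, a8, a9, a10, a11, a12, a13, a14, a15, a16, a17, a18, a19, a20, a21, a22, a23]) 0 = (8 * s.getD a0 0) <<< 0 := by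
    simpa using key 0
  have k1 : term (pkT s) (pkT [a0, a1, a2, a3, a4, a5, a6, a7, a8, a9, a10, a11, a12, a13, a14, a15, a16, a17, a18, a19, a20, a21, a22, a23]) 8 = (8 * s.getD a1 0) <<< 8 := by
    simpa using key 1
  have k2 : term (pkT s) (pkT [a0, a1, a2, a3, a4, a5, a6, a7, a8, a9, a10, a11, a12, a13, a14, a15, a16, a17, a18, a19, a20, a21, a22, a23]) 16 = (8 * s.getD a2 0) <<< 16 := by
    simpa using key 2
  have k3 : term (pkT s) (pkT [a0, a1, a2, a3, a4, a5, a6, a7, a8, a9, a10, a11, a12, a13, a14, a15, a16, a17, a18, a19, a20, a21, a22, a23]) 24 = (8 * s.getD a3 0) <<< 24 := by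
    simpa using key 3
  have k4 : term (pkT s) (pkT [a0, a1, a2, a3, a4, a5, a6, a7, a8, a9, a10, a11, a12, a13, a14, a15, a16, a17, a18, a19, a20, a21, a22, a23]) 32 = (8 * s.getD a4 0) <<< 32 := by
    simpa using key 4
  have k5 : term (pkT s) (pkT [a0, a1, a2, a3, a4, a5, a6, a7, a8, a9, a10, a11, a12, a13, a14, a15, a16, a17, a18, a19, a20, a21, a22, a23]) 40 = (8 * s.getD a5 0) <<< 40 := by
    simpa using key 5
  have k6 : term (pkT s) (pkT [a0, a1, a2, a3, a4, a5, a6, a7, a8, a9, a10, a11, a12, a13, a14, a15, a16, a17, a18, a19, a20, a21, a22, a23]) 48 = (8 * s.getD a6 0) <<< 48 := by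
    simpa using key 6
  have k7 : term (pkT s) (pkT [a0, a1, a2, a3, a4, a5, a6, a7, a8, a9, a10, a11, a12, a13, a14, a15, a16, a17, a18, a19, a20, a21, a22, a23]) 56 = (8 * s.getD a7 0) <<< 56 := by
    simpa using key 7
  have k8 : term (pkT s) (pkT [a0, a1, a2, a3, a4, a5, a6, a7, a8, a9, a10, a11, a12, a13, a14, a15, a16, a17, a18, a19, a20, a21, a22, a23]) 64 = (8 * s.getD a8 0) <<< 64 := by
    simpa using key 8
  have k9 : term (pkT s) (pkT [a0, a1, a2, a3, a4, a5, a6, a7, a8, a9, a10, a11, a12, a13, a14, a15, a16, a17, a18, a19, a20, a21, a22, a23]) 72 = (8 * s.getD a9 0) <<< 72 := by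
    simpa using key 9
  have k10 : term (pkT s) (pkT [a0, a1, a2, a3, a4, a5, a6, a7, a8, a9, a10, a11, a12, a13, a14, a15, a16, a17, a18, a19, a20, a21, a22, a23]) 80 = (8 * s.getD a10 0) <<< 80 := by
    simpa using key 10
  have k11 : term (pkT s) (pkT [a0, a1, a2, a3, a4, a5, a6, a7, a8, a9, a10, a11, a12, a13, a14, a15, a16, a17, a18, a19, a20, a21, a22, a23]) 88 = (8 * s.getD a11 0) <<< 88 := by
    simpa using key 11
  have k12 : term (pkT s) (pkT [a0, a1, a2, a3, a4, a5, a6, a7, a8, a9, a10, a11, a12, a13, a14, a15, a16, a17, a18, a19, a20, a21, a22, a23]) 96 = (8 * s.getD a12 0) <<< 96 := by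
    simpa using key 12
  have k13 : term (pkT s) (pkT [a0, a1, a2, a3, a4, a5, a6, a7, a8, a9, a10, a11, a12, a13, a14, a15, a16, a17, a18, a19, a20, a21, a22, a23]) 104 = (8 * s.getD a13 0) <<< 104 := by
    simpa using key 13
  have k14 : term (pkT s) (pkT [a0, a1, a2, a3, a4, a5, a6, a7, a8, a9, a10, a11, a12, a13, a14, a15, a16, a17, a18, a19, a20, a21, a22, a23]) 112 = (8 * s.getD a14 0) <<< 112 := by
    simpa using key 14
  have k15 : term (pkT s) (pkT [a0, a1, a2, a3, a4, a5, a6, a7, a8, a9, a10, a11, a12, a13, a14, a15, a16, a17, a18, a19, a20, a21, a22, a23]) 120 = (8 * s.getD a15 0) <<< 120 := by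
    simpa using key 15
  have k16 : term (pkT s) (pkT [a0, a1, a2, a3, a4, a5, a6, a7, a8, a9, a10, a11, a12, a13, a14, a15, a16, a17, a18, a19, a20, a21, a22, a23]) 128 = (8 * s.getD a16 0) <<< 128 := by
    simpa using key 16
  have k17 : term (pkT s) (pkT [a0, a1, a2, a3, a4, a5, a6, a7, a8, a9, a10, a11, a12, a13, a14, a15, a16, a17, a18, a19, a20, a21, a22, a23]) 136 = (8 * s.getD a17 0) <<< 136 := by
    simpa using key 17
  have k18 : term (pkT s) (pkT [a0, a1, a2, a3, a4, a5, a6, a7, a8, a9, a10, a11, a12, a13, a14, a15, a16, a17, a18, a19, a20, a21, a22, a23]) 144 = (8 * s.getD a18 0) <<< 144 := by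
    simpa using key 18
  have k19 : term (pkT s) (pkT [a0, a1, a2, a3, a4, a5, a6, a7, a8, a9, a10, a11, a12, a13, a14, a15, a16, a17, a18, a19, a20, a21, a22, a23]) 152 = (8 * s.getD a19 0) <<< 152 := by
    simpa using key 19
  have k20 : term (pkT s) (pkT [a0, a1, a2, a3, a4, a5, a6, a7, a8, a9, a10, a11, a12, a13, a14, a15, a16, a17, a18, a19, a20, a21, a22, a23]) 160 = (8 * s.getD a20 0) <<< 160 := by
    simpa using key 20
  have k21 : term (pkT s) (pkT [a0, a1, a2, a3, a4, a5, a6, a7, a8, a9, a10, a11, a12, a13, a14, a15, a16, a17, a18, a19, a20, a21, a22, a23]) 168 = (8 * s.getD a21 0) <<< 168 := by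
    simpa using key 21
  have k22 : term (pkT s) (pkT [a0, a1, a2, a3, a4, a5, a6, a7, a8, a9, a10, a11, a12, a13, a14, a15, a16, a17, a18, a19, a20, a21, a22, a23]) 176 = (8 * s.getD a22 0) <<< 176 := by
    simpa using key 22
  have k23 : term (pkT s) (pkT [a0, a1, a2, a3, a4, a5, a6, a7, a8, a9, a10, a11, a12, a13, a14, a15, a16, a17, a18, a19, a20, a21, a22, a23]) 184 = (8 * s.getD a23 0) <<< 184 := by
    simpa using key 23
  unfold mulP
  rewrite [k0, k1, k2, k3, k4, k5, k6, k7, k8, k9, k10, k11, k12, k13, k14, k15, k16, k17, k18, k19, k20, k21, k22, k23]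
  simp only [tmul, List.map, pkT, Nat.shiftLeft_eq, Nat.add_eq]
  ring

/-- The packed code of a permutation. -/
noncomputable def pk (g : Equiv.Perm GolayPt) : Nat := pkT (tab g)

theorem tab_length (g : Equiv.Perm GolayPt) : (tab g).length = 24 := by simp [tab]

theorem tab_lt (g : Equiv.Perm GolayPt) : ∀ a ∈ tab g, a < 24 := by
  intro a ha
  simp only [tab, List.mem_map] at ha
  obtain ⟨i, _, rfl⟩ := ha
  exact idx_lt _

theorem tab_lt32 (g : Equiv.Perm GolayPt) : ∀ a ∈ tab g, a < 32 := fun a ha =>
  lt_trans (tab_lt g a ha) (by norm_num)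

theorem pk_mul (g h : Equiv.Perm GolayPt) : pk (g * h) = mulP (pk g) (pk h) := by
  rw [pk, tab_mul, pk, pk, mulP_pkT _ _ (tab_lt32 g) (tab_length h) (tab_lt32 h)]

theorem pkT_injective : ∀ (s t : List Nat), s.length = t.length → (∀ a ∈ s, a < 32) →
    (∀ a ∈ t, a < 32) → pkT s = pkT t → s = t
  | [], [], _, _, _, _ => rfl
  | [], _ :: _, h, _, _, _ => by simp at h
  | _ :: _, [], h, _, _, _ => by simp at h
  | a :: s, b :: t, h, hs, ht, e => by
    have ha : a < 32 := hs a (by simp)
    have hb : b < 32 := ht b (by simp)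
    simp only [pkT] at e
    have h1 : a = b := by omega
    have h2 : pkT s = pkT t := by omega
    rw [h1, pkT_injective s t (by simpa using h) (fun x hx => hs x (by simp [hx]))
      (fun x hx => ht x (by simp [hx])) h2]

theorem pk_injective : Function.Injective pk := fun g h e =>
  tab_injective (pkT_injective _ _ (by rw [tab_length, tab_length]) (tab_lt32 g) (tab_lt32 h) e)

theorem pk_one : pk 1 = idP := by
  rw [pk, tab_one]
  decide +kernel

theorem ent_pk (g : Equiv.Perm GolayPt) (p : GolayPt) : ent (pk g) (8 * idx p) = 8 * idx (g p) := by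
  rw [pk, ent_pkT _ (tab_lt32 g)]
  congr 1
  exact (rep_tab g).2 p

/-! ### Binary search trees -/

/-- Binary trees of natural numbers. -/
inductive T where
  | leaf : T
  | node : T → Nat → T → T

namespace T

/-- Search in a binary search tree. -/
noncomputable def mem (t : T) (x : Nat) : Bool :=
  T.rec (motive := fun _ => Bool) false
    (fun _ v _ ml mr => cond (Nat.blt x v) ml (cond (Nat.blt v x) mr true)) t

/-- All entries satisfy `f`. -/
noncomputable def all (f : Nat → Bool) (t : T) : Bool :=
  T.rec (motive := fun _ => Bool) true (fun _ v _ al ar => and (and al (f v)) ar) t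

/-- The bitwise sum of the values of `f`. -/
noncomputable def xorF (f : Nat → Nat) (t : T) : Nat :=
  T.rec (motive := fun _ => Nat) 0 (fun _ v _ xl xr => Nat.xor (Nat.xor xl (f v)) xr) t

/-- The number of entries satisfying `f`. -/
noncomputable def cnt (f : Nat → Bool) (t : T) : Nat :=
  T.rec (motive := fun _ => Nat) 0
    (fun _ v _ cl cr => Nat.add (Nat.add cl (cond (f v) 1 0)) cr) t

/-- The search tree invariant, with all entries strictly between the bounds. -/
noncomputable def ok (t : T) : Nat → Nat → Bool :=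
  T.rec (motive := fun _ => Nat → Nat → Bool) (fun _ _ => true)
    (fun _ v _ okl okr lo hi =>
      and (and (Nat.blt lo v) (Nat.blt v hi)) (and (okl lo v) (okr v hi))) t

/-- The entries in order. -/
def toList : T → List Nat
  | leaf => []
  | node l v r => toList l ++ v :: toList r

theorem mem_leaf (x : Nat) : leaf.mem x = false := rfl
theorem mem_node (l r : T) (v x : Nat) : (node l v r).mem x =
    cond (Nat.blt x v) (l.mem x) (cond (Nat.blt v x) (r.mem x) true) := rfl
theorem all_leaf (f : Nat → Bool) : leaf.all f = true := rfl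
theorem all_node (f : Nat → Bool) (l r : T) (v : Nat) :
    (node l v r).all f = and (and (l.all f) (f v)) (r.all f) := rfl
theorem xorF_leaf (f : Nat → Nat) : leaf.xorF f = 0 := rfl
theorem xorF_node (f : Nat → Nat) (l r : T) (v : Nat) :
    (node l v r).xorF f = Nat.xor (Nat.xor (l.xorF f) (f v)) (r.xorF f) := rfl
theorem cnt_leaf (f : Nat → Bool) : leaf.cnt f = 0 := rfl
theorem cnt_node (f : Nat → Bool) (l r : T) (v : Nat) :
    (node l v r).cnt f = Nat.add (Nat.add (l.cnt f) (cond (f v) 1 0)) (r.cnt f) := rfl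
theorem ok_leaf (lo hi : Nat) : leaf.ok lo hi = true := rfl
theorem ok_node (l r : T) (v lo hi : Nat) : (node l v r).ok lo hi =
    and (and (Nat.blt lo v) (Nat.blt v hi)) (and (l.ok lo v) (r.ok v hi)) := rfl

theorem blt_iff (a b : Nat) : Nat.blt a b = true ↔ a < b := by
  simp [Nat.blt]

theorem mem_sound : ∀ (t : T) (x : Nat), t.mem x = true → x ∈ t.toList
  | leaf, x, h => by simp [mem_leaf] at h
  | node l v r, x, h => by
    rw [mem_node] at h
    simp only [toList, List.mem_append, List.mem_cons]
    by_cases h1 : Nat.blt x v = true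
    · rw [h1] at h
      exact Or.inl (mem_sound l x h)
    · rw [Bool.not_eq_true] at h1
      rw [h1] at h
      by_cases h2 : Nat.blt v x = true
      · rw [h2] at h
        exact Or.inr (Or.inr (mem_sound r x h))
      · rw [Bool.not_eq_true] at h2
        have h1' : ¬ x < v := fun hh => by rw [(blt_iff x v).mpr hh] at h1; exact absurd h1 (by simp)
        have h2' : ¬ v < x := fun hh => by rw [(blt_iff v x).mpr hh] at h2; exact absurd h2 (by simp)
        exact Or.inr (Or.inl (by omega))

theorem ok_bounds : ∀ (t : T) (lo hi : Nat), t.ok lo hi = true → ∀ y ∈ t.toList, lo < y ∧ y < hi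
  | leaf, _, _, _, y, hy => by simp [toList] at hy
  | node l v r, lo, hi, h, y, hy => by
    rw [ok_node] at h
    simp only [Bool.and_eq_true, blt_iff] at h
    obtain ⟨⟨h1, h2⟩, h3, h4⟩ := h
    simp only [toList, List.mem_append, List.mem_cons] at hy
    rcases hy with hy | rfl | hy
    · have := ok_bounds l lo v h3 y hy
      omega
    · exact ⟨h1, h2⟩
    · have := ok_bounds r v hi h4 y hy
      omega

theorem mem_complete : ∀ (t : T) (lo hi : Nat), t.ok lo hi = true → ∀ x ∈ t.toList,
    t.mem x = true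
  | leaf, _, _, _, x, hx => by simp [toList] at hx
  | node l v r, lo, hi, h, x, hx => by
    have h0 := h
    rw [ok_node] at h
    simp only [Bool.and_eq_true, blt_iff] at h
    obtain ⟨⟨h1, h2⟩, h3, h4⟩ := h
    simp only [toList, List.mem_append, List.mem_cons] at hx
    rw [mem_node]
    rcases hx with hx | rfl | hx
    · have := ok_bounds l lo v h3 x hx
      rw [(blt_iff x v).mpr this.2]
      exact mem_complete l lo v h3 x hx
    · have e1 : Nat.blt x x = false :=
        Bool.eq_false_iff.mpr (fun hh => absurd ((blt_iff x x).mp hh) (lt_irrefl x))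
      rw [e1]
      rfl
    · have := ok_bounds r v hi h4 x hx
      have e1 : Nat.blt x v = false := by
        rw [Bool.eq_false_iff]; intro hh; have := (blt_iff x v).mp hh; omega
      rw [e1, (blt_iff v x).mpr this.1]
      exact mem_complete r v hi h4 x hx

theorem mem_iff {t : T} {lo hi : Nat} (h : t.ok lo hi = true) (x : Nat) :
    t.mem x = true ↔ x ∈ t.toList :=
  ⟨mem_sound t x, mem_complete t lo hi h x⟩

theorem nodup : ∀ (t : T) (lo hi : Nat), t.ok lo hi = true → t.toList.Nodup
  | leaf, _, _, _ => by simp [toList]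
  | node l v r, lo, hi, h => by
    rw [ok_node] at h
    simp only [Bool.and_eq_true, blt_iff] at h
    obtain ⟨⟨h1, h2⟩, h3, h4⟩ := h
    have hl := ok_bounds l lo v h3
    have hr := ok_bounds r v hi h4
    simp only [toList]
    rw [List.nodup_append]
    refine ⟨nodup l lo v h3, ?_, ?_⟩
    · rw [List.nodup_cons]
      refine ⟨fun hv => ?_, nodup r v hi h4⟩
      have := hr v hv
      omega
    · intro a ha b hb
      rcases List.mem_cons.mp hb with rfl | hb
      · have := hl a ha
        omega
      · have := hl a ha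
        have := hr b hb
        omega

theorem all_iff (f : Nat → Bool) : ∀ t : T, t.all f = true ↔ ∀ x ∈ t.toList, f x = true
  | leaf => by simp [all_leaf, toList]
  | node l v r => by
    rw [all_node]
    simp only [Bool.and_eq_true, toList, List.mem_append, List.mem_cons, all_iff f l, all_iff f r]
    constructor
    · rintro ⟨⟨h1, h2⟩, h3⟩ x (hx | rfl | hx)
      · exact h1 x hx
      · exact h2
      · exact h3 x hx
    · intro h
      exact ⟨⟨fun x hx => h x (Or.inl hx), h v (Or.inr (Or.inl rfl))⟩,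
        fun x hx => h x (Or.inr (Or.inr hx))⟩

theorem cnt_eq (f : Nat → Bool) : ∀ t : T, t.cnt f = t.toList.countP f
  | leaf => by simp [cnt_leaf, toList]
  | node l v r => by
    rw [cnt_node, cnt_eq f l, cnt_eq f r]
    simp only [toList, List.countP_append, List.countP_cons, Nat.add_eq]
    cases f v <;> simp <;> omega

theorem par_add (a b : Nat) :
    decide ((a + b) % 2 = 1) = (decide (a % 2 = 1) ^^ decide (b % 2 = 1)) := by
  rcases Nat.mod_two_eq_zero_or_one a with h1 | h1 <;>
    rcases Nat.mod_two_eq_zero_or_one b with h2 | h2 <;> simp [Nat.add_mod, h1, h2]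

theorem xorF_testBit (f : Nat → Nat) (j : Nat) : ∀ t : T,
    (t.xorF f).testBit j = decide (t.toList.countP (fun x => (f x).testBit j) % 2 = 1)
  | leaf => by simp [xorF_leaf, toList]
  | node l v r => by
    rw [xorF_node, xor_eq, xor_eq, Nat.testBit_xor, Nat.testBit_xor, xorF_testBit f j l,
      xorF_testBit f j r]
    simp only [toList, List.countP_append, List.countP_cons]
    rw [par_add, par_add]
    have e : decide ((if (f v).testBit j = true then 1 else 0) % 2 = 1) = (f v).testBit j := by
      cases (f v).testBit j <;> simp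
    rw [e]
    cases decide (List.countP (fun x => (f x).testBit j) l.toList % 2 = 1) <;>
      cases (f v).testBit j <;>
      cases decide (List.countP (fun x => (f x).testBit j) r.toList % 2 = 1) <;> rfl

end T

end Cfsg.Agent.Lib.Helper35.M24P
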