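import Cfsg.Agent.Lib.Helper35.OPDerA

/-!
# S5989 / DERELTP (conventional name): `main : DerEltP`, proved in `Helper35.OPDerA`.
-/

set_option autoImplicit false

namespace Cfsg.Agent.Lib.Helper35.OPDERELTP

universe u

theorem main : Cfsg.Agent.Lib.Helper94.OPStmt.DerEltP.{u} :=
  Cfsg.Agent.Lib.Helper35.OPDerA.main

end Cfsg.Agent.Lib.Helper35.OPDERELTP
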