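import Cfsg.Agent.Lib.Helper94.OPStmt
import Cfsg.Agent.Lib.Helper59.HypDERELT

/-!
# S5989 / DERELTP: elements of order `r` of `Omega^+_(2d)(q)` with fixed space of dimension
`(2d) % c` (case A: `0 < (2d) % c`; case B: `(2d) % c = 0`, `i ∣ d`)

Direct constructions (no Witt transfer): a matrix `s` of order `r` on a nondegenerate quadratic
space `(ι → F, qN N)`, without eigenvalue 1, embedded isometrically in the standard plus form,
extended by the identity on the orthogonal complement (`Helper44.OExt.exists_ext`).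
-/

set_option autoImplicit false

namespace Cfsg.Agent.Lib.Helper35.OPDerA

open Polynomial UniqueFactorizationMonoid Matrix
open Cfsg.Agent.Lib.Helper40.RecipPoly Cfsg.Agent.Lib.Helper44.OCls2 Cfsg.Agent.Lib.Helper44.OCls3
  Cfsg.Agent.Lib.Helper44.OCls4
open Cfsg.Agent.Lib.Helper37.HypStmt (cc)
open Cfsg.Agent.Lib.Helper94.OPStmt

universe u

theorem finrank_FxP {F : Type u} [Field F] {d : ℕ} (x : Matrix (P d) (P d) F) (r : ℕ)
    (hr0 : (r : F) ≠ 0) (hx : x ^ r = 1) :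
    Module.finrank F ↥(FxP x) = x.charpoly.rootMultiplicity 1 := by
  have hss : Module.End.IsSemisimple (Matrix.toLin' x) :=
    Cfsg.Agent.Lib.Helper40.SSConj.isSemisimple_toLin' x r hr0 hx
  have h1 : FxP x = Module.End.eigenspace (Matrix.toLin' x) 1 := by
    rw [Module.End.eigenspace_def, one_smul]
    rfl
  rw [h1, ← hss.isFinitelySemisimple.maxGenEigenspace_eq_eigenspace 1,
    LinearMap.finrank_maxGenEigenspace_eq, Matrix.charpoly_toLin']

/-- The common tail: from a realisation `(ι, s, N)` without eigenvalue 1 embedded in the plus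
form to an element of `Omega^+` of order `r` with fixed space of dimension `2 d - |ι|`. -/
theorem tail (F : Type u) [Field F] [Fintype F] (p : ℕ) [Fact p.Prime] [CharP F p]
    (hodd : Odd (Fintype.card F)) (d : ℕ) (hd : 2 ≤ d) (r : ℕ) (hr : r.Prime) (hr2 : r ≠ 2)
    (hrp : r ≠ p) (k : ℕ) (hk : k < 2 * d)
    (ι : Type) [Fintype ι] [DecidableEq ι] (s N : Matrix ι ι F)
    (hsr : s ^ r = 1) (hsN : sᵀ * N * s = N) (hNdet : (N + Nᵀ).det ≠ 0)
    (hcard : Fintype.card ι + k = 2 * d)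
    (hroot : ¬ (X - C (1 : F)) ∣ s.charpoly)
    (j : (ι → F) →ₗ[F] (P d → F))
    (hj : ∀ u, Cfsg.Agent.Lib.Helper44.NegPairs.plusQ d F (j u) =
      Cfsg.Agent.Lib.Helper44.OExt.qN N u) :
    ∃ x : Matrix.GeneralLinearGroup (P d) F, x ∈ Cfsg.Geo.omegaGL (Cfsg.quadFormPlus d F) ∧
      orderOf x = r ∧ Module.finrank F ↥(FxP (x : Matrix (P d) (P d) F)) = k := by
  classical
  have hrF : Fact r.Prime := ⟨hr⟩
  have hrodd : Odd r := hr.odd_of_ne_two hr2
  have hcardP : Fintype.card (P d) = 2 * d := by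
    simp [P]
    omega
  have h2 : (2 : F) ≠ 0 := Cfsg.Agent.Lib.Helper44.FinSq.two_ne_zero_of_odd_card hodd
  have hSQ : Cfsg.Agent.Lib.Helper44.QSpace.Sep (Cfsg.Agent.Lib.Helper44.NegPairs.plusQ d F) :=
    Cfsg.Agent.Lib.Helper44.NegPairs.sep_plusQ d
  obtain ⟨g, hgiso, hgcp, hgr⟩ := Cfsg.Agent.Lib.Helper44.OExt.exists_ext
    (Cfsg.Agent.Lib.Helper44.NegPairs.plusQ d F) N s hNdet hsN r hr.pos hsr j hj
    (by rw [hcardP]; omega)
  have hr0 : (r : F) ≠ 0 := by
    rw [Ne, CharP.cast_eq_zero_iff F p]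
    intro h
    exact hrp ((Nat.prime_dvd_prime_iff_eq (Fact.out : p.Prime) hr).mp h).symm
  have hgrM : (g : Matrix (P d) (P d) F) ^ r = 1 := by
    rw [← Units.val_pow_eq_pow_val, hgr]
    rfl
  have hfix : Module.finrank F ↥(FxP (g : Matrix (P d) (P d) F)) = k := by
    rw [finrank_FxP _ r hr0 hgrM, hgcp, hcardP]
    have hs0 : s.charpoly ≠ 0 := (Matrix.charpoly_monic s).ne_zero
    have hne : (X - C (1 : F)) ^ (2 * d - Fintype.card ι) * s.charpoly ≠ 0 :=
      mul_ne_zero (pow_ne_zero _ (X_sub_C_ne_zero 1)) hs0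
    rw [rootMultiplicity_mul hne, rootMultiplicity_X_sub_C_pow]
    have h3 : rootMultiplicity 1 s.charpoly = 0 := by
      apply rootMultiplicity_eq_zero
      intro hroot'
      exact hroot (dvd_iff_isRoot.mpr hroot')
    rw [h3]
    omega
  have hg1 : g ≠ 1 := by
    intro h
    rw [h] at hfix
    have h3 : FxP ((1 : Matrix.GeneralLinearGroup (P d) F) : Matrix (P d) (P d) F) = ⊤ := by
      rw [eq_top_iff]
      intro v _
      rw [mem_FxP]
      simp
    rw [h3, finrank_top, Module.finrank_fintype_fun_eq_card, hcardP] at hfix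
    omega
  refine ⟨g, ?_, orderOf_eq_prime hgr hg1, hfix⟩
  obtain ⟨a, ha⟩ := hrodd
  obtain ⟨g', hg'⟩ :
      ∃ g' : ↥(Cfsg.isometryGroup F ⇑(Cfsg.Agent.Lib.Helper44.NegPairs.plusQ d F)),
      g' = ⟨g, hgiso⟩ := ⟨_, rfl⟩
  have hg'r : g' ^ r = 1 := by
    apply Subtype.ext
    rw [Subgroup.coe_pow, hg']
    exact hgr
  have hsq : g' = g' ^ (a + 1) * g' ^ (a + 1) := by
    rw [← pow_add]
    have h3 : a + 1 + (a + 1) = r + 1 := by omega
    rw [h3, pow_succ, hg'r, one_mul]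
  have hmem : g' ∈ Cfsg.Omega F ⇑(Cfsg.Agent.Lib.Helper44.NegPairs.plusQ d F) := by
    rw [hsq]
    exact Cfsg.Agent.Lib.Helper14.OrthIndex.sq_mem_omega h2
      (Cfsg.Agent.Lib.Helper44.NegPairs.plusQ d F) hSQ (by rw [hcardP]; omega) _
  exact Subgroup.mem_map.mpr ⟨g', hmem, by rw [hg']; rfl⟩

/-- CASE A: `0 < (2 d) % c`. -/
theorem caseA (F : Type u) [Field F] [Fintype F] (p : ℕ) [Fact p.Prime] [CharP F p]
    (hodd : Odd (Fintype.card F)) (d : ℕ) (hd : 2 ≤ d) (r : ℕ) [Fact r.Prime] (hr2 : r ≠ 2)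
    (hrp : r ≠ p)
    (hcle : cc (orderOf ((Fintype.card F : ℕ) : ZMod r)) ≤ 2 * d)
    (hpos : 0 < (2 * d) % cc (orderOf ((Fintype.card F : ℕ) : ZMod r))) :
    ∃ x : Matrix.GeneralLinearGroup (P d) F, x ∈ Cfsg.Geo.omegaGL (Cfsg.quadFormPlus d F) ∧
      orderOf x = r ∧
      Module.finrank F ↥(FxP (x : Matrix (P d) (P d) F)) =
        (2 * d) % cc (orderOf ((Fintype.card F : ℕ) : ZMod r)) := by
  classical
  have hr : r.Prime := Fact.out
  obtain ⟨c', hreal, hdeg, hnd⟩ :=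
    Cfsg.Agent.Lib.Helper59.HypDERELT.exists_block F p r hr hr2 hrp
  obtain ⟨hipos, -⟩ := Cfsg.Agent.Lib.Helper59.HypDERELT.order_facts F p r hr hrp
  obtain ⟨c0, hc0⟩ : ∃ c0, c0 = cc (orderOf ((Fintype.card F : ℕ) : ZMod r)) := ⟨_, rfl⟩
  rw [← hc0] at hdeg hcle hpos ⊢
  have hc0even : Even c0 := by
    rw [hc0]
    unfold cc
    split_ifs with h
    · exact h
    · exact even_two_mul _
  have hc0pos : 0 < c0 := by
    rw [hc0]
    unfold cc
    split_ifs with h
    · exact hipos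
    · omega
  obtain ⟨b, hb⟩ : ∃ b, b = (2 * d) / c0 := ⟨_, rfl⟩
  obtain ⟨ι, _, _, s, N, hsc, hsr, hsN, hNdet⟩ :=
    Cfsg.Agent.Lib.Helper59.HypDERELT.real_pow hreal b
  have hcard : Fintype.card ι = b * c0 := by
    have h1 := Matrix.charpoly_natDegree_eq_dim s
    rw [hsc, natDegree_pow, hdeg] at h1
    exact h1.symm
  have hbc : b * c0 + (2 * d) % c0 = 2 * d := by
    rw [hb]
    exact Nat.div_add_mod' _ _
  have hbceven : Even (b * c0) := hc0even.mul_left b
  have hlt : b * c0 < 2 * d := by omega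
  have hcardP : Fintype.card (P d) = 2 * d := by
    simp [P]
    omega
  have hSQ : Cfsg.Agent.Lib.Helper44.QSpace.Sep (Cfsg.Agent.Lib.Helper44.NegPairs.plusQ d F) :=
    Cfsg.Agent.Lib.Helper44.NegPairs.sep_plusQ d
  have hSN : Cfsg.Agent.Lib.Helper44.QSpace.Sep (Cfsg.Agent.Lib.Helper44.OExt.qN N) :=
    Cfsg.Agent.Lib.Helper44.OExt.sep_qN hNdet
  obtain ⟨k, hk⟩ := hbceven
  obtain ⟨j, hj⟩ := Cfsg.Agent.Lib.Helper44.OEmb.exists_embedding (F := F) k (ι → F)
    (Cfsg.Agent.Lib.Helper44.OExt.qN N) (P d → F) (Cfsg.Agent.Lib.Helper44.NegPairs.plusQ d F)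
    (by rw [Module.finrank_fintype_fun_eq_card, hcard]; omega)
    (by rw [Module.finrank_fintype_fun_eq_card, Module.finrank_fintype_fun_eq_card, hcard,
          hcardP]; exact hlt) hSN hSQ
  have hLp : Prime (X - C (1 : F)) := (irreducible_X_sub_C 1).prime
  have hmodlt := Nat.mod_lt (2 * d) hc0pos
  refine tail F p hodd d hd r hr hr2 hrp ((2 * d) % c0) (by omega) ι s N hsr hsN hNdet
    (by rw [hcard]; exact hbc) ?_ j hj
  rw [hsc]
  intro h4
  exact hnd (hLp.dvd_of_dvd_pow h4)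

/-- An irreducible factor of `X ^ r - 1` other than `X - 1`; its degree is the order of `q`
modulo `r`. -/
theorem exists_irr (F : Type u) [Field F] [Fintype F] (p : ℕ) [Fact p.Prime] [CharP F p]
    (r : ℕ) (hr : r.Prime) (hr2 : r ≠ 2) (hrp : r ≠ p) :
    ∃ P₁ : F[X], Irreducible P₁ ∧ P₁.Monic ∧
      P₁.natDegree = orderOf ((Fintype.card F : ℕ) : ZMod r) ∧
      P₁ ∣ X ^ r - C (1 : F) ∧ P₁ ≠ X - C 1 := by
  classical
  obtain ⟨i, hi⟩ : ∃ i, i = orderOf ((Fintype.card F : ℕ) : ZMod r) := ⟨_, rfl⟩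
  obtain ⟨hipos, hidvd⟩ := Cfsg.Agent.Lib.Helper59.HypDERELT.order_facts F p r hr hrp
  rw [← hi] at hipos hidvd ⊢
  obtain ⟨t, ht'⟩ := hidvd
  have ht : t * i = r - 1 := by rw [ht', mul_comm]
  have hr3 : 3 ≤ r := by
    have := hr.two_le
    omega
  have hrodd : Odd r := hr.odd_of_ne_two hr2
  have htpos : 1 ≤ t := by
    rcases Nat.eq_zero_or_pos t with h | h
    · subst h
      omega
    · exact h
  obtain ⟨S, hLS, hSp, hSdvd, hcount, hdec⟩ := setup (F := F) (p := p) r i t hr hr2 hrp hi ht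
  have hk : 1 < (D S (cc i)).ncard := by
    rw [hcount]
    unfold cc
    by_cases hodd : Odd i
    · have hne : ¬ Even i := Nat.not_even_iff_odd.mpr hodd
      rw [if_pos hodd, if_neg hne]
      have h1 : 2 * i / (2 * i) = 1 := Nat.div_self (by omega)
      rw [h1]
      have ht2 : 2 ≤ t := by
        rcases Nat.even_or_odd t with hte | hto
        · obtain ⟨a, ha⟩ := hte
          omega
        · exfalso
          have h3 : Odd (t * i) := hto.mul hodd
          rw [ht] at h3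
          obtain ⟨a, ha⟩ := hrodd
          obtain ⟨b, hb⟩ := h3
          omega
      have h2 : 1 ≤ t / 2 := by omega
      rw [Nat.add_comm 1 (t / 2), Nat.choose_succ_self_right]
      omega
    · have he : Even i := Nat.not_odd_iff_even.mp hodd
      rw [if_neg hodd, if_pos he]
      have h1 : i / i = 1 := Nat.div_self hipos
      rw [h1, Nat.add_comm 1 t, Nat.choose_succ_self_right]
      omega
  obtain ⟨c, hcD, hcne⟩ := Set.exists_ne_of_one_lt_ncard hk ((X - C (1 : F)) ^ (cc i))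
  obtain ⟨c', hcc', hle, heven, hreal, hnd⟩ := hdec (cc i) c hcD
  obtain ⟨hcm, hcdeg, hcfac, hcs⟩ := hcD
  have hLm : (X - C (1 : F)).Monic := monic_X_sub_C 1
  have hc'm : c'.Monic := by
    have h1 : ((X - C (1 : F)) ^ (cc i - c'.natDegree) * c').Monic := hcc' ▸ hcm
    exact (hLm.pow _).of_mul_monic_left h1
  have hc'0 : c' ≠ 0 := hc'm.ne_zero
  have hfac : ∀ P ∈ normalizedFactors c', P ∈ S := by
    intro P hP
    have hPc : P ∈ normalizedFactors c := by
      rw [hcc', normalizedFactors_mul (pow_ne_zero _ hLm.ne_zero) hc'0]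
      exact Multiset.mem_add.mpr (Or.inr hP)
    rcases hcfac P hPc with h | h
    · exact absurd (h ▸ dvd_of_mem_normalizedFactors hP) hnd
    · exact h
  have hc'1 : c' ≠ 1 := by
    intro h1
    apply hcne
    rw [hcc', h1, mul_one, natDegree_one, Nat.sub_zero]
  have hnu : ¬ IsUnit c' := by
    intro hu
    exact hc'1 (hc'm.eq_one_of_isUnit hu)
  obtain ⟨P₁, hP₁⟩ : ∃ P₁, P₁ ∈ normalizedFactors c' := by
    obtain ⟨q, hq1, hq2⟩ := WfDvdMonoid.exists_irreducible_factor hnu hc'0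
    obtain ⟨q', hq'mem, -⟩ := exists_mem_normalizedFactors_of_dvd hc'0 hq1 hq2
    exact ⟨q', hq'mem⟩
  have hPS := hfac P₁ hP₁
  obtain ⟨h1, h2, h3⟩ := hSp P₁ hPS
  refine ⟨P₁, h1, h2, h3, (hSdvd P₁ h1 h2).mpr (Or.inr hPS), ?_⟩
  intro h
  exact hLS (h ▸ hPS)

/-- CASE B: `i ∣ d`: an element without fixed vectors, `fromBlocks A 0 0 (A⁻¹)ᵀ`. -/
theorem caseB (F : Type u) [Field F] [Fintype F] (p : ℕ) [Fact p.Prime] [CharP F p]
    (hodd : Odd (Fintype.card F)) (d : ℕ) (hd : 2 ≤ d) (r : ℕ) [Fact r.Prime] (hr2 : r ≠ 2)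
    (hrp : r ≠ p) (hdvd : orderOf ((Fintype.card F : ℕ) : ZMod r) ∣ d) :
    ∃ x : Matrix.GeneralLinearGroup (P d) F, x ∈ Cfsg.Geo.omegaGL (Cfsg.quadFormPlus d F) ∧
      orderOf x = r ∧ Module.finrank F ↥(FxP (x : Matrix (P d) (P d) F)) = 0 := by
  classical
  have hr : r.Prime := Fact.out
  obtain ⟨P₁, hPirr, hPm, hPdeg, hPr, hP1⟩ := exists_irr F p r hr hr2 hrp
  obtain ⟨m, hm⟩ := hdvd
  have hXr0 : (X ^ r - C (1 : F)).coeff 0 ≠ 0 := by
    rw [coeff_sub, coeff_X_pow, coeff_C_zero, if_neg hr.ne_zero.symm, zero_sub]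
    exact neg_ne_zero.mpr one_ne_zero
  have hP0 : P₁.coeff 0 ≠ 0 := coeff0_of_dvd hPr hXr0
  have hcm : (P₁ ^ m).Monic := hPm.pow m
  have hcdeg : (P₁ ^ m).natDegree = d := by
    rw [natDegree_pow, hPdeg, hm, mul_comm]
  have hc0 : (P₁ ^ m).coeff 0 ≠ 0 := by
    rw [coeff_zero_eq_eval_zero, eval_pow, ← coeff_zero_eq_eval_zero]
    exact pow_ne_zero _ hP0
  obtain ⟨A, hAc, N₀, hN₀pos, hN₀cop, hAN₀⟩ :=
    Cfsg.Agent.Lib.Helper40.SSCount.exists_charpoly p d (P₁ ^ m) hcm hcdeg hc0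
  have hAr : A ^ r = 1 := by
    apply Cfsg.Agent.S2568.pow_eq_one_of_charpoly A r N₀ hN₀cop hAN₀
    intro P' hP'
    rw [hAc] at hP'
    have h1 : P' ∣ P₁ ^ m := dvd_of_mem_normalizedFactors hP'
    have h2 : P' ∣ P₁ := (prime_of_normalized_factor P' hP').dvd_of_dvd_pow h1
    exact h2.trans hPr
  obtain ⟨A', hA'⟩ : ∃ A' : Matrix (Fin d) (Fin d) F, A' = A ^ (r - 1) := ⟨_, rfl⟩
  have h1 : A * A' = 1 := by rw [hA', ← pow_succ', Nat.sub_add_cancel hr.pos, hAr]
  have h2 : A' * A = 1 := by rw [hA', ← pow_succ, Nat.sub_add_cancel hr.pos, hAr]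
  have hA'r : A' ^ r = 1 := by rw [hA', ← pow_mul, mul_comm, pow_mul, hAr, one_pow]
  obtain ⟨s, hs⟩ : ∃ s : Matrix (Fin d ⊕ Fin d) (Fin d ⊕ Fin d) F,
      s = fromBlocks A 0 0 A'ᵀ := ⟨_, rfl⟩
  obtain ⟨N, hN⟩ : ∃ N : Matrix (Fin d ⊕ Fin d) (Fin d ⊕ Fin d) F,
      N = fromBlocks 0 1 0 0 := ⟨_, rfl⟩
  have hsc : s.charpoly = A.charpoly * rstar (RingHom.id F) A.charpoly := by
    rw [hs, Matrix.charpoly_fromBlocks_zero₁₂, Matrix.charpoly_transpose,
      Cfsg.Agent.Lib.Helper44.OCls1.rstar_charpoly_inv A A' h1]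
  have hsr : s ^ r = 1 := by
    rw [hs, fromBlocks_diag_pow, hAr, ← transpose_pow, hA'r, transpose_one, fromBlocks_one]
  have hsN : sᵀ * N * s = N := by
    rw [hs, hN, fromBlocks_transpose, fromBlocks_multiply, fromBlocks_multiply]
    simp only [transpose_zero, transpose_transpose, Matrix.mul_zero, Matrix.zero_mul, add_zero,
      zero_add, Matrix.mul_one]
    rw [← transpose_mul, h2, transpose_one]
  have hNdet : (N + Nᵀ).det ≠ 0 := by
    rw [hN, fromBlocks_transpose, fromBlocks_add]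
    simp only [transpose_zero, transpose_one, add_zero, zero_add]
    intro h0
    have h3 : (fromBlocks (0 : Matrix (Fin d) (Fin d) F) (1 : Matrix (Fin d) (Fin d) F)
        (1 : Matrix (Fin d) (Fin d) F) (0 : Matrix (Fin d) (Fin d) F)) *
        (fromBlocks (0 : Matrix (Fin d) (Fin d) F) (1 : Matrix (Fin d) (Fin d) F)
        (1 : Matrix (Fin d) (Fin d) F) (0 : Matrix (Fin d) (Fin d) F)) = 1 := by
      rw [fromBlocks_multiply]
      simp [fromBlocks_one]
    have h4 := congrArg Matrix.det h3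
    rw [Matrix.det_mul, h0, zero_mul, Matrix.det_one] at h4
    exact zero_ne_one h4
  have hj : ∀ u, Cfsg.Agent.Lib.Helper44.NegPairs.plusQ d F
      ((LinearMap.id : (P d → F) →ₗ[F] (P d → F)) u) =
      Cfsg.Agent.Lib.Helper44.OExt.qN N u := by
    intro u
    rw [LinearMap.id_apply, Cfsg.Agent.Lib.Helper44.OExt.qN_apply, hN]
    show Cfsg.quadFormPlus d F u = _
    unfold Cfsg.quadFormPlus
    simp [Matrix.mulVec, dotProduct, Fintype.sum_sum_type, Matrix.one_apply]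
  have hLp : Prime (X - C (1 : F)) := (irreducible_X_sub_C 1).prime
  have hnd1 : ¬ (X - C (1 : F)) ∣ A.charpoly := by
    rw [hAc]
    intro h
    have h3 : (X - C (1 : F)) ∣ P₁ := hLp.dvd_of_dvd_pow h
    have h4 : Associated (X - C (1 : F)) P₁ := (irreducible_X_sub_C 1).associated_of_dvd hPirr h3
    exact hP1 (eq_of_monic_of_associated (monic_X_sub_C 1) hPm h4).symm
  refine tail F p hodd d hd r hr hr2 hrp 0 (by omega) (Fin d ⊕ Fin d) s N hsr hsN hNdet
    (by simp; omega) ?_ LinearMap.id hj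
  rw [hsc]
  intro h
  rcases hLp.dvd_or_dvd h with h5 | h5
  · exact hnd1 h5
  · apply hnd1
    rw [dvd_iff_isRoot] at h5 ⊢
    unfold rstar at h5
    rw [IsRoot.def, eval_mul, eval_C, RingHom.id_apply, Polynomial.map_id, reverse_eval_one]
      at h5
    rcases mul_eq_zero.mp h5 with h6 | h6
    · exfalso
      have hA0 : A.charpoly.coeff 0 ≠ 0 := by rw [hAc]; exact hc0
      exact (inv_ne_zero hA0) h6
    · exact h6

theorem main : DerEltP.{u} := by
  intro F _ _ p _ _ hodd d hd r _ hr2 hrp hcle hcond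
  have hr : r.Prime := Fact.out
  by_cases hpos : 0 < (2 * d) % cc (orderOf ((Fintype.card F : ℕ) : ZMod r))
  · exact caseA F p hodd d hd r hr2 hrp hcle hpos
  · have hmod : (2 * d) % cc (orderOf ((Fintype.card F : ℕ) : ZMod r)) = 0 := by omega
    rw [hmod]
    apply caseB F p hodd d hd r hr2 hrp
    obtain ⟨i, hi⟩ : ∃ i, i = orderOf ((Fintype.card F : ℕ) : ZMod r) := ⟨_, rfl⟩
    rw [← hi] at hmod hcond ⊢
    have hoddcase : ¬ Even i → i ∣ d := by
      intro he
      have hcc : cc i = 2 * i := by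
        unfold cc
        rw [if_neg he]
      rw [hcc] at hmod
      have h3 : 2 * i ∣ 2 * d := Nat.dvd_of_mod_eq_zero hmod
      exact (Nat.mul_dvd_mul_iff_left (by norm_num)).mp h3
    rcases hcond with h | h | h
    · omega
    · exact hoddcase (Nat.not_even_iff_odd.mpr h)
    · by_cases he : Even i
      · have hcc : cc i = i := by
          unfold cc
          rw [if_pos he]
        rw [hcc] at hmod
        obtain ⟨k, hk⟩ := h
        have h3 : i * (2 * d / i) = 2 * d := Nat.mul_div_cancel' (Nat.dvd_of_mod_eq_zero hmod)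
        rw [hk, mul_add] at h3
        exact ⟨k, by omega⟩
      · exact hoddcase he

end Cfsg.Agent.Lib.Helper35.OPDerA
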