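import Mathlib
import Cfsg.Agent.Lib.Helper35.S82Stmt

/-!
# S1382: assembly from the pieces of `Cfsg.Agent.Lib.Helper35.S82Stmt` (helper35)
-/

set_option autoImplicit false

namespace Cfsg.Agent.Lib.Helper35.S82Asm

universe u

open Cfsg Cfsg.Agent.Lib.Helper35.S82Stmt

theorem kappa_nonempty {G : Type u} [Group G] [Finite G] (M K U : Subgroup G)
    (hKU : Cfsg.IsSigmaDecomposition M K U) (hK : K ≠ ⊥) : (Cfsg.kappa M).Nonempty := by
  have h1 : Nat.card K ≠ 1 := fun h => hK (Subgroup.card_eq_one.mp h)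
  obtain ⟨p, hp, hpd⟩ := Nat.exists_prime_and_dvd h1
  exact ⟨p, hKU.hall.2.1 p hp hpd⟩

theorem thm_of (hFwd : Fwd.{u}) (hD : ComplD.{u}) (hN : NDLe.{u}) (hW1 : W1Data.{u})
    (hPA : PrimAct.{u}) (hSN : SelfN.{u}) (h56 : P56.{u}) (h57 : P57.{u}) (h64 : P64.{u})
    (h65 : P65.{u}) {G : Type u} [Group G] [Finite G] (hG : Cfsg.IsMinSimpleOddOrder G)
    (M : Subgroup G) (hM : IsCoatom M) (K U : Subgroup G)
    (hKU : Cfsg.IsSigmaDecomposition M K U) :
    (Cfsg.IsOfTypeIII M ∨ Cfsg.IsOfTypeIV M) ↔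
      (K ≠ ⊥ ∧ U = ⊥ ∧ Cfsg.fittingHallOf M ≠ Cfsg.sigmaCore M) := by
  constructor
  · exact hFwd hG M K U hM hKU
  · rintro ⟨hK, hU, hne⟩
    obtain ⟨D, hDnil, hKD, hDc, hDne, hDle, hDhall⟩ := hD hG M K U hM hKU hK hU hne
    have hND := hN hG M hM D hDle hDne hDnil hDhall
    obtain ⟨hcop, hcompl⟩ := hW1 hG M K U hM hKU hK hU
    obtain ⟨h56a, h56b, h56c⟩ := h56 hG M hM
    obtain ⟨-, hTI, hprime⟩ := h57 hG M hM K U hKU hne
    obtain ⟨-, -, hKsF, hncyc⟩ := h64 hG M hM K U hKU hK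
    obtain ⟨h65a, h65b⟩ := h65 hG M hM K U hKU hK
    have hfe : Cfsg.fittingHallOf M ⊔ (M ⊓ Subgroup.centralizer (Cfsg.fittingHallOf M : Set G)) =
        Cfsg.fittingOf M := by
      rw [sup_comm]; exact h56b.symm
    have hP : Cfsg.IsTypePWith M K D (Cfsg.sigmaCore M ⊓ Subgroup.centralizer (K : Set G)) :=
      { W₁_ne := hK
        W₁_cyclic := hKU.cyclic
        W₁_hall := hcop
        W₁_compl := hcompl
        U_nilpotent := hDnil
        U_normal := hKD
        U_compl := hDc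
        H_not_cyclic := hncyc
        derived_two_le := by rw [hfe]; exact h56a
        fitting_eq := hfe
        fitting_le := h56c (kappa_nonempty M K U hKU hK)
        W₂_le := le_inf hKsF h65b
        W₂_centralizer := by
          intro x hx hx1
          rw [h65a, hU, bot_sup_eq]
          exact hPA hG M K U hM hKU hK x hx hx1
        selfNormalizing := hSN hG M K U hM hKU hK }
    by_cases hc : IsMulCommutative D
    · exact Or.inl ⟨K, D, _, hP, hDne, hprime, hTI, hc, hND⟩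
    · exact Or.inr ⟨K, D, _, hP, hDne, hprime, hTI, hc, hND⟩

end Cfsg.Agent.Lib.Helper35.S82Asm
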