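-- The Schur multiplier of `SL₂(9)` is cyclic of order 3: transfer bound (Sylow 3-subgroup of
-- type 3 × 3; the primes different from 3 are handled as for the other `SL₂(q)`), and the
-- fibre product of `SL₂(9) → A_6` with the triple cover of `A_6` for the existence.
import Mathlib
import Cfsg.Prelude.Def_KGroupFacts
import Cfsg.Agent.Lib.Helper35.AltSix
import Cfsg.Agent.Lib.Helper38.SLCard
import Cfsg.Agent.S0254
import Cfsg.Agent.S2117

set_option autoImplicit false

namespace Cfsg.Agent.Lib.Helper35.SL2Nine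

open Subgroup Cfsg.Agent.Lib.Helper35 Cfsg.Agent.Lib.Helper66
open scoped commutatorElement

universe u

section

variable {F : Type u} [Field F] [Fintype F]

theorem charP_three (hF : Fintype.card F = 9) : CharP F 3 := by
  obtain ⟨p, hp⟩ := CharP.exists F
  obtain ⟨n, hpp, hn⟩ := FiniteField.card F p
  have h1 : p ∣ 3 ^ 2 := by
    have h2 : p ∣ p ^ (n : ℕ) := dvd_pow_self p n.ne_zero
    rw [← hn, hF] at h2
    exact h2
  have h2 : p = 3 := (Nat.prime_dvd_prime_iff_eq hpp Nat.prime_three).mp (hpp.dvd_of_dvd_pow h1)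
  subst h2
  exact hp

omit [Fintype F] in
theorem u_inj {s r : F} (h : Cfsg.Agent.S2117.u s = Cfsg.Agent.S2117.u r) : s = r := by
  have h1 := congrArg (fun m : Matrix.SpecialLinearGroup (Fin 2) F =>
    (m : Matrix (Fin 2) (Fin 2) F) 0 1) h
  simpa [Cfsg.Agent.S2117.u] using h1

/-- The kernel of a finite stem extension of `SL₂(9)` has order dividing `3`. -/
theorem bound (hF : Fintype.card F = 9) {Γ : Type u} [Group Γ] [Finite Γ]
    (σ : Γ →* Matrix.SpecialLinearGroup (Fin 2) F) (hσ : Cfsg.IsStemExtension σ) :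
    Nat.card σ.ker ∣ 3 := by
  classical
  have hchar : CharP F 3 := charP_three hF
  have hcard : Nat.card (Matrix.SpecialLinearGroup (Fin 2) F) = 3 ^ 2 * 80 := by
    rw [Cfsg.Agent.Lib.Helper38.SLCard.card_SL2, hF]; norm_num
  obtain ⟨a, ha0, ha1, ha2⟩ : ∃ a : F, a ≠ 0 ∧ a ≠ 1 ∧ a ≠ 2 := by
    by_contra hcon
    push Not at hcon
    have hsub : (Finset.univ : Finset F) ⊆ {0, 1, 2} := by
      intro a _
      by_cases h0 : a = 0
      · simp [h0]
      · by_cases h1 : a = 1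
        · simp [h1]
        · simp [hcon a h0 h1]
    have h1 := Finset.card_le_card hsub
    rw [Finset.card_univ, hF] at h1
    have h3 : ({0, 1, 2} : Finset F).card ≤ 3 := Finset.card_le_three
    omega
  have h3F : ((3 : ℕ) : F) = 0 := CharP.cast_eq_zero F 3
  have hu3 : ∀ s : F, Cfsg.Agent.S2117.u s ^ 3 = 1 := by
    intro s
    rw [← Cfsg.Agent.S2117.u_nsmul, nsmul_eq_mul, h3F, zero_mul, Cfsg.Agent.S2117.u_zero]
  have hune : ∀ s : F, s ≠ 0 → Cfsg.Agent.S2117.u s ≠ 1 := by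
    intro s hs h
    rw [← Cfsg.Agent.S2117.u_zero] at h
    exact hs (u_inj h)
  have hcomm : Cfsg.Agent.S2117.u (1 : F) * Cfsg.Agent.S2117.u a =
      Cfsg.Agent.S2117.u a * Cfsg.Agent.S2117.u 1 := by
    rw [← Cfsg.Agent.S2117.u_add, ← Cfsg.Agent.S2117.u_add, add_comm]
  have hne : ∀ i < 3, Cfsg.Agent.S2117.u a ≠ Cfsg.Agent.S2117.u (1 : F) ^ i := by
    intro i hi h
    rw [← Cfsg.Agent.S2117.u_nsmul] at h
    have h1 := u_inj h
    interval_cases i
    · exact ha0 (by simpa using h1)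
    · exact ha1 (by simpa using h1)
    · apply ha2
      rw [h1, two_nsmul]
      norm_num
  apply PrimeMult.card_ker_dvd_of_local σ hσ 3 ?_
    (closure ({Cfsg.Agent.S2117.u (1 : F), Cfsg.Agent.S2117.u a} : Set _)) ?_ ?_
  · intro l hl hne3
    refine ⟨⊤, by simp, ?_⟩
    intro z hz hzl
    have : Fact l.Prime := ⟨hl⟩
    have hz1 : z ∈ _root_.commutator Γ := by
      have h1 := (Subgroup.mem_inf.mp hz).1
      rw [Subgroup.comap_top] at h1
      exact h1
    apply Cfsg.Agent.S2117.case_ne_char σ hσ.2.1 z (Subgroup.mem_inf.mp hz).2 hz1 l hzl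
    intro h0
    have hdvd := (CharP.cast_eq_zero_iff F 3 l).mp h0
    exact hne3 ((Nat.prime_dvd_prime_iff_eq Nat.prime_three hl).mp hdvd).symm
  · exact AltMult.index_coprime_of_pair 3 Nat.prime_three
      (orderOf_eq_prime (hu3 1) (hune 1 one_ne_zero)) (orderOf_eq_prime (hu3 a) (hune a ha0))
      hcomm hne hcard (by decide)
  · exact AltMult.pair_card_dvd σ hσ.1 hσ.2.1 hcomm 3 (hu3 1)

/-- A central extension of `SL₂(9)` with a nontrivial element in the intersection of its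
kernel and its commutator subgroup: the fibre product with the triple cover of `A_6`. -/
theorem exists_ext (hF : Fintype.card F = 9) :
    ∃ (X : Type u) (_ : Group X) (ξ : X →* Matrix.SpecialLinearGroup (Fin 2) F),
      Function.Surjective ξ ∧ ξ.ker ≤ Subgroup.center X ∧
      ∃ z : X, z ∈ _root_.commutator X ⊓ ξ.ker ∧ z ≠ 1 := by
  classical
  obtain ⟨e⟩ := Cfsg.Agent.S0254.result hF
  let ρ : Matrix.SpecialLinearGroup (Fin 2) F →* alternatingGroup (Fin 6) :=
    e.toMonoidHom.comp (QuotientGroup.mk' (Subgroup.center (Matrix.SpecialLinearGroup (Fin 2) F)))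
  have hρ : Function.Surjective ρ := e.surjective.comp (QuotientGroup.mk'_surjective _)
  have hcard : Nat.card (Matrix.SpecialLinearGroup (Fin 2) F) = 720 := by
    rw [Cfsg.Agent.Lib.Helper38.SLCard.card_SL2, hF]; norm_num
  have hcardA : Nat.card (alternatingGroup (Fin 6)) = 360 := by
    rw [nat_card_alternatingGroup]; simp [Nat.factorial]
  have hker2 : Nat.card ρ.ker = 2 := by
    have h1 := Subgroup.card_mul_index ρ.ker
    rw [Subgroup.index_ker, MonoidHom.range_eq_top.mpr hρ, Subgroup.card_top, hcardA, hcard] at h1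
    omega
  have hsq : ∀ c ∈ ρ.ker, c ^ 2 = 1 := by
    intro c hc
    have h1 := Subgroup.orderOf_dvd_natCard _ hc
    rw [hker2] at h1
    exact orderOf_dvd_iff_pow_eq_one.mp h1
  let FP : Subgroup (Matrix.SpecialLinearGroup (Fin 2) F × ↥AltSix.X6) :=
    (ρ.comp (MonoidHom.fst _ _)).eqLocus (AltSix.proj6.comp (MonoidHom.snd _ _))
  have hFP : ∀ p : Matrix.SpecialLinearGroup (Fin 2) F × ↥AltSix.X6,
      p ∈ FP ↔ ρ p.1 = AltSix.proj6 p.2 := fun p => Iff.rfl
  let ξ : ↥FP →* Matrix.SpecialLinearGroup (Fin 2) F := (MonoidHom.fst _ _).comp FP.subtype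
  have hξ : ∀ p : ↥FP, ξ p = p.1.1 := fun p => rfl
  refine ⟨↥FP, inferInstance, ξ, ?_, ?_, ?_⟩
  · intro s
    obtain ⟨x, hx⟩ := AltSix.proj6_surjective (ρ s)
    exact ⟨⟨(s, x), (hFP _).mpr hx.symm⟩, rfl⟩
  · intro p hp
    have hp1 : p.1.1 = 1 := hp
    have hp2 : p.1.2 ∈ AltSix.proj6.ker := by
      rw [MonoidHom.mem_ker, ← (hFP p.1).mp p.2, hp1, map_one]
    rw [Subgroup.mem_center_iff]
    intro q
    apply Subtype.ext
    apply Prod.ext
    · show q.1.1 * p.1.1 = p.1.1 * q.1.1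
      rw [hp1, mul_one, one_mul]
    · show q.1.2 * p.1.2 = p.1.2 * q.1.2
      exact Subgroup.mem_center_iff.mp (AltSix.proj6_ker_le_center hp2) q.1.2
  · obtain ⟨s, hs⟩ := hρ (AltSix.proj6 AltSix.a6)
    obtain ⟨t, ht⟩ := hρ (AltSix.proj6 AltSix.b6)
    let A : ↥FP := ⟨(s, AltSix.a6), (hFP _).mpr hs⟩
    let B : ↥FP := ⟨(t, AltSix.b6), (hFP _).mpr ht⟩
    have hab : ⁅AltSix.a6, AltSix.b6⁆ = AltSix.z6 := Subtype.ext TripleA7.comm_eq
    have hw1 : (⁅A, B⁆ : ↥FP).1.1 = ⁅s, t⁆ := rfl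
    have hw2 : (⁅A, B⁆ : ↥FP).1.2 = AltSix.z6 := hab
    have hck : ⁅s, t⁆ ∈ ρ.ker := by
      rw [MonoidHom.mem_ker, map_commutatorElement, hs, ht, ← map_commutatorElement, hab]
      exact (Subgroup.mem_inf.mp AltSix.z6_mem).2
    refine ⟨⁅A, B⁆ ^ 2, Subgroup.mem_inf.mpr ⟨?_, ?_⟩, ?_⟩
    · exact Subgroup.pow_mem _
        (Subgroup.commutator_mem_commutator (Subgroup.mem_top _) (Subgroup.mem_top _)) 2
    · rw [MonoidHom.mem_ker, map_pow, hξ, hw1]
      exact hsq _ hck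
    · intro h
      have h1 : (⁅A, B⁆ ^ 2 : ↥FP).1.2 = 1 := by rw [h]; rfl
      have h2 : AltSix.z6 ^ 2 = 1 := by
        rw [← hw2]
        exact h1
      have h3 := orderOf_dvd_of_pow_eq_one h2
      rw [AltSix.z6_order] at h3
      omega

/-- The Schur multiplier of `SL₂(9)` is cyclic of order `3`. -/
theorem multiplier (hF : Fintype.card F = 9) :
    Cfsg.HasCyclicSchurMultiplier (Matrix.SpecialLinearGroup (Fin 2) F) 3 := by
  obtain ⟨X, _, ξ, hξ, hc, z, hz, hz1⟩ := exists_ext hF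
  exact PrimeMult.hasCyclic_prime_of_bound 3 Nat.prime_three
    (fun Γ _ _ σ hσ => bound hF σ hσ) ξ hξ hc z hz hz1

end

end Cfsg.Agent.Lib.Helper35.SL2Nine
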