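-- Checks of the data of a double cover of Sz(8) (part 1).
import Cfsg.Agent.Lib.Helper35.Sz8C2Data

set_option autoImplicit false

namespace Cfsg.Agent.Lib.Helper35.Sz8C2Chk1

open Cfsg.Agent.Lib.Helper35.GCover Cfsg.Agent.Lib.Helper35.Sz8C2Data
  Cfsg.Agent.Lib.Helper35.Sz8Tab

theorem fmask : allLt 3 (fun c => allLt dat.N (fun x => allLt 65 (fun i =>
    (dat.mask (dat.f c x)).testBit (szT c i) == (dat.mask x).testBit i))) = true := by
  decide +kernel

theorem zlt : allLt dat.N (fun x => Nat.blt (dat.zf x) dat.N) = true := by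
  decide +kernel

theorem zpow : allLt dat.N (fun x => Nat.beq (dat.zf^[dat.m] x) x) = true := by
  decide +kernel

theorem zzero : allLt dat.m (fun i => Nat.beq (dat.zf^[i] 0) i) = true := by
  decide +kernel

theorem zmask : allLt dat.N (fun x => Nat.beq (dat.mask (dat.zf x)) (dat.mask x)) = true := by
  decide +kernel

theorem flt : allLt 3 (fun c => allLt dat.N (fun x => Nat.blt (dat.f c x) dat.N)) = true := by
  decide +kernel

theorem fpow : allLt 3 (fun c => allLt dat.N (fun x => Nat.beq ((dat.f c)^[dat.ko c + 1] x) x)) = true := by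
  decide +kernel

theorem fz : allLt 3 (fun c => allLt dat.N (fun x =>
    Nat.beq (dat.f c (dat.zf x)) (dat.zf (dat.f c x)))) = true := by
  decide +kernel

end Cfsg.Agent.Lib.Helper35.Sz8C2Chk1
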