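-- Checks of the data of a double cover of Sz(8) (part 2).
import Cfsg.Agent.Lib.Helper35.Sz8C2Data

set_option autoImplicit false

namespace Cfsg.Agent.Lib.Helper35.Sz8C2Chk2

open Cfsg.Agent.Lib.Helper35.GCover Cfsg.Agent.Lib.Helper35.Sz8C2Data
  Cfsg.Agent.Lib.Helper35.Sz8Tab

theorem fnb : allLt 3 (fun c => allLt dat.N (fun x => allLt dat.v (fun j =>
    Nat.blt (dat.w c x j) dat.v && Nat.beq (dat.f c (dat.nb x j)) (dat.nb (dat.f c x) (dat.w c x j))))) = true := by
  decide +kernel

theorem znb : allLt dat.N (fun x => allLt dat.v (fun j =>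
    Nat.beq (dat.zf (dat.nb x j)) (dat.nb (dat.zf x) j))) = true := by
  decide +kernel

theorem nbsorted : allLt dat.N (fun x => allLt (dat.v - 1) (fun j =>
    Nat.blt (dat.nb x j / dat.m) (dat.nb x (j + 1) / dat.m))) = true := by
  decide +kernel

theorem tree : allLt dat.N (fun x => Nat.beq x 0 || (Nat.blt (dat.par x) dat.N && Nat.blt (dat.parj x) dat.v
    && Nat.beq (dat.nb (dat.par x) (dat.parj x)) x && Nat.blt (dat.dep (dat.par x)) (dat.dep x))) = true := by
  decide +kernel

theorem masklt : allLt dat.NB (fun k => Nat.blt (dat.maskB k) (2 ^ 65)) = true := by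
  decide +kernel

theorem masksorted : allLt (dat.NB - 1) (fun k => Nat.blt (dat.maskB k) (dat.maskB (k + 1))) = true := by
  decide +kernel

end Cfsg.Agent.Lib.Helper35.Sz8C2Chk2
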