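-- The data of a double cover of Sz(8) are good.
import Cfsg.Agent.Lib.Helper35.Sz8C2Chk1
import Cfsg.Agent.Lib.Helper35.Sz8C2Chk2

set_option autoImplicit false

namespace Cfsg.Agent.Lib.Helper35.Sz8C2

open Cfsg.Agent.Lib.Helper35.GCover Cfsg.Agent.Lib.Helper35.Sz8C2Data
  Cfsg.Agent.Lib.Helper35.Sz8Tab

theorem good : Good dat 3 65 szT where
  mpos := by decide
  NBpos := by decide
  fmask := Sz8C2Chk1.fmask
  zlt := Sz8C2Chk1.zlt
  zpow := Sz8C2Chk1.zpow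
  zzero := Sz8C2Chk1.zzero
  zmask := Sz8C2Chk1.zmask
  flt := Sz8C2Chk1.flt
  fpow := Sz8C2Chk1.fpow
  fz := Sz8C2Chk1.fz
  fnb := Sz8C2Chk2.fnb
  znb := Sz8C2Chk2.znb
  nbsorted := Sz8C2Chk2.nbsorted
  tree := Sz8C2Chk2.tree
  masklt := Sz8C2Chk2.masklt
  masksorted := Sz8C2Chk2.masksorted

end Cfsg.Agent.Lib.Helper35.Sz8C2
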