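-- The Suzuki group `Sz(8)` (stabiliser of the ovoid over a field with 8 elements) acting on the
-- 65 points of the ovoid: a labelling of the points by numbers, from a coding of the field by
-- the bits of the coefficients of `1, ζ, ζ²` with `ζ³ = ζ + 1`, and the action on the labels
-- of a torus element, a unipotent element and the Weyl element, which generate the group.
import Cfsg.Agent.Lib.Helper6.Sz12
import Cfsg.Agent.Lib.Helper35.GCover
import Cfsg.Agent.Lib.Helper35.Sz8Tab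

set_option autoImplicit false

namespace Cfsg.Agent.Lib.Helper35.Sz8Frame

open Cfsg Cfsg.Agent.Lib.Helper6.Sz0 Cfsg.Agent.Lib.Helper6.Sz1 Cfsg.Agent.Lib.Helper6.Sz2
  Cfsg.Agent.Lib.Helper6.Sz3 Cfsg.Agent.Lib.Helper6.Sz4 Cfsg.Agent.Lib.Helper6.Sz5
  Cfsg.Agent.Lib.Helper6.Sz6 Cfsg.Agent.Lib.Helper6.Sz7 Cfsg.Agent.Lib.Helper6.Sz8
  Cfsg.Agent.Lib.Helper6.Sz9 Cfsg.Agent.Lib.Helper6.Sz10 Cfsg.Agent.Lib.Helper6.Sz11
  Cfsg.Agent.Lib.Helper6.Sz12
open Cfsg.Agent.Lib.Helper35.GCover Cfsg.Agent.Lib.Helper35.Sz8Tab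
open scoped Pointwise

variable {F : Type*} [Field F]

/-! ### The coding of the field -/

/-- The element coded by the bits of `a`. -/
def enc (ζ : F) (a : ℕ) : F :=
  (if a.testBit 0 then 1 else 0) + (if a.testBit 1 then ζ else 0)
    + (if a.testBit 2 then ζ ^ 2 else 0)

theorem enc_0 (ζ : F) : enc ζ 0 = 0 := by
  have h0 : Nat.testBit 0 0 = false := by decide
  have h1 : Nat.testBit 0 1 = false := by decide
  have h2 : Nat.testBit 0 2 = false := by decide
  unfold enc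
  rw [h0, h1, h2]
  simp

theorem enc_1 (ζ : F) : enc ζ 1 = 1 := by
  have h0 : Nat.testBit 1 0 = true := by decide
  have h1 : Nat.testBit 1 1 = false := by decide
  have h2 : Nat.testBit 1 2 = false := by decide
  unfold enc
  rw [h0, h1, h2]
  simp

theorem enc_2 (ζ : F) : enc ζ 2 = ζ := by
  have h0 : Nat.testBit 2 0 = false := by decide
  have h1 : Nat.testBit 2 1 = true := by decide
  have h2 : Nat.testBit 2 2 = false := by decide
  unfold enc
  rw [h0, h1, h2]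
  simp

theorem enc_3 (ζ : F) : enc ζ 3 = 1 + ζ := by
  have h0 : Nat.testBit 3 0 = true := by decide
  have h1 : Nat.testBit 3 1 = true := by decide
  have h2 : Nat.testBit 3 2 = false := by decide
  unfold enc
  rw [h0, h1, h2]
  simp

theorem enc_4 (ζ : F) : enc ζ 4 = ζ ^ 2 := by
  have h0 : Nat.testBit 4 0 = false := by decide
  have h1 : Nat.testBit 4 1 = false := by decide
  have h2 : Nat.testBit 4 2 = true := by decide
  unfold enc
  rw [h0, h1, h2]
  simp

theorem enc_5 (ζ : F) : enc ζ 5 = 1 + ζ ^ 2 := by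
  have h0 : Nat.testBit 5 0 = true := by decide
  have h1 : Nat.testBit 5 1 = false := by decide
  have h2 : Nat.testBit 5 2 = true := by decide
  unfold enc
  rw [h0, h1, h2]
  simp

theorem enc_6 (ζ : F) : enc ζ 6 = ζ + ζ ^ 2 := by
  have h0 : Nat.testBit 6 0 = false := by decide
  have h1 : Nat.testBit 6 1 = true := by decide
  have h2 : Nat.testBit 6 2 = true := by decide
  unfold enc
  rw [h0, h1, h2]
  simp

theorem enc_7 (ζ : F) : enc ζ 7 = 1 + ζ + ζ ^ 2 := by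
  have h0 : Nat.testBit 7 0 = true := by decide
  have h1 : Nat.testBit 7 1 = true := by decide
  have h2 : Nat.testBit 7 2 = true := by decide
  unfold enc
  rw [h0, h1, h2]
  simp

theorem ite_xor (two : (2 : F) = 0) (p q : Bool) (c : F) :
    (if (p ^^ q) = true then c else 0)
      = (if p = true then c else 0) + (if q = true then c else 0) := by
  have hcc : c + c = 0 := by linear_combination c * two
  cases p <;> cases q <;> simp [hcc]

theorem enc_xor (two : (2 : F) = 0) (ζ : F) (a b : ℕ) :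
    enc ζ (a ^^^ b) = enc ζ a + enc ζ b := by
  unfold enc
  rw [Nat.testBit_xor, Nat.testBit_xor, Nat.testBit_xor, ite_xor two, ite_xor two, ite_xor two]
  ring

section Zeta

variable (two : (2 : F) = 0) (ζ : F) (hζ : ζ ^ 3 = ζ + 1)
include two hζ

theorem mz_spec (a : ℕ) (ha : a < 8) : ζ * enc ζ a = enc ζ (mz a) := by
  interval_cases a
  · show ζ * enc ζ 0 = enc ζ 0
    simp only [enc_0]
    linear_combination (0 : F) * hζ + (0 : F) * two
  · show ζ * enc ζ 1 = enc ζ 2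
    simp only [enc_1, enc_2]
    linear_combination (0 : F) * hζ + (0 : F) * two
  · show ζ * enc ζ 2 = enc ζ 4
    simp only [enc_2, enc_4]
    linear_combination (0 : F) * hζ + (0 : F) * two
  · show ζ * enc ζ 3 = enc ζ 6
    simp only [enc_3, enc_6]
    linear_combination (0 : F) * hζ + (0 : F) * two
  · show ζ * enc ζ 4 = enc ζ 3
    simp only [enc_3, enc_4]
    linear_combination ((1 : F)) * hζ + (0 : F) * two
  · show ζ * enc ζ 5 = enc ζ 1
    simp only [enc_1, enc_5]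
    linear_combination ((1 : F)) * hζ + ((1 : F) * ζ) * two
  · show ζ * enc ζ 6 = enc ζ 7
    simp only [enc_6, enc_7]
    linear_combination ((1 : F)) * hζ + (0 : F) * two
  · show ζ * enc ζ 7 = enc ζ 5
    simp only [enc_5, enc_7]
    linear_combination ((1 : F)) * hζ + ((1 : F) * ζ) * two

theorem mz5_spec (b : ℕ) (hb : b < 8) : ζ ^ 4 * ζ * enc ζ b = enc ζ (mz5 b) := by
  interval_cases b
  · show ζ ^ 4 * ζ * enc ζ 0 = enc ζ 0
    simp only [enc_0]
    linear_combination (0 : F) * hζ + (0 : F) * two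
  · show ζ ^ 4 * ζ * enc ζ 1 = enc ζ 7
    simp only [enc_1, enc_7]
    linear_combination ((1 : F) + (1 : F) * ζ ^ 2) * hζ + (0 : F) * two
  · show ζ ^ 4 * ζ * enc ζ 2 = enc ζ 5
    simp only [enc_2, enc_5]
    linear_combination ((1 : F) + (1 : F) * ζ + (1 : F) * ζ ^ 3) * hζ + ((1 : F) * ζ) * two
  · show ζ ^ 4 * ζ * enc ζ 3 = enc ζ 2
    simp only [enc_2, enc_3]
    linear_combination ((2 : F) + (1 : F) * ζ + (1 : F) * ζ ^ 2 + (1 : F) * ζ ^ 3) * hζ + ((1 : F) + (1 : F) * ζ + (1 : F) * ζ ^ 2) * two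
  · show ζ ^ 4 * ζ * enc ζ 4 = enc ζ 1
    simp only [enc_1, enc_4]
    linear_combination ((1 : F) + (1 : F) * ζ + (1 : F) * ζ ^ 2 + (1 : F) * ζ ^ 4) * hζ + ((1 : F) * ζ + (1 : F) * ζ ^ 2) * two
  · show ζ ^ 4 * ζ * enc ζ 5 = enc ζ 6
    simp only [enc_5, enc_6]
    linear_combination ((2 : F) + (1 : F) * ζ + (2 : F) * ζ ^ 2 + (1 : F) * ζ ^ 4) * hζ + ((1 : F) + (1 : F) * ζ + (1 : F) * ζ ^ 2) * two
  · show ζ ^ 4 * ζ * enc ζ 6 = enc ζ 4
    simp only [enc_4, enc_6]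
    linear_combination ((2 : F) + (2 : F) * ζ + (1 : F) * ζ ^ 2 + (1 : F) * ζ ^ 3 + (1 : F) * ζ ^ 4) * hζ + ((1 : F) + (2 : F) * ζ + (1 : F) * ζ ^ 2) * two
  · show ζ ^ 4 * ζ * enc ζ 7 = enc ζ 3
    simp only [enc_3, enc_7]
    linear_combination ((3 : F) + (2 : F) * ζ + (2 : F) * ζ ^ 2 + (1 : F) * ζ ^ 3 + (1 : F) * ζ ^ 4) * hζ + ((1 : F) + (2 : F) * ζ + (2 : F) * ζ ^ 2) * two

theorem enc_ne_zero (a : ℕ) (ha : a < 8) (h0 : a ≠ 0) : enc ζ a ≠ 0 := by
  intro h
  interval_cases a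
  · exact h0 rfl
  · have e : enc ζ 1 * enc ζ 1 = 1 := by
      simp only [enc_1]
      linear_combination (0 : F) * hζ + (0 : F) * two
    rw [h, zero_mul] at e
    exact zero_ne_one e
  · have e : enc ζ 2 * enc ζ 5 = 1 := by
      simp only [enc_2, enc_5]
      linear_combination ((1 : F)) * hζ + ((1 : F) * ζ) * two
    rw [h, zero_mul] at e
    exact zero_ne_one e
  · have e : enc ζ 3 * enc ζ 6 = 1 := by
      simp only [enc_3, enc_6]
      linear_combination ((1 : F)) * hζ + ((1 : F) * ζ + (1 : F) * ζ ^ 2) * two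
    rw [h, zero_mul] at e
    exact zero_ne_one e
  · have e : enc ζ 4 * enc ζ 7 = 1 := by
      simp only [enc_4, enc_7]
      linear_combination ((1 : F) + (1 : F) * ζ) * hζ + ((1 : F) * ζ + (1 : F) * ζ ^ 2) * two
    rw [h, zero_mul] at e
    exact zero_ne_one e
  · have e : enc ζ 5 * enc ζ 2 = 1 := by
      simp only [enc_2, enc_5]
      linear_combination ((1 : F)) * hζ + ((1 : F) * ζ) * two
    rw [h, zero_mul] at e
    exact zero_ne_one e
  · have e : enc ζ 6 * enc ζ 3 = 1 := by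
      simp only [enc_3, enc_6]
      linear_combination ((1 : F)) * hζ + ((1 : F) * ζ + (1 : F) * ζ ^ 2) * two
    rw [h, zero_mul] at e
    exact zero_ne_one e
  · have e : enc ζ 7 * enc ζ 4 = 1 := by
      simp only [enc_4, enc_7]
      linear_combination ((1 : F) + (1 : F) * ζ) * hζ + ((1 : F) * ζ + (1 : F) * ζ ^ 2) * two
    rw [h, zero_mul] at e
    exact zero_ne_one e

theorem enc_inj (a b : ℕ) (ha : a < 8) (hb : b < 8) (h : enc ζ a = enc ζ b) : a = b := by
  have h1 : enc ζ (a ^^^ b) = 0 := by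
    rw [enc_xor two, h]
    linear_combination enc ζ b * two
  have h2 : a ^^^ b < 8 := Nat.xor_lt_two_pow (n := 3) ha hb
  by_contra hne
  exact enc_ne_zero two ζ hζ _ h2 (fun h3 => hne (Nat.xor_eq_zero_iff.mp h3)) h1

end Zeta

/-! ### The labelling -/

section Sz

variable [Fintype F] (hF : Fintype.card F = 2 ^ (2 * 1 + 1))

include hF in
theorem exists_zeta : ∃ ζ : F, ζ ^ 3 = ζ + 1 := by
  have two : (2 : F) = 0 := two_eq_zero hF
  obtain ⟨x, hx0, hx1⟩ := exists_ne_zero_one (le_refl 1) hF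
  have h7 : x ^ 7 = 1 := by
    have h := FiniteField.pow_card_sub_one_eq_one x hx0
    rw [hF] at h
    exact h
  have hprod : (x + 1) * ((x ^ 3 + x + 1) * (x ^ 3 + x ^ 2 + 1)) = 0 := by
    linear_combination h7 + (x ^ 6 + x ^ 5 + 2 * x ^ 4 + 2 * x ^ 3 + x ^ 2 + x + 1) * two
  have hx1' : x + 1 ≠ 0 := by
    intro h
    apply hx1
    linear_combination h - two
  rcases mul_eq_zero.mp hprod with h | h
  · exact absurd h hx1'
  · rcases mul_eq_zero.mp h with h | h
    · exact ⟨x, by linear_combination h - (x + 1) * two⟩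
    · exact ⟨x + 1, by linear_combination h + (x ^ 2 + x - 1) * two⟩

/-- The point with a given label. -/
def lbl (ζ : F) (i : ℕ) : suzukiOvoid F 1 :=
  if i < 64 then apt 1 (enc ζ (i / 8)) (enc ζ (i % 8)) else ainf F 1

omit [Fintype F] in
theorem lbl_mk (ζ : F) (p q : ℕ) (hp : p < 8) (hq : q < 8) :
    lbl ζ (8 * p + q) = apt 1 (enc ζ p) (enc ζ q) := by
  unfold lbl
  rw [if_pos (by omega), show (8 * p + q) / 8 = p by omega, show (8 * p + q) % 8 = q by omega]

omit [Fintype F] in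
theorem lbl_lt (ζ : F) (i : ℕ) (hi : i < 64) :
    lbl ζ i = apt 1 (enc ζ (i / 8)) (enc ζ (i % 8)) := if_pos hi

omit [Fintype F] in
theorem lbl_top (ζ : F) : lbl ζ 64 = ainf F 1 := if_neg (by norm_num)

omit [Fintype F] in
theorem lbl_zero (ζ : F) : lbl ζ 0 = apt 1 (0 : F) 0 := by
  rw [lbl_lt ζ 0 (by norm_num)]
  simp [enc_0]

variable (two : (2 : F) = 0) (ζ : F) (hζ : ζ ^ 3 = ζ + 1)

omit [Fintype F] in
include two hζ in
theorem lbl_inj (i j : ℕ) (hi : i < 65) (hj : j < 65) (h : lbl ζ i = lbl ζ j) : i = j := by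
  by_cases hi' : i < 64
  · by_cases hj' : j < 64
    · rw [lbl_lt ζ i hi', lbl_lt ζ j hj'] at h
      obtain ⟨h1, h2⟩ := apt_inj h
      have e1 := enc_inj two ζ hζ _ _ (by omega) (by omega) h1
      have e2 := enc_inj two ζ hζ _ _ (Nat.mod_lt _ (by norm_num)) (Nat.mod_lt _ (by norm_num)) h2
      omega
    · have : j = 64 := by omega
      subst this
      rw [lbl_lt ζ i hi', lbl_top] at h
      exact absurd h (apt_ne_ainf 1 _ _)
  · have : i = 64 := by omega
    subst this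
    by_cases hj' : j < 64
    · rw [lbl_lt ζ j hj', lbl_top] at h
      exact absurd h.symm (apt_ne_ainf 1 _ _)
    · omega

include hF two hζ in
theorem enc_surj (x : F) : ∃ a, a < 8 ∧ enc ζ a = x := by
  have hinj : Function.Injective (fun a : Fin 8 => enc ζ a.val) := by
    intro a b h
    exact Fin.ext (enc_inj two ζ hζ _ _ a.2 b.2 h)
  have hcard : Fintype.card (Fin 8) = Fintype.card F := by
    rw [hF]
    rfl
  have hbij := (Fintype.bijective_iff_injective_and_card _).mpr ⟨hinj, hcard⟩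
  obtain ⟨a, ha⟩ := hbij.2 x
  exact ⟨a.val, a.2, ha⟩

include hF two hζ in
theorem lbl_surj (ω : suzukiOvoid F 1) : ∃ i, i < 65 ∧ lbl ζ i = ω := by
  rcases ovoid_cases ω with rfl | ⟨x, y, rfl⟩
  · exact ⟨64, by norm_num, lbl_top ζ⟩
  · obtain ⟨a, ha, rfl⟩ := enc_surj hF two ζ hζ x
    obtain ⟨b, hb, rfl⟩ := enc_surj hF two ζ hζ y
    exact ⟨8 * a + b, by omega, lbl_mk ζ a b ha hb⟩

/-! ### The action of the generators -/

omit [Fintype F] in
theorem blt_true {i n : ℕ} (h : i < n) : Nat.blt i n = true := Nat.ble_eq_true_of_le h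

omit [Fintype F] in
theorem mz_lt (a : ℕ) (ha : a < 8) : mz a < 8 := by
  interval_cases a <;> decide

omit [Fintype F] in
theorem mz5_lt (a : ℕ) (ha : a < 8) : mz5 a < 8 := by
  interval_cases a <;> decide

omit [Fintype F] in
theorem wL_lt (i : ℕ) (hi : i < 64) (h0 : i ≠ 0) : wL.getD i 0 < 64 := by
  interval_cases i <;> first | exact absurd rfl h0 | decide

include two hζ in
theorem act_H (hζ0 : ζ ≠ 0) (i : ℕ) (hi : i < 65) :
    hS hF (Units.mk0 ζ hζ0) • lbl ζ i = lbl ζ (tH i) := by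
  by_cases hi' : i < 64
  · have ha : i / 8 < 8 := by omega
    have hb : i % 8 < 8 := Nat.mod_lt _ (by norm_num)
    have e : tH i = 8 * mz (i / 8) + mz5 (i % 8) := by
      unfold tH
      rw [blt_true hi']
      rfl
    have e2 : sg 1 ζ * ζ * enc ζ (i % 8) = enc ζ (mz5 (i % 8)) := by
      rw [← mz5_spec two ζ hζ _ hb]
      unfold sg
      norm_num
    rw [e, lbl_lt ζ i hi', lbl_mk ζ _ _ (mz_lt _ ha) (mz5_lt _ hb), hS_apt, Units.val_mk0,
      mz_spec two ζ hζ _ ha, e2]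
  · have : i = 64 := by omega
    subst this
    rw [lbl_top, hS_ainf]
    exact (lbl_top ζ).symm

include two in
theorem act_U (i : ℕ) (hi : i < 65) : uS hF (1 : F) 0 • lbl ζ i = lbl ζ (tU i) := by
  by_cases hi' : i < 64
  · have ha : i / 8 < 8 := by omega
    have hb : i % 8 < 8 := Nat.mod_lt _ (by norm_num)
    have e : tU i = 8 * (i / 8 ^^^ 1) + (i % 8 ^^^ i / 8) := by
      unfold tU
      rw [blt_true hi']
      rfl
    have h1 : i / 8 ^^^ 1 < 8 := Nat.xor_lt_two_pow (n := 3) ha (by norm_num)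
    have h2 : i % 8 ^^^ i / 8 < 8 := Nat.xor_lt_two_pow (n := 3) hb ha
    rw [e, lbl_lt ζ i hi', lbl_mk ζ _ _ h1 h2, uS_apt, enc_xor two, enc_xor two, enc_1, sg_one,
      one_mul, add_zero]
  · have : i = 64 := by omega
    subst this
    rw [lbl_top, uS_ainf]
    exact (lbl_top ζ).symm

theorem wS_apt' (x y g : F) (hg : g * fO 1 x y = 1) :
    wS hF • apt 1 x y = apt 1 (y * g) (x * g) := by
  have hf : fO 1 x y ≠ 0 := by
    intro h
    rw [h, mul_zero] at hg
    exact zero_ne_one hg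
  have hgi : g = (fO 1 x y)⁻¹ := eq_inv_of_mul_eq_one_left hg
  apply Subtype.ext
  have h := Wm_smul_pt hF x y hf
  rw [div_eq_mul_inv, div_eq_mul_inv, ← hgi] at h
  exact h

theorem wcase (a b g x' y' : ℕ) (h1 : enc ζ g * fO 1 (enc ζ a) (enc ζ b) = 1)
    (h2 : enc ζ b * enc ζ g = enc ζ x') (h3 : enc ζ a * enc ζ g = enc ζ y') :
    wS hF • apt 1 (enc ζ a) (enc ζ b) = apt 1 (enc ζ x') (enc ζ y') := by
  rw [wS_apt' hF _ _ _ h1, h2, h3]

include two hζ in
set_option maxHeartbeats 1600000 in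
set_option maxRecDepth 4096 in
theorem w_spec (i : ℕ) (hi : i < 64) (h0 : i ≠ 0) :
    wS hF • apt 1 (enc ζ (i / 8)) (enc ζ (i % 8))
      = apt 1 (enc ζ (wL.getD i 0 / 8)) (enc ζ (wL.getD i 0 % 8)) := by
  interval_cases i
  · exact absurd rfl h0
  · exact wcase hF ζ 0 1 1 1 0
      (by simp only [enc_0, enc_1, fO]
          linear_combination (0 : F) * hζ + (0 : F) * two)
      (by simp only [enc_1]
          linear_combination (0 : F) * hζ + (0 : F) * two)
      (by simp only [enc_0, enc_1]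
          linear_combination (0 : F) * hζ + (0 : F) * two)
  · exact wcase hF ζ 0 2 3 6 0
      (by simp only [enc_0, enc_2, enc_3, fO]
          linear_combination ((1 : F) + (1 : F) * ζ + (1 : F) * ζ ^ 2) * hζ + ((1 : F) * ζ + (1 : F) * ζ ^ 2) * two)
      (by simp only [enc_2, enc_3, enc_6]
          linear_combination (0 : F) * hζ + (0 : F) * two)
      (by simp only [enc_0, enc_3]
          linear_combination (0 : F) * hζ + (0 : F) * two)
  · exact wcase hF ζ 0 3 4 7 0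
      (by simp only [enc_0, enc_3, enc_4, fO]
          linear_combination ((9 : F) + (7 : F) * ζ + (4 : F) * ζ ^ 2 + (1 : F) * ζ ^ 3) * hζ + ((4 : F) + (8 : F) * ζ + (6 : F) * ζ ^ 2) * two)
      (by simp only [enc_3, enc_4, enc_7]
          linear_combination ((1 : F)) * hζ + (0 : F) * two)
      (by simp only [enc_0, enc_4]
          linear_combination (0 : F) * hζ + (0 : F) * two)
  · exact wcase hF ζ 0 4 5 2 0
      (by simp only [enc_0, enc_4, enc_5, fO]
          linear_combination ((5 : F) + (3 : F) * ζ + (3 : F) * ζ ^ 2 + (2 : F) * ζ ^ 3 + (1 : F) * ζ ^ 4 + (2 : F) * ζ ^ 5 + (1 : F) * ζ ^ 7) * hζ + ((2 : F) + (4 : F) * ζ + (3 : F) * ζ ^ 2) * two)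
      (by simp only [enc_2, enc_4, enc_5]
          linear_combination ((1 : F) * ζ) * hζ + ((1 : F) * ζ ^ 2) * two)
      (by simp only [enc_0, enc_5]
          linear_combination (0 : F) * hζ + (0 : F) * two)
  · exact wcase hF ζ 0 5 6 3 0
      (by simp only [enc_0, enc_5, enc_6, fO]
          linear_combination ((33 : F) + (22 : F) * ζ + (17 : F) * ζ ^ 2 + (12 : F) * ζ ^ 3 + (6 : F) * ζ ^ 4 + (5 : F) * ζ ^ 5 + (1 : F) * ζ ^ 6 + (1 : F) * ζ ^ 7) * hζ + ((16 : F) + (28 : F) * ζ + (20 : F) * ζ ^ 2) * two)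
      (by simp only [enc_3, enc_5, enc_6]
          linear_combination ((1 : F) + (1 : F) * ζ) * hζ + ((1 : F) * ζ + (1 : F) * ζ ^ 2) * two)
      (by simp only [enc_0, enc_6]
          linear_combination (0 : F) * hζ + (0 : F) * two)
  · exact wcase hF ζ 0 6 7 4 0
      (by simp only [enc_0, enc_6, enc_7, fO]
          linear_combination ((65 : F) + (49 : F) * ζ + (37 : F) * ζ ^ 2 + (28 : F) * ζ ^ 3 + (20 : F) * ζ ^ 4 + (12 : F) * ζ ^ 5 + (5 : F) * ζ ^ 6 + (1 : F) * ζ ^ 7) * hζ + ((32 : F) + (57 : F) * ζ + (43 : F) * ζ ^ 2) * two)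
      (by simp only [enc_4, enc_6, enc_7]
          linear_combination ((2 : F) + (1 : F) * ζ) * hζ + ((1 : F) + (2 : F) * ζ + (1 : F) * ζ ^ 2) * two)
      (by simp only [enc_0, enc_7]
          linear_combination (0 : F) * hζ + (0 : F) * two)
  · exact wcase hF ζ 0 7 2 5 0
      (by simp only [enc_0, enc_2, enc_7, fO]
          linear_combination ((65 : F) + (48 : F) * ζ + (34 : F) * ζ ^ 2 + (21 : F) * ζ ^ 3 + (11 : F) * ζ ^ 4 + (4 : F) * ζ ^ 5 + (1 : F) * ζ ^ 6) * hζ + ((32 : F) + (57 : F) * ζ + (43 : F) * ζ ^ 2) * two)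
      (by simp only [enc_2, enc_5, enc_7]
          linear_combination ((1 : F)) * hζ + ((1 : F) * ζ) * two)
      (by simp only [enc_0, enc_2]
          linear_combination (0 : F) * hζ + (0 : F) * two)
  · exact wcase hF ζ 1 0 1 0 1
      (by simp only [enc_0, enc_1, fO]
          linear_combination (0 : F) * hζ + (0 : F) * two)
      (by simp only [enc_0, enc_1]
          linear_combination (0 : F) * hζ + (0 : F) * two)
      (by simp only [enc_1]
          linear_combination (0 : F) * hζ + (0 : F) * two)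
  · exact wcase hF ζ 1 1 1 1 1
      (by simp only [enc_1, fO]
          linear_combination (0 : F) * hζ + ((1 : F)) * two)
      (by simp only [enc_1]
          linear_combination (0 : F) * hζ + (0 : F) * two)
      (by simp only [enc_1]
          linear_combination (0 : F) * hζ + (0 : F) * two)
  · exact wcase hF ζ 1 2 2 4 2
      (by simp only [enc_1, enc_2, fO]
          linear_combination ((1 : F) + (1 : F) * ζ ^ 2) * hζ + ((1 : F) * ζ + (1 : F) * ζ ^ 2) * two)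
      (by simp only [enc_2, enc_4]
          linear_combination (0 : F) * hζ + (0 : F) * two)
      (by simp only [enc_1, enc_2]
          linear_combination (0 : F) * hζ + (0 : F) * two)
  · exact wcase hF ζ 1 3 2 6 2
      (by simp only [enc_1, enc_2, enc_3, fO]
          linear_combination ((7 : F) + (4 : F) * ζ + (1 : F) * ζ ^ 2) * hζ + ((3 : F) + (7 : F) * ζ + (5 : F) * ζ ^ 2) * two)
      (by simp only [enc_2, enc_3, enc_6]
          linear_combination (0 : F) * hζ + (0 : F) * two)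
      (by simp only [enc_1, enc_2]
          linear_combination (0 : F) * hζ + (0 : F) * two)
  · exact wcase hF ζ 1 4 4 6 4
      (by simp only [enc_1, enc_4, fO]
          linear_combination ((3 : F) + (3 : F) * ζ + (2 : F) * ζ ^ 2 + (1 : F) * ζ ^ 3 + (1 : F) * ζ ^ 4 + (1 : F) * ζ ^ 5 + (1 : F) * ζ ^ 7) * hζ + ((1 : F) + (3 : F) * ζ + (3 : F) * ζ ^ 2) * two)
      (by simp only [enc_4, enc_6]
          linear_combination ((1 : F) * ζ) * hζ + (0 : F) * two)
      (by simp only [enc_1, enc_4]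
          linear_combination (0 : F) * hζ + (0 : F) * two)
  · exact wcase hF ζ 1 5 4 2 4
      (by simp only [enc_1, enc_4, enc_5, fO]
          linear_combination ((17 : F) + (17 : F) * ζ + (6 : F) * ζ ^ 2 + (11 : F) * ζ ^ 3 + (1 : F) * ζ ^ 4 + (5 : F) * ζ ^ 5 + (1 : F) * ζ ^ 7) * hζ + ((8 : F) + (17 : F) * ζ + (13 : F) * ζ ^ 2) * two)
      (by simp only [enc_2, enc_4, enc_5]
          linear_combination ((1 : F) * ζ) * hζ + ((1 : F) * ζ ^ 2) * two)
      (by simp only [enc_1, enc_4]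
          linear_combination (0 : F) * hζ + (0 : F) * two)
  · exact wcase hF ζ 1 6 6 2 6
      (by simp only [enc_1, enc_6, fO]
          linear_combination ((51 : F) + (38 : F) * ζ + (28 : F) * ζ ^ 2 + (21 : F) * ζ ^ 3 + (16 : F) * ζ ^ 4 + (11 : F) * ζ ^ 5 + (5 : F) * ζ ^ 6 + (1 : F) * ζ ^ 7) * hζ + ((25 : F) + (45 : F) * ζ + (34 : F) * ζ ^ 2) * two)
      (by simp only [enc_2, enc_6]
          linear_combination ((2 : F) + (1 : F) * ζ) * hζ + ((1 : F) + (1 : F) * ζ + (1 : F) * ζ ^ 2) * two)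
      (by simp only [enc_1, enc_6]
          linear_combination (0 : F) * hζ + (0 : F) * two)
  · exact wcase hF ζ 1 7 6 4 6
      (by simp only [enc_1, enc_6, enc_7, fO]
          linear_combination ((153 : F) + (114 : F) * ζ + (82 : F) * ζ ^ 2 + (55 : F) * ζ ^ 3 + (32 : F) * ζ ^ 4 + (15 : F) * ζ ^ 5 + (5 : F) * ζ ^ 6 + (1 : F) * ζ ^ 7) * hζ + ((76 : F) + (135 : F) * ζ + (102 : F) * ζ ^ 2) * two)
      (by simp only [enc_4, enc_6, enc_7]
          linear_combination ((2 : F) + (1 : F) * ζ) * hζ + ((1 : F) + (2 : F) * ζ + (1 : F) * ζ ^ 2) * two)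
      (by simp only [enc_1, enc_6]
          linear_combination (0 : F) * hζ + (0 : F) * two)
  · exact wcase hF ζ 2 0 2 0 4
      (by simp only [enc_0, enc_2, fO]
          linear_combination ((1 : F) + (1 : F) * ζ + (1 : F) * ζ ^ 2 + (1 : F) * ζ ^ 4) * hζ + ((1 : F) * ζ + (1 : F) * ζ ^ 2) * two)
      (by simp only [enc_0, enc_2]
          linear_combination (0 : F) * hζ + (0 : F) * two)
      (by simp only [enc_2, enc_4]
          linear_combination (0 : F) * hζ + (0 : F) * two)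
  · exact wcase hF ζ 2 1 3 3 6
      (by simp only [enc_1, enc_2, enc_3, fO]
          linear_combination ((2 : F) + (2 : F) * ζ + (1 : F) * ζ ^ 2 + (1 : F) * ζ ^ 3 + (1 : F) * ζ ^ 4) * hζ + ((1 : F) + (3 : F) * ζ + (2 : F) * ζ ^ 2) * two)
      (by simp only [enc_1, enc_3]
          linear_combination (0 : F) * hζ + (0 : F) * two)
      (by simp only [enc_2, enc_3, enc_6]
          linear_combination (0 : F) * hζ + (0 : F) * two)
  · exact wcase hF ζ 2 2 4 3 3
      (by simp only [enc_2, enc_4, fO]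
          linear_combination ((3 : F) + (3 : F) * ζ + (1 : F) * ζ ^ 2 + (2 : F) * ζ ^ 3 + (1 : F) * ζ ^ 5) * hζ + ((1 : F) + (3 : F) * ζ + (2 : F) * ζ ^ 2) * two)
      (by simp only [enc_2, enc_3, enc_4]
          linear_combination ((1 : F)) * hζ + (0 : F) * two)
      (by simp only [enc_2, enc_3, enc_4]
          linear_combination ((1 : F)) * hζ + (0 : F) * two)
  · exact wcase hF ζ 2 3 7 2 5
      (by simp only [enc_2, enc_3, enc_7, fO]
          linear_combination ((26 : F) + (16 : F) * ζ + (7 : F) * ζ ^ 2 + (3 : F) * ζ ^ 3 + (1 : F) * ζ ^ 4 + (1 : F) * ζ ^ 5) * hζ + ((13 : F) + (24 : F) * ζ + (18 : F) * ζ ^ 2) * two)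
      (by simp only [enc_2, enc_3, enc_7]
          linear_combination ((1 : F)) * hζ + ((1 : F) + (1 : F) * ζ + (1 : F) * ζ ^ 2) * two)
      (by simp only [enc_2, enc_5, enc_7]
          linear_combination ((1 : F)) * hζ + ((1 : F) * ζ) * two)
  · exact wcase hF ζ 2 4 7 1 5
      (by simp only [enc_2, enc_4, enc_7, fO]
          linear_combination ((13 : F) + (9 : F) * ζ + (7 : F) * ζ ^ 2 + (5 : F) * ζ ^ 3 + (3 : F) * ζ ^ 4 + (3 : F) * ζ ^ 5 + (1 : F) * ζ ^ 6 + (1 : F) * ζ ^ 7) * hζ + ((6 : F) + (11 : F) * ζ + (8 : F) * ζ ^ 2) * two)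
      (by simp only [enc_1, enc_4, enc_7]
          linear_combination ((1 : F) + (1 : F) * ζ) * hζ + ((1 : F) * ζ + (1 : F) * ζ ^ 2) * two)
      (by simp only [enc_2, enc_5, enc_7]
          linear_combination ((1 : F)) * hζ + ((1 : F) * ζ) * two)
  · exact wcase hF ζ 2 5 4 2 3
      (by simp only [enc_2, enc_4, enc_5, fO]
          linear_combination ((21 : F) + (17 : F) * ζ + (8 : F) * ζ ^ 2 + (12 : F) * ζ ^ 3 + (1 : F) * ζ ^ 4 + (6 : F) * ζ ^ 5 + (1 : F) * ζ ^ 7) * hζ + ((10 : F) + (19 : F) * ζ + (13 : F) * ζ ^ 2) * two)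
      (by simp only [enc_2, enc_4, enc_5]
          linear_combination ((1 : F) * ζ) * hζ + ((1 : F) * ζ ^ 2) * two)
      (by simp only [enc_2, enc_3, enc_4]
          linear_combination ((1 : F)) * hζ + (0 : F) * two)
  · exact wcase hF ζ 2 6 3 1 6
      (by simp only [enc_2, enc_3, enc_6, fO]
          linear_combination ((41 : F) + (31 : F) * ζ + (22 : F) * ζ ^ 2 + (17 : F) * ζ ^ 3 + (12 : F) * ζ ^ 4 + (5 : F) * ζ ^ 5 + (1 : F) * ζ ^ 6) * hζ + ((20 : F) + (36 : F) * ζ + (27 : F) * ζ ^ 2) * two)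
      (by simp only [enc_1, enc_3, enc_6]
          linear_combination ((1 : F)) * hζ + ((1 : F) * ζ + (1 : F) * ζ ^ 2) * two)
      (by simp only [enc_2, enc_3, enc_6]
          linear_combination (0 : F) * hζ + (0 : F) * two)
  · exact wcase hF ζ 2 7 2 5 4
      (by simp only [enc_2, enc_7, fO]
          linear_combination ((67 : F) + (50 : F) * ζ + (35 : F) * ζ ^ 2 + (21 : F) * ζ ^ 3 + (12 : F) * ζ ^ 4 + (4 : F) * ζ ^ 5 + (1 : F) * ζ ^ 6) * hζ + ((33 : F) + (59 : F) * ζ + (45 : F) * ζ ^ 2) * two)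
      (by simp only [enc_2, enc_5, enc_7]
          linear_combination ((1 : F)) * hζ + ((1 : F) * ζ) * two)
      (by simp only [enc_2, enc_4]
          linear_combination (0 : F) * hζ + (0 : F) * two)
  · exact wcase hF ζ 3 0 3 0 5
      (by simp only [enc_0, enc_3, fO]
          linear_combination ((64 : F) + (43 : F) * ζ + (22 : F) * ζ ^ 2 + (7 : F) * ζ ^ 3 + (1 : F) * ζ ^ 4) * hζ + ((32 : F) + (57 : F) * ζ + (43 : F) * ζ ^ 2) * two)
      (by simp only [enc_0, enc_3]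
          linear_combination (0 : F) * hζ + (0 : F) * two)
      (by simp only [enc_3, enc_5]
          linear_combination (0 : F) * hζ + ((1 : F) * ζ) * two)
  · exact wcase hF ζ 3 1 7 7 2
      (by simp only [enc_1, enc_3, enc_7, fO]
          linear_combination ((114 : F) + (80 : F) * ζ + (49 : F) * ζ ^ 2 + (23 : F) * ζ ^ 3 + (7 : F) * ζ ^ 4 + (1 : F) * ζ ^ 5) * hζ + ((58 : F) + (102 : F) * ζ + (77 : F) * ζ ^ 2) * two)
      (by simp only [enc_1, enc_7]
          linear_combination (0 : F) * hζ + (0 : F) * two)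
      (by simp only [enc_2, enc_3, enc_7]
          linear_combination ((1 : F)) * hζ + ((1 : F) + (1 : F) * ζ + (1 : F) * ζ ^ 2) * two)
  · exact wcase hF ζ 3 2 3 6 5
      (by simp only [enc_2, enc_3, fO]
          linear_combination ((66 : F) + (44 : F) * ζ + (23 : F) * ζ ^ 2 + (7 : F) * ζ ^ 3 + (1 : F) * ζ ^ 4) * hζ + ((33 : F) + (59 : F) * ζ + (45 : F) * ζ ^ 2) * two)
      (by simp only [enc_2, enc_3, enc_6]
          linear_combination (0 : F) * hζ + (0 : F) * two)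
      (by simp only [enc_3, enc_5]
          linear_combination (0 : F) * hζ + ((1 : F) * ζ) * two)
  · exact wcase hF ζ 3 3 7 2 2
      (by simp only [enc_3, enc_7, fO]
          linear_combination ((136 : F) + (93 : F) * ζ + (54 : F) * ζ ^ 2 + (24 : F) * ζ ^ 3 + (7 : F) * ζ ^ 4 + (1 : F) * ζ ^ 5) * hζ + ((69 : F) + (122 : F) * ζ + (92 : F) * ζ ^ 2) * two)
      (by simp only [enc_2, enc_3, enc_7]
          linear_combination ((1 : F)) * hζ + ((1 : F) + (1 : F) * ζ + (1 : F) * ζ ^ 2) * two)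
      (by simp only [enc_2, enc_3, enc_7]
          linear_combination ((1 : F)) * hζ + ((1 : F) + (1 : F) * ζ + (1 : F) * ζ ^ 2) * two)
  · exact wcase hF ζ 3 4 6 5 1
      (by simp only [enc_3, enc_4, enc_6, fO]
          linear_combination ((93 : F) + (70 : F) * ζ + (47 : F) * ζ ^ 2 + (24 : F) * ζ ^ 3 + (9 : F) * ζ ^ 4 + (2 : F) * ζ ^ 5 + (1 : F) * ζ ^ 6 + (1 : F) * ζ ^ 7) * hζ + ((46 : F) + (82 : F) * ζ + (62 : F) * ζ ^ 2) * two)
      (by simp only [enc_4, enc_5, enc_6]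
          linear_combination ((1 : F) + (1 : F) * ζ) * hζ + ((1 : F) * ζ) * two)
      (by simp only [enc_1, enc_3, enc_6]
          linear_combination ((1 : F)) * hζ + ((1 : F) * ζ + (1 : F) * ζ ^ 2) * two)
  · exact wcase hF ζ 3 5 1 5 3
      (by simp only [enc_1, enc_3, enc_5, fO]
          linear_combination ((34 : F) + (27 : F) * ζ + (7 : F) * ζ ^ 2 + (6 : F) * ζ ^ 3 + (1 : F) * ζ ^ 5) * hζ + ((18 : F) + (34 : F) * ζ + (27 : F) * ζ ^ 2) * two)
      (by simp only [enc_1, enc_5]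
          linear_combination (0 : F) * hζ + (0 : F) * two)
      (by simp only [enc_1, enc_3]
          linear_combination (0 : F) * hζ + (0 : F) * two)
  · exact wcase hF ζ 3 6 6 2 1
      (by simp only [enc_3, enc_6, fO]
          linear_combination ((139 : F) + (104 : F) * ζ + (72 : F) * ζ ^ 2 + (43 : F) * ζ ^ 3 + (23 : F) * ζ ^ 4 + (12 : F) * ζ ^ 5 + (5 : F) * ζ ^ 6 + (1 : F) * ζ ^ 7) * hζ + ((69 : F) + (122 : F) * ζ + (92 : F) * ζ ^ 2) * two)
      (by simp only [enc_2, enc_6]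
          linear_combination ((2 : F) + (1 : F) * ζ) * hζ + ((1 : F) + (1 : F) * ζ + (1 : F) * ζ ^ 2) * two)
      (by simp only [enc_1, enc_3, enc_6]
          linear_combination ((1 : F)) * hζ + ((1 : F) * ζ + (1 : F) * ζ ^ 2) * two)
  · exact wcase hF ζ 3 7 1 7 3
      (by simp only [enc_1, enc_3, enc_7, fO]
          linear_combination ((76 : F) + (50 : F) * ζ + (27 : F) * ζ ^ 2 + (12 : F) * ζ ^ 3 + (4 : F) * ζ ^ 4 + (1 : F) * ζ ^ 5) * hζ + ((39 : F) + (69 : F) * ζ + (52 : F) * ζ ^ 2) * two)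
      (by simp only [enc_1, enc_7]
          linear_combination (0 : F) * hζ + (0 : F) * two)
      (by simp only [enc_1, enc_3]
          linear_combination (0 : F) * hζ + (0 : F) * two)
  · exact wcase hF ζ 4 0 4 0 6
      (by simp only [enc_0, enc_4, fO]
          linear_combination ((9 : F) + (7 : F) * ζ + (5 : F) * ζ ^ 2 + (4 : F) * ζ ^ 3 + (3 : F) * ζ ^ 4 + (2 : F) * ζ ^ 5 + (2 : F) * ζ ^ 6 + (1 : F) * ζ ^ 7 + (1 : F) * ζ ^ 8 + (1 : F) * ζ ^ 9 + (1 : F) * ζ ^ 11) * hζ + ((4 : F) + (8 : F) * ζ + (6 : F) * ζ ^ 2) * two)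
      (by simp only [enc_0, enc_4]
          linear_combination (0 : F) * hζ + (0 : F) * two)
      (by simp only [enc_4, enc_6]
          linear_combination ((1 : F) * ζ) * hζ + (0 : F) * two)
  · exact wcase hF ζ 4 1 5 5 2
      (by simp only [enc_1, enc_4, enc_5, fO]
          linear_combination ((14 : F) + (12 : F) * ζ + (8 : F) * ζ ^ 2 + (6 : F) * ζ ^ 3 + (5 : F) * ζ ^ 4 + (3 : F) * ζ ^ 5 + (3 : F) * ζ ^ 6 + (2 : F) * ζ ^ 7 + (1 : F) * ζ ^ 8 + (2 : F) * ζ ^ 9 + (1 : F) * ζ ^ 11) * hζ + ((7 : F) + (13 : F) * ζ + (11 : F) * ζ ^ 2) * two)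
      (by simp only [enc_1, enc_5]
          linear_combination (0 : F) * hζ + (0 : F) * two)
      (by simp only [enc_2, enc_4, enc_5]
          linear_combination ((1 : F) * ζ) * hζ + ((1 : F) * ζ ^ 2) * two)
  · exact wcase hF ζ 4 2 5 1 2
      (by simp only [enc_2, enc_4, enc_5, fO]
          linear_combination ((17 : F) + (13 : F) * ζ + (9 : F) * ζ ^ 2 + (7 : F) * ζ ^ 3 + (5 : F) * ζ ^ 4 + (3 : F) * ζ ^ 5 + (3 : F) * ζ ^ 6 + (2 : F) * ζ ^ 7 + (1 : F) * ζ ^ 8 + (2 : F) * ζ ^ 9 + (1 : F) * ζ ^ 11) * hζ + ((8 : F) + (15 : F) * ζ + (11 : F) * ζ ^ 2) * two)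
      (by simp only [enc_1, enc_2, enc_5]
          linear_combination ((1 : F)) * hζ + ((1 : F) * ζ) * two)
      (by simp only [enc_2, enc_4, enc_5]
          linear_combination ((1 : F) * ζ) * hζ + ((1 : F) * ζ ^ 2) * two)
  · exact wcase hF ζ 4 3 4 7 6
      (by simp only [enc_3, enc_4, fO]
          linear_combination ((19 : F) + (15 : F) * ζ + (10 : F) * ζ ^ 2 + (5 : F) * ζ ^ 3 + (3 : F) * ζ ^ 4 + (2 : F) * ζ ^ 5 + (2 : F) * ζ ^ 6 + (1 : F) * ζ ^ 7 + (1 : F) * ζ ^ 8 + (1 : F) * ζ ^ 9 + (1 : F) * ζ ^ 11) * hζ + ((9 : F) + (17 : F) * ζ + (13 : F) * ζ ^ 2) * two)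
      (by simp only [enc_3, enc_4, enc_7]
          linear_combination ((1 : F)) * hζ + (0 : F) * two)
      (by simp only [enc_4, enc_6]
          linear_combination ((1 : F) * ζ) * hζ + (0 : F) * two)
  · exact wcase hF ζ 4 4 6 5 5
      (by simp only [enc_4, enc_6, fO]
          linear_combination ((23 : F) + (17 : F) * ζ + (13 : F) * ζ ^ 2 + (10 : F) * ζ ^ 3 + (7 : F) * ζ ^ 4 + (5 : F) * ζ ^ 5 + (4 : F) * ζ ^ 6 + (3 : F) * ζ ^ 7 + (2 : F) * ζ ^ 8 + (1 : F) * ζ ^ 9 + (1 : F) * ζ ^ 10 + (1 : F) * ζ ^ 11) * hζ + ((11 : F) + (20 : F) * ζ + (15 : F) * ζ ^ 2) * two)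
      (by simp only [enc_4, enc_5, enc_6]
          linear_combination ((1 : F) + (1 : F) * ζ) * hζ + ((1 : F) * ζ) * two)
      (by simp only [enc_4, enc_5, enc_6]
          linear_combination ((1 : F) + (1 : F) * ζ) * hζ + ((1 : F) * ζ) * two)
  · exact wcase hF ζ 4 5 3 4 7
      (by simp only [enc_3, enc_4, enc_5, fO]
          linear_combination ((36 : F) + (27 : F) * ζ + (20 : F) * ζ ^ 2 + (11 : F) * ζ ^ 3 + (9 : F) * ζ ^ 4 + (4 : F) * ζ ^ 5 + (3 : F) * ζ ^ 6 + (2 : F) * ζ ^ 7 + (1 : F) * ζ ^ 8 + (1 : F) * ζ ^ 9 + (1 : F) * ζ ^ 10) * hζ + ((18 : F) + (32 : F) * ζ + (26 : F) * ζ ^ 2) * two)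
      (by simp only [enc_3, enc_4, enc_5]
          linear_combination ((1 : F)) * hζ + ((1 : F) + (1 : F) * ζ) * two)
      (by simp only [enc_3, enc_4, enc_7]
          linear_combination ((1 : F)) * hζ + (0 : F) * two)
  · exact wcase hF ζ 4 6 3 1 7
      (by simp only [enc_3, enc_4, enc_6, fO]
          linear_combination ((51 : F) + (39 : F) * ζ + (29 : F) * ζ ^ 2 + (21 : F) * ζ ^ 3 + (15 : F) * ζ ^ 4 + (8 : F) * ζ ^ 5 + (3 : F) * ζ ^ 6 + (2 : F) * ζ ^ 7 + (1 : F) * ζ ^ 8 + (1 : F) * ζ ^ 9 + (1 : F) * ζ ^ 10) * hζ + ((25 : F) + (45 : F) * ζ + (34 : F) * ζ ^ 2) * two)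
      (by simp only [enc_1, enc_3, enc_6]
          linear_combination ((1 : F)) * hζ + ((1 : F) * ζ + (1 : F) * ζ ^ 2) * two)
      (by simp only [enc_3, enc_4, enc_7]
          linear_combination ((1 : F)) * hζ + (0 : F) * two)
  · exact wcase hF ζ 4 7 6 4 5
      (by simp only [enc_4, enc_6, enc_7, fO]
          linear_combination ((171 : F) + (128 : F) * ζ + (93 : F) * ζ ^ 2 + (63 : F) * ζ ^ 3 + (37 : F) * ζ ^ 4 + (19 : F) * ζ ^ 5 + (8 : F) * ζ ^ 6 + (3 : F) * ζ ^ 7 + (2 : F) * ζ ^ 8 + (1 : F) * ζ ^ 9 + (1 : F) * ζ ^ 10 + (1 : F) * ζ ^ 11) * hζ + ((85 : F) + (150 : F) * ζ + (113 : F) * ζ ^ 2) * two)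
      (by simp only [enc_4, enc_6, enc_7]
          linear_combination ((2 : F) + (1 : F) * ζ) * hζ + ((1 : F) + (2 : F) * ζ + (1 : F) * ζ ^ 2) * two)
      (by simp only [enc_4, enc_5, enc_6]
          linear_combination ((1 : F) + (1 : F) * ζ) * hζ + ((1 : F) * ζ) * two)
  · exact wcase hF ζ 5 0 5 0 7
      (by simp only [enc_0, enc_5, fO]
          linear_combination ((212 : F) + (168 : F) * ζ + (103 : F) * ζ ^ 2 + (109 : F) * ζ ^ 3 + (38 : F) * ζ ^ 4 + (65 : F) * ζ ^ 5 + (9 : F) * ζ ^ 6 + (29 : F) * ζ ^ 7 + (1 : F) * ζ ^ 8 + (8 : F) * ζ ^ 9 + (1 : F) * ζ ^ 11) * hζ + ((106 : F) + (190 : F) * ζ + (139 : F) * ζ ^ 2) * two)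
      (by simp only [enc_0, enc_5]
          linear_combination (0 : F) * hζ + (0 : F) * two)
      (by simp only [enc_5, enc_7]
          linear_combination ((1 : F) * ζ) * hζ + ((1 : F) * ζ ^ 2) * two)
  · exact wcase hF ζ 5 1 3 3 4
      (by simp only [enc_1, enc_3, enc_5, fO]
          linear_combination ((176 : F) + (139 : F) * ζ + (96 : F) * ζ ^ 2 + (73 : F) * ζ ^ 3 + (51 : F) * ζ ^ 4 + (30 : F) * ζ ^ 5 + (23 : F) * ζ ^ 6 + (8 : F) * ζ ^ 7 + (7 : F) * ζ ^ 8 + (1 : F) * ζ ^ 9 + (1 : F) * ζ ^ 10) * hζ + ((89 : F) + (159 : F) * ζ + (121 : F) * ζ ^ 2) * two)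
      (by simp only [enc_1, enc_3]
          linear_combination (0 : F) * hζ + (0 : F) * two)
      (by simp only [enc_3, enc_4, enc_5]
          linear_combination ((1 : F)) * hζ + ((1 : F) + (1 : F) * ζ) * two)
  · exact wcase hF ζ 5 2 2 4 1
      (by simp only [enc_2, enc_5, fO]
          linear_combination ((103 : F) + (74 : F) * ζ + (67 : F) * ζ ^ 2 + (30 : F) * ζ ^ 3 + (43 : F) * ζ ^ 4 + (8 : F) * ζ ^ 5 + (22 : F) * ζ ^ 6 + (1 : F) * ζ ^ 7 + (7 : F) * ζ ^ 8 + (1 : F) * ζ ^ 10) * hζ + ((51 : F) + (89 : F) * ζ + (71 : F) * ζ ^ 2) * two)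
      (by simp only [enc_2, enc_4]
          linear_combination (0 : F) * hζ + (0 : F) * two)
      (by simp only [enc_1, enc_2, enc_5]
          linear_combination ((1 : F)) * hζ + ((1 : F) * ζ) * two)
  · exact wcase hF ζ 5 3 1 3 5
      (by simp only [enc_1, enc_3, enc_5, fO]
          linear_combination ((78 : F) + (67 : F) * ζ + (30 : F) * ζ ^ 2 + (43 : F) * ζ ^ 3 + (8 : F) * ζ ^ 4 + (22 : F) * ζ ^ 5 + (1 : F) * ζ ^ 6 + (7 : F) * ζ ^ 7 + (1 : F) * ζ ^ 9) * hζ + ((40 : F) + (75 : F) * ζ + (55 : F) * ζ ^ 2) * two)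
      (by simp only [enc_1, enc_3]
          linear_combination (0 : F) * hζ + (0 : F) * two)
      (by simp only [enc_1, enc_5]
          linear_combination (0 : F) * hζ + (0 : F) * two)
  · exact wcase hF ζ 5 4 5 2 7
      (by simp only [enc_4, enc_5, fO]
          linear_combination ((218 : F) + (174 : F) * ζ + (106 : F) * ζ ^ 2 + (112 : F) * ζ ^ 3 + (39 : F) * ζ ^ 4 + (67 : F) * ζ ^ 5 + (9 : F) * ζ ^ 6 + (30 : F) * ζ ^ 7 + (1 : F) * ζ ^ 8 + (8 : F) * ζ ^ 9 + (1 : F) * ζ ^ 11) * hζ + ((109 : F) + (196 : F) * ζ + (144 : F) * ζ ^ 2) * two)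
      (by simp only [enc_2, enc_4, enc_5]
          linear_combination ((1 : F) * ζ) * hζ + ((1 : F) * ζ ^ 2) * two)
      (by simp only [enc_5, enc_7]
          linear_combination ((1 : F) * ζ) * hζ + ((1 : F) * ζ ^ 2) * two)
  · exact wcase hF ζ 5 5 3 4 4
      (by simp only [enc_3, enc_5, fO]
          linear_combination ((200 : F) + (157 : F) * ζ + (109 : F) * ζ ^ 2 + (79 : F) * ζ ^ 3 + (56 : F) * ζ ^ 4 + (31 : F) * ζ ^ 5 + (24 : F) * ζ ^ 6 + (8 : F) * ζ ^ 7 + (7 : F) * ζ ^ 8 + (1 : F) * ζ ^ 9 + (1 : F) * ζ ^ 10) * hζ + ((101 : F) + (180 : F) * ζ + (139 : F) * ζ ^ 2) * two)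
      (by simp only [enc_3, enc_4, enc_5]
          linear_combination ((1 : F)) * hζ + ((1 : F) + (1 : F) * ζ) * two)
      (by simp only [enc_3, enc_4, enc_5]
          linear_combination ((1 : F)) * hζ + ((1 : F) + (1 : F) * ζ) * two)
  · exact wcase hF ζ 5 6 2 7 1
      (by simp only [enc_2, enc_5, enc_6, fO]
          linear_combination ((125 : F) + (90 : F) * ζ + (79 : F) * ζ ^ 2 + (39 : F) * ζ ^ 3 + (50 : F) * ζ ^ 4 + (12 : F) * ζ ^ 5 + (23 : F) * ζ ^ 6 + (1 : F) * ζ ^ 7 + (7 : F) * ζ ^ 8 + (1 : F) * ζ ^ 10) * hζ + ((62 : F) + (108 : F) * ζ + (85 : F) * ζ ^ 2) * two)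
      (by simp only [enc_2, enc_6, enc_7]
          linear_combination ((1 : F)) * hζ + (0 : F) * two)
      (by simp only [enc_1, enc_2, enc_5]
          linear_combination ((1 : F)) * hζ + ((1 : F) * ζ) * two)
  · exact wcase hF ζ 5 7 1 7 5
      (by simp only [enc_1, enc_5, enc_7, fO]
          linear_combination ((122 : F) + (101 : F) * ζ + (51 : F) * ζ ^ 2 + (54 : F) * ζ ^ 3 + (12 : F) * ζ ^ 4 + (23 : F) * ζ ^ 5 + (1 : F) * ζ ^ 6 + (7 : F) * ζ ^ 7 + (1 : F) * ζ ^ 9) * hζ + ((62 : F) + (114 : F) * ζ + (85 : F) * ζ ^ 2) * two)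
      (by simp only [enc_1, enc_7]
          linear_combination (0 : F) * hζ + (0 : F) * two)
      (by simp only [enc_1, enc_5]
          linear_combination (0 : F) * hζ + (0 : F) * two)
  · exact wcase hF ζ 6 0 6 0 2
      (by simp only [enc_0, enc_6, fO]
          linear_combination ((465 : F) + (351 : F) * ζ + (265 : F) * ζ ^ 2 + (200 : F) * ζ ^ 3 + (151 : F) * ζ ^ 4 + (114 : F) * ζ ^ 5 + (86 : F) * ζ ^ 6 + (64 : F) * ζ ^ 7 + (43 : F) * ζ ^ 8 + (22 : F) * ζ ^ 9 + (7 : F) * ζ ^ 10 + (1 : F) * ζ ^ 11) * hζ + ((232 : F) + (408 : F) * ζ + (308 : F) * ζ ^ 2) * two)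
      (by simp only [enc_0, enc_6]
          linear_combination (0 : F) * hζ + (0 : F) * two)
      (by simp only [enc_2, enc_6]
          linear_combination ((2 : F) + (1 : F) * ζ) * hζ + ((1 : F) + (1 : F) * ζ + (1 : F) * ζ ^ 2) * two)
  · exact wcase hF ζ 6 1 7 7 4
      (by simp only [enc_1, enc_6, enc_7, fO]
          linear_combination ((618 : F) + (466 : F) * ζ + (351 : F) * ζ ^ 2 + (265 : F) * ζ ^ 3 + (200 : F) * ζ ^ 4 + (151 : F) * ζ ^ 5 + (113 : F) * ζ ^ 6 + (80 : F) * ζ ^ 7 + (49 : F) * ζ ^ 8 + (23 : F) * ζ ^ 9 + (7 : F) * ζ ^ 10 + (1 : F) * ζ ^ 11) * hζ + ((309 : F) + (543 : F) * ζ + (410 : F) * ζ ^ 2) * two)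
      (by simp only [enc_1, enc_7]
          linear_combination (0 : F) * hζ + (0 : F) * two)
      (by simp only [enc_4, enc_6, enc_7]
          linear_combination ((2 : F) + (1 : F) * ζ) * hζ + ((1 : F) + (2 : F) * ζ + (1 : F) * ζ ^ 2) * two)
  · exact wcase hF ζ 6 2 5 1 3
      (by simp only [enc_2, enc_5, enc_6, fO]
          linear_combination ((419 : F) + (317 : F) * ζ + (238 : F) * ζ ^ 2 + (180 : F) * ζ ^ 3 + (135 : F) * ζ ^ 4 + (102 : F) * ζ ^ 5 + (76 : F) * ζ ^ 6 + (53 : F) * ζ ^ 7 + (33 : F) * ζ ^ 8 + (17 : F) * ζ ^ 9 + (6 : F) * ζ ^ 10 + (1 : F) * ζ ^ 11) * hζ + ((209 : F) + (368 : F) * ζ + (278 : F) * ζ ^ 2) * two)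
      (by simp only [enc_1, enc_2, enc_5]
          linear_combination ((1 : F)) * hζ + ((1 : F) * ζ) * two)
      (by simp only [enc_3, enc_5, enc_6]
          linear_combination ((1 : F) + (1 : F) * ζ) * hζ + ((1 : F) * ζ + (1 : F) * ζ ^ 2) * two)
  · exact wcase hF ζ 6 3 2 6 7
      (by simp only [enc_2, enc_3, enc_6, fO]
          linear_combination ((209 : F) + (156 : F) * ζ + (115 : F) * ζ ^ 2 + (86 : F) * ζ ^ 3 + (65 : F) * ζ ^ 4 + (49 : F) * ζ ^ 5 + (37 : F) * ζ ^ 6 + (27 : F) * ζ ^ 7 + (16 : F) * ζ ^ 8 + (6 : F) * ζ ^ 9 + (1 : F) * ζ ^ 10) * hζ + ((104 : F) + (183 : F) * ζ + (138 : F) * ζ ^ 2) * two)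
      (by simp only [enc_2, enc_3, enc_6]
          linear_combination (0 : F) * hζ + (0 : F) * two)
      (by simp only [enc_2, enc_6, enc_7]
          linear_combination ((1 : F)) * hζ + (0 : F) * two)
  · exact wcase hF ζ 6 4 7 1 4
      (by simp only [enc_4, enc_6, enc_7, fO]
          linear_combination ((627 : F) + (473 : F) * ζ + (357 : F) * ζ ^ 2 + (269 : F) * ζ ^ 3 + (202 : F) * ζ ^ 4 + (153 : F) * ζ ^ 5 + (114 : F) * ζ ^ 6 + (81 : F) * ζ ^ 7 + (49 : F) * ζ ^ 8 + (23 : F) * ζ ^ 9 + (7 : F) * ζ ^ 10 + (1 : F) * ζ ^ 11) * hζ + ((313 : F) + (550 : F) * ζ + (415 : F) * ζ ^ 2) * two)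
      (by simp only [enc_1, enc_4, enc_7]
          linear_combination ((1 : F) + (1 : F) * ζ) * hζ + ((1 : F) * ζ + (1 : F) * ζ ^ 2) * two)
      (by simp only [enc_4, enc_6, enc_7]
          linear_combination ((2 : F) + (1 : F) * ζ) * hζ + ((1 : F) + (2 : F) * ζ + (1 : F) * ζ ^ 2) * two)
  · exact wcase hF ζ 6 5 6 3 2
      (by simp only [enc_5, enc_6, fO]
          linear_combination ((503 : F) + (376 : F) * ζ + (284 : F) * ζ ^ 2 + (213 : F) * ζ ^ 3 + (157 : F) * ζ ^ 4 + (119 : F) * ζ ^ 5 + (87 : F) * ζ ^ 6 + (65 : F) * ζ ^ 7 + (43 : F) * ζ ^ 8 + (22 : F) * ζ ^ 9 + (7 : F) * ζ ^ 10 + (1 : F) * ζ ^ 11) * hζ + ((251 : F) + (440 : F) * ζ + (331 : F) * ζ ^ 2) * two)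
      (by simp only [enc_3, enc_5, enc_6]
          linear_combination ((1 : F) + (1 : F) * ζ) * hζ + ((1 : F) * ζ + (1 : F) * ζ ^ 2) * two)
      (by simp only [enc_2, enc_6]
          linear_combination ((2 : F) + (1 : F) * ζ) * hζ + ((1 : F) + (1 : F) * ζ + (1 : F) * ζ ^ 2) * two)
  · exact wcase hF ζ 6 6 2 7 7
      (by simp only [enc_2, enc_6, fO]
          linear_combination ((223 : F) + (169 : F) * ζ + (127 : F) * ζ ^ 2 + (95 : F) * ζ ^ 3 + (72 : F) * ζ ^ 4 + (53 : F) * ζ ^ 5 + (38 : F) * ζ ^ 6 + (27 : F) * ζ ^ 7 + (16 : F) * ζ ^ 8 + (6 : F) * ζ ^ 9 + (1 : F) * ζ ^ 10) * hζ + ((111 : F) + (196 : F) * ζ + (148 : F) * ζ ^ 2) * two)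
      (by simp only [enc_2, enc_6, enc_7]
          linear_combination ((1 : F)) * hζ + (0 : F) * two)
      (by simp only [enc_2, enc_6, enc_7]
          linear_combination ((1 : F)) * hζ + (0 : F) * two)
  · exact wcase hF ζ 6 7 5 6 3
      (by simp only [enc_5, enc_6, enc_7, fO]
          linear_combination ((556 : F) + (417 : F) * ζ + (308 : F) * ζ ^ 2 + (225 : F) * ζ ^ 3 + (160 : F) * ζ ^ 4 + (114 : F) * ζ ^ 5 + (80 : F) * ζ ^ 6 + (54 : F) * ζ ^ 7 + (33 : F) * ζ ^ 8 + (17 : F) * ζ ^ 9 + (6 : F) * ζ ^ 10 + (1 : F) * ζ ^ 11) * hζ + ((278 : F) + (489 : F) * ζ + (369 : F) * ζ ^ 2) * two)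
      (by simp only [enc_5, enc_6, enc_7]
          linear_combination ((1 : F) + (1 : F) * ζ) * hζ + ((1 : F) + (1 : F) * ζ + (1 : F) * ζ ^ 2) * two)
      (by simp only [enc_3, enc_5, enc_6]
          linear_combination ((1 : F) + (1 : F) * ζ) * hζ + ((1 : F) * ζ + (1 : F) * ζ ^ 2) * two)
  · exact wcase hF ζ 7 0 7 0 3
      (by simp only [enc_0, enc_7, fO]
          linear_combination ((3328 : F) + (2507 : F) * ζ + (1875 : F) * ζ ^ 2 + (1376 : F) * ζ ^ 3 + (970 : F) * ζ ^ 4 + (639 : F) * ζ ^ 5 + (380 : F) * ζ ^ 6 + (197 : F) * ζ ^ 7 + (85 : F) * ζ ^ 8 + (29 : F) * ζ ^ 9 + (7 : F) * ζ ^ 10 + (1 : F) * ζ ^ 11) * hζ + ((1664 : F) + (2921 : F) * ζ + (2205 : F) * ζ ^ 2) * two)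
      (by simp only [enc_0, enc_7]
          linear_combination (0 : F) * hζ + (0 : F) * two)
      (by simp only [enc_3, enc_7]
          linear_combination ((2 : F) + (1 : F) * ζ) * hζ + ((1 : F) + (2 : F) * ζ + (2 : F) * ζ ^ 2) * two)
  · exact wcase hF ζ 7 1 5 5 6
      (by simp only [enc_1, enc_5, enc_7, fO]
          linear_combination ((2248 : F) + (1693 : F) * ζ + (1264 : F) * ζ ^ 2 + (927 : F) * ζ ^ 3 + (654 : F) * ζ ^ 4 + (434 : F) * ζ ^ 5 + (262 : F) * ζ ^ 6 + (140 : F) * ζ ^ 7 + (63 : F) * ζ ^ 8 + (23 : F) * ζ ^ 9 + (6 : F) * ζ ^ 10 + (1 : F) * ζ ^ 11) * hζ + ((1125 : F) + (1974 : F) * ζ + (1491 : F) * ζ ^ 2) * two)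
      (by simp only [enc_1, enc_5]
          linear_combination (0 : F) * hζ + (0 : F) * two)
      (by simp only [enc_5, enc_6, enc_7]
          linear_combination ((1 : F) + (1 : F) * ζ) * hζ + ((1 : F) + (1 : F) * ζ + (1 : F) * ζ ^ 2) * two)
  · exact wcase hF ζ 7 2 4 3 1
      (by simp only [enc_2, enc_4, enc_7, fO]
          linear_combination ((1435 : F) + (1083 : F) * ζ + (816 : F) * ζ ^ 2 + (612 : F) * ζ ^ 3 + (449 : F) * ζ ^ 4 + (316 : F) * ζ ^ 5 + (205 : F) * ζ ^ 6 + (118 : F) * ζ ^ 7 + (57 : F) * ζ ^ 8 + (22 : F) * ζ ^ 9 + (6 : F) * ζ ^ 10 + (1 : F) * ζ ^ 11) * hζ + ((717 : F) + (1259 : F) * ζ + (950 : F) * ζ ^ 2) * two)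
      (by simp only [enc_2, enc_3, enc_4]
          linear_combination ((1 : F)) * hζ + (0 : F) * two)
      (by simp only [enc_1, enc_4, enc_7]
          linear_combination ((1 : F) + (1 : F) * ζ) * hζ + ((1 : F) * ζ + (1 : F) * ζ ^ 2) * two)
  · exact wcase hF ζ 7 3 1 3 7
      (by simp only [enc_1, enc_3, enc_7, fO]
          linear_combination ((820 : F) + (612 : F) * ζ + (449 : F) * ζ ^ 2 + (316 : F) * ζ ^ 3 + (205 : F) * ζ ^ 4 + (118 : F) * ζ ^ 5 + (57 : F) * ζ ^ 6 + (22 : F) * ζ ^ 7 + (6 : F) * ζ ^ 8 + (1 : F) * ζ ^ 9) * hζ + ((411 : F) + (722 : F) * ζ + (545 : F) * ζ ^ 2) * two)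
      (by simp only [enc_1, enc_3]
          linear_combination (0 : F) * hζ + (0 : F) * two)
      (by simp only [enc_1, enc_7]
          linear_combination (0 : F) * hζ + (0 : F) * two)
  · exact wcase hF ζ 7 4 4 6 1
      (by simp only [enc_4, enc_7, fO]
          linear_combination ((1437 : F) + (1085 : F) * ζ + (818 : F) * ζ ^ 2 + (613 : F) * ζ ^ 3 + (450 : F) * ζ ^ 4 + (317 : F) * ζ ^ 5 + (205 : F) * ζ ^ 6 + (119 : F) * ζ ^ 7 + (57 : F) * ζ ^ 8 + (22 : F) * ζ ^ 9 + (6 : F) * ζ ^ 10 + (1 : F) * ζ ^ 11) * hζ + ((718 : F) + (1261 : F) * ζ + (952 : F) * ζ ^ 2) * two)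
      (by simp only [enc_4, enc_6]
          linear_combination ((1 : F) * ζ) * hζ + (0 : F) * two)
      (by simp only [enc_1, enc_4, enc_7]
          linear_combination ((1 : F) + (1 : F) * ζ) * hζ + ((1 : F) * ζ + (1 : F) * ζ ^ 2) * two)
  · exact wcase hF ζ 7 5 1 5 7
      (by simp only [enc_1, enc_5, enc_7, fO]
          linear_combination ((822 : F) + (623 : F) * ζ + (450 : F) * ζ ^ 2 + (321 : F) * ζ ^ 3 + (205 : F) * ζ ^ 4 + (119 : F) * ζ ^ 5 + (57 : F) * ζ ^ 6 + (22 : F) * ζ ^ 7 + (6 : F) * ζ ^ 8 + (1 : F) * ζ ^ 9) * hζ + ((412 : F) + (726 : F) * ζ + (550 : F) * ζ ^ 2) * two)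
      (by simp only [enc_1, enc_5]
          linear_combination (0 : F) * hζ + (0 : F) * two)
      (by simp only [enc_1, enc_7]
          linear_combination (0 : F) * hζ + (0 : F) * two)
  · exact wcase hF ζ 7 6 7 4 3
      (by simp only [enc_6, enc_7, fO]
          linear_combination ((3402 : F) + (2562 : F) * ζ + (1915 : F) * ζ ^ 2 + (1405 : F) * ζ ^ 3 + (990 : F) * ζ ^ 4 + (651 : F) * ζ ^ 5 + (385 : F) * ζ ^ 6 + (198 : F) * ζ ^ 7 + (85 : F) * ζ ^ 8 + (29 : F) * ζ ^ 9 + (7 : F) * ζ ^ 10 + (1 : F) * ζ ^ 11) * hζ + ((1701 : F) + (2986 : F) * ζ + (2254 : F) * ζ ^ 2) * two)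
      (by simp only [enc_4, enc_6, enc_7]
          linear_combination ((2 : F) + (1 : F) * ζ) * hζ + ((1 : F) + (2 : F) * ζ + (1 : F) * ζ ^ 2) * two)
      (by simp only [enc_3, enc_7]
          linear_combination ((2 : F) + (1 : F) * ζ) * hζ + ((1 : F) + (2 : F) * ζ + (2 : F) * ζ ^ 2) * two)
  · exact wcase hF ζ 7 7 5 6 6
      (by simp only [enc_5, enc_7, fO]
          linear_combination ((2388 : F) + (1796 : F) * ζ + (1335 : F) * ζ ^ 2 + (973 : F) * ζ ^ 3 + (679 : F) * ζ ^ 4 + (446 : F) * ζ ^ 5 + (266 : F) * ζ ^ 6 + (141 : F) * ζ ^ 7 + (63 : F) * ζ ^ 8 + (23 : F) * ζ ^ 9 + (6 : F) * ζ ^ 10 + (1 : F) * ζ ^ 11) * hζ + ((1195 : F) + (2098 : F) * ζ + (1584 : F) * ζ ^ 2) * two)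
      (by simp only [enc_5, enc_6, enc_7]
          linear_combination ((1 : F) + (1 : F) * ζ) * hζ + ((1 : F) + (1 : F) * ζ + (1 : F) * ζ ^ 2) * two)
      (by simp only [enc_5, enc_6, enc_7]
          linear_combination ((1 : F) + (1 : F) * ζ) * hζ + ((1 : F) + (1 : F) * ζ + (1 : F) * ζ ^ 2) * two)

include two hζ in
theorem act_W (i : ℕ) (hi : i < 65) : wS hF • lbl ζ i = lbl ζ (tW i) := by
  by_cases hi' : i < 64
  · by_cases h0 : i = 0
    · subst h0
      rw [lbl_zero, wS_apt_zero]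
      exact (lbl_top ζ).symm
    · have e : tW i = wL.getD i 0 := by
        unfold tW
        rw [blt_true hi']
        rfl
      rw [e, lbl_lt ζ i hi', lbl_lt ζ _ (wL_lt i hi' h0)]
      exact w_spec hF two ζ hζ i hi' h0
  · have : i = 64 := by omega
    subst this
    rw [lbl_top, wS_ainf]
    exact (lbl_zero ζ).symm

/-! ### The frame -/

/-- The three generators. -/
def gen (ζ : F) (hζ0 : ζ ≠ 0) (c : ℕ) : Cfsg.Sz F 1 :=
  if c = 0 then hS hF (Units.mk0 ζ hζ0) else if c = 1 then uS hF 1 0 else wS hF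

omit [Fintype F] in
theorem szT_lt : allLt 3 (fun c => allLt 65 (fun i => Nat.blt (szT c i) 65)) = true := by
  decide +kernel

/-- The labelled action of the Suzuki group on the ovoid. -/
def frame (hζ0 : ζ ≠ 0) : Frame (Cfsg.Sz F 1) (suzukiOvoid F 1) where
  n0 := 65
  ng := 3
  lbl := lbl ζ
  gen := gen hF ζ hζ0
  t := szT
  surj := lbl_surj hF two ζ hζ
  inj := fun i j hi hj h => lbl_inj two ζ hζ i j hi hj h
  tlt := fun c i hc hi => Nat.le_of_ble_eq_true (allLt_spec (allLt_spec szT_lt hc) hi)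
  act := by
    intro c i hc hi
    interval_cases c
    · exact act_H hF two ζ hζ hζ0 i hi
    · exact act_U hF two ζ i hi
    · exact act_W hF two ζ hζ i hi

include hζ in
theorem gen_top (hζ0 : ζ ≠ 0) :
    Subgroup.closure {g : Cfsg.Sz F 1 | ∃ c, c < 3 ∧ g = gen hF ζ hζ0 c} = ⊤ := by
  set M := Subgroup.closure {g : Cfsg.Sz F 1 | ∃ c, c < 3 ∧ g = gen hF ζ hζ0 c} with hM
  have hH0 : hS hF (Units.mk0 ζ hζ0) ∈ M := Subgroup.subset_closure ⟨0, by norm_num, rfl⟩
  have hU0 : uS hF (1 : F) 0 ∈ M := Subgroup.subset_closure ⟨1, by norm_num, rfl⟩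
  have hW : wS hF ∈ M := Subgroup.subset_closure ⟨2, by norm_num, rfl⟩
  have hcardU : Nat.card Fˣ = 7 := by
    rw [Nat.card_units, Nat.card_eq_fintype_card, hF]
    norm_num
  have hne1 : Units.mk0 ζ hζ0 ≠ 1 := by
    intro h
    have h1 : ζ = 1 := by simpa using congrArg Units.val h
    rw [h1] at hζ
    have h2 : (1 : F) = 0 := by linear_combination (-1 : F) * hζ
    exact one_ne_zero h2
  have hz : Subgroup.zpowers (Units.mk0 ζ hζ0) = ⊤ := by
    have : Fact (Nat.Prime 7) := ⟨by norm_num⟩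
    exact zpowers_eq_top_of_prime_card hcardU hne1
  have hH : ∀ k : Fˣ, hS hF k ∈ M := by
    intro k
    have hk : k ∈ Subgroup.zpowers (Units.mk0 ζ hζ0) := by
      rw [hz]
      exact Subgroup.mem_top k
    obtain ⟨n, hn⟩ := Subgroup.mem_zpowers_iff.mp hk
    have e : hS hF k = (hS hF (Units.mk0 ζ hζ0)) ^ n := by
      rw [← hn]
      exact map_zpow (torusHom (m := 1) hF) _ n
    rw [e]
    exact zpow_mem hH0 n
  have hU : ∀ a b, uS hF a b ∈ M :=
    uS_mem_of_invariant (le_refl 1) hF M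
      (fun k g hg => mul_mem (mul_mem (hH k) hg) (inv_mem (hH k))) (c := 1) (d := 0)
      one_ne_zero hU0
  exact eq_top_of_gens (le_refl 1) hF M hU hH hW

end Sz

end Cfsg.Agent.Lib.Helper35.Sz8Frame
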