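-- The action of three generators of the Suzuki group `Sz(8)` on the 65 labelled points of the
-- ovoid: the label `8 * a + b` stands for the affine point with coordinates coded by `a` and
-- `b` (bits of the coefficients of `1, ζ, ζ²`, where `ζ³ = ζ + 1`), and `64` for the point at
-- infinity.
import Mathlib

set_option autoImplicit false

namespace Cfsg.Agent.Lib.Helper35.Sz8Tab

/-- Multiplication by `ζ` on codes. -/
def mz (a : ℕ) : ℕ := [0, 2, 4, 6, 3, 1, 7, 5].getD a 0

/-- Multiplication by `ζ ^ 5` on codes. -/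
def mz5 (a : ℕ) : ℕ := [0, 7, 5, 2, 1, 6, 4, 3].getD a 0

/-- The action of the torus element on the labels. -/
def tH (i : ℕ) : ℕ := cond (Nat.blt i 64) (8 * mz (i / 8) + mz5 (i % 8)) 64

/-- The action of the unipotent element on the labels. -/
def tU (i : ℕ) : ℕ := cond (Nat.blt i 64) (8 * Nat.xor (i / 8) 1 + Nat.xor (i % 8) (i / 8)) 64

/-- The images of the affine points under the Weyl element. -/
def wL : List ℕ :=
  [64, 8, 48, 56, 16, 24, 32, 40, 1, 9, 34, 50, 52, 20, 22, 38, 4, 30, 27, 21, 13, 19, 14, 44, 5, 58, 53, 18, 41, 43, 17, 59, 6, 42, 10, 62, 45, 39, 15, 37, 7, 28, 33, 29, 23, 36, 57, 61, 2, 60, 11, 55, 12, 26, 63, 51, 3, 46, 25, 31, 49, 47, 35, 54]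

/-- The action of the Weyl element on the labels. -/
def tW (i : ℕ) : ℕ := cond (Nat.blt i 64) (wL.getD i 0) 0

/-- The action of the three generators on the labels. -/
def szT (c i : ℕ) : ℕ := cond (Nat.beq c 0) (tH i) (cond (Nat.beq c 1) (tU i) (tW i))

end Cfsg.Agent.Lib.Helper35.Sz8Tab
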