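import Mathlib
import Cfsg.Agent.Lib.Helper41.TMStmt
import Cfsg.Agent.Lib.Helper12.MinusCnt

/-!
# S5987 piece SINGCNT (call by helper41)

The singular vectors orthogonal to a totally singular frame of length `j ≤ d - 1` of the standard
minus-type form of dimension `2 d` number `q^(d-1) (q^(d-j) - q + 1)` (all `q`).  This is
`Helper12.MinusCnt.card_perp_sing_minusQ` (on main; valid in every characteristic) plus
arithmetic in `ℕ`.
-/

set_option autoImplicit false

universe u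

namespace Cfsg.Agent.Lib.Helper35.TMSINGCNT

open Cfsg.Agent.Lib.Helper41.TMStmt
open Cfsg.Agent.Lib.Helper45.OMiStmt (M Aniso FxM NDegM StabM)

/-- the arithmetic: from the `MinusCnt` normal form to the closed form of the call -/
theorem arith (q N j d' : ℕ) (hq : 0 < q) (hj : j ≤ d')
    (h : q * N + q ^ j * q ^ (d' + 1 - j + 1)
      = q ^ j * (q ^ (2 * (d' + 1 - j)) + q ^ (d' + 1 - j))) :
    N = q ^ d' * (q ^ (d' + 1 - j) - q + 1) := by
  obtain ⟨e', rfl⟩ : ∃ e', d' = j + e' := ⟨d' - j, by omega⟩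
  have e1 : j + e' + 1 - j = e' + 1 := by omega
  rw [e1] at h ⊢
  obtain ⟨B, hB⟩ : ∃ B, q ^ e' = B + 1 :=
    ⟨q ^ e' - 1, by have := Nat.one_le_pow e' q hq; omega⟩
  have e2 : q ^ (e' + 1) - q + 1 = q * B + 1 := by
    have : q ^ (e' + 1) = q * B + q := by rw [pow_succ, hB]; ring
    rw [this, Nat.add_sub_cancel]
  rw [e2]
  apply Nat.eq_of_mul_eq_mul_left hq
  apply Nat.add_right_cancel (m := q ^ j * q ^ (e' + 1 + 1))
  rw [h]
  have e3 : q ^ (2 * (e' + 1)) = (B + 1) * (B + 1) * q ^ 2 := by rw [← hB]; ring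
  have e4 : q ^ (e' + 1) = (B + 1) * q := by rw [← hB]; ring
  have e5 : q ^ (e' + 1 + 1) = (B + 1) * q ^ 2 := by rw [← hB]; ring
  have e6 : q ^ (j + e') = q ^ j * (B + 1) := by rw [← hB]; ring
  rw [e3, e4, e5, e6]
  ring

theorem main : SingCnt.{u} := by
  intro F _ _ a₀ b₀ hab d j hj v
  obtain ⟨d', rfl⟩ : ∃ d', d = d' + 1 := ⟨d - 1, by omega⟩
  have h := Cfsg.Agent.Lib.Helper12.MinusCnt.card_perp_sing_minusQ (F := F) d' j (by omega)
    a₀ b₀ hab v.1 v.2.1 v.2.2.1 v.2.2.2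
  exact arith (Fintype.card F) _ j d' Fintype.card_pos (by omega) h

end Cfsg.Agent.Lib.Helper35.TMSINGCNT
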