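import Mathlib
import Cfsg.Agent.Lib.Helper44.TSStmt

/-!
# S5972 piece NUMTYPES (call by helper44)

The `r`-th cyclotomic polynomial over a finite field `F` of characteristic `p ≠ r` is squarefree
of degree `r - 1`, and each of its monic irreducible factors has degree the order of `card F`
modulo `r`; hence the number of these factors times that order is `r - 1`.
-/

set_option autoImplicit false

universe u

namespace Cfsg.Agent.Lib.Helper35.TSNUMTYPES

open Polynomial
open Cfsg.Agent.Lib.Helper37.HypStmt Cfsg.Agent.Lib.Helper37.HypStmt2 Cfsg.Agent.Lib.Helper44.TSStmt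

theorem main : NumTypes.{u} := by
  intro F _ _ p _ _ r hr hrp
  classical
  obtain ⟨n, hp, hcard⟩ := FiniteField.card F p
  have hcop : p.Coprime r := (Nat.coprime_primes (Fact.out : p.Prime) hr.out).2 (Ne.symm hrp)
  have hΦ0 : cyclotomic r F ≠ 0 := (cyclotomic.monic r F).ne_zero
  have hrF : NeZero ((r : ℕ) : F) := by
    refine ⟨fun h => ?_⟩
    have := (CharP.cast_eq_zero_iff F p r).1 h
    exact hrp ((Nat.prime_dvd_prime_iff_eq (Fact.out : p.Prime) hr.out).1 this).symm
  have hsep : (cyclotomic r F).Separable := separable_cyclotomic r F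
  have hsq : Squarefree (cyclotomic r F) := hsep.squarefree
  set s := UniqueFactorizationMonoid.normalizedFactors (cyclotomic r F) with hs
  have hnodup : s.Nodup :=
    (UniqueFactorizationMonoid.squarefree_iff_nodup_normalizedFactors hΦ0).1 hsq
  have hmem : ∀ P : F[X], P ∈ s ↔ P ∈ Fac r F := by
    intro P
    rw [hs, UniqueFactorizationMonoid.mem_normalizedFactors_iff' hΦ0]
    constructor
    · rintro ⟨hirr, hnorm, hdvd⟩
      refine ⟨?_, hirr, hdvd⟩
      rw [← hnorm]
      exact Polynomial.monic_normalize hirr.ne_zero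
    · rintro ⟨hmon, hirr, hdvd⟩
      exact ⟨hirr, hmon.normalize_eq_self, hdvd⟩
  have hset : Fac r F = ↑s.toFinset := by
    ext P
    simp [hmem]
  have hfin : (Fac r F).Finite := by
    rw [hset]; exact Finset.finite_toSet _
  refine ⟨hfin, ?_⟩
  have hncard : (Fac r F).ncard = Multiset.card s := by
    rw [hset, Set.ncard_coe_finset, Multiset.toFinset_card_of_nodup hnodup]
  have hdeg : ∀ P ∈ s, P.natDegree = orderOf ((Fintype.card F : ℕ) : ZMod r) := by
    intro P hP
    have hP' := (hmem P).1 hP
    have h1 := Polynomial.natDegree_of_dvd_cyclotomic_of_irreducible (K := F) (p := p)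
      (f := (n : ℕ)) (n := r) hcard hcop hP'.2.2 hP'.2.1
    rw [h1, ← orderOf_units, ZMod.coe_unitOfCoprime, hcard]
  have hprod : s.prod = cyclotomic r F := by
    have hass := UniqueFactorizationMonoid.prod_normalizedFactors hΦ0
    have hmonic : s.prod.Monic := by
      have h := Polynomial.monic_multiset_prod_of_monic s id (fun P hP => ((hmem P).1 hP).1)
      simpa using h
    exact Polynomial.eq_of_monic_of_associated hmonic (cyclotomic.monic r F) hass
  have h0 : (0 : F[X]) ∉ s := by
    intro h
    exact ((hmem 0).1 h).1.ne_zero rfl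
  have hsum : (s.map natDegree).sum = r - 1 := by
    rw [← Polynomial.natDegree_multiset_prod s h0, hprod, natDegree_cyclotomic,
      Nat.totient_prime hr.out]
  rw [hncard, ← hsum, Multiset.map_congr rfl hdeg, Multiset.map_const', Multiset.sum_replicate,
    smul_eq_mul]

end Cfsg.Agent.Lib.Helper35.TSNUMTYPES
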