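-- The twisted fibre product of a central extension of a subgroup `M` with itself over a
-- subgroup `L` of `M` normalised by an element `n`: the pairs `(x, y)` with `ξ x ∈ L` and
-- `ξ y = n (ξ x) n⁻¹`. It is a central extension of `L` whose kernel is the product of two
-- copies of the kernel of `ξ`.
import Mathlib

set_option autoImplicit false

namespace Cfsg.Agent.Lib.Helper35.TwistProd

open Subgroup
open scoped commutatorElement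

variable {Q X : Type*} [Group Q] [Group X] {M : Subgroup Q} (ξ : X →* ↥M) (L : Subgroup Q)
  (n : Q)

/-- The pairs `(x, y)` with `ξ x ∈ L` and `ξ y = n (ξ x) n⁻¹`. -/
def Y : Subgroup (X × X) where
  carrier := {p | ((ξ p.1 : ↥M) : Q) ∈ L ∧ ((ξ p.2 : ↥M) : Q) = n * ((ξ p.1 : ↥M) : Q) * n⁻¹}
  one_mem' := by
    refine ⟨?_, ?_⟩
    · show ((ξ 1 : ↥M) : Q) ∈ L
      rw [map_one]; exact L.one_mem
    · show ((ξ 1 : ↥M) : Q) = n * ((ξ 1 : ↥M) : Q) * n⁻¹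
      rw [map_one, Subgroup.coe_one, mul_one, mul_inv_cancel]
  mul_mem' := by
    rintro a b ⟨ha, ha'⟩ ⟨hb, hb'⟩
    refine ⟨?_, ?_⟩
    · show ((ξ (a.1 * b.1) : ↥M) : Q) ∈ L
      rw [map_mul, Subgroup.coe_mul]; exact L.mul_mem ha hb
    · show ((ξ (a.2 * b.2) : ↥M) : Q) = n * ((ξ (a.1 * b.1) : ↥M) : Q) * n⁻¹
      rw [map_mul, map_mul, Subgroup.coe_mul, Subgroup.coe_mul, ha', hb']; group
  inv_mem' := by
    rintro a ⟨ha, ha'⟩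
    refine ⟨?_, ?_⟩
    · show ((ξ a.1⁻¹ : ↥M) : Q) ∈ L
      rw [map_inv, Subgroup.coe_inv]; exact L.inv_mem ha
    · show ((ξ a.2⁻¹ : ↥M) : Q) = n * ((ξ a.1⁻¹ : ↥M) : Q) * n⁻¹
      rw [map_inv, map_inv, Subgroup.coe_inv, Subgroup.coe_inv, ha']; group

theorem mem_Y {p : X × X} : p ∈ Y ξ L n ↔
    ((ξ p.1 : ↥M) : Q) ∈ L ∧ ((ξ p.2 : ↥M) : Q) = n * ((ξ p.1 : ↥M) : Q) * n⁻¹ := Iff.rfl

/-- The projection onto `L`. -/
def η : ↥(Y ξ L n) →* ↥L where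
  toFun p := ⟨((ξ p.1.1 : ↥M) : Q), p.2.1⟩
  map_one' := by
    apply Subtype.ext
    show ((ξ 1 : ↥M) : Q) = 1
    rw [map_one]; rfl
  map_mul' := by
    intro a b
    apply Subtype.ext
    show ((ξ (a.1.1 * b.1.1) : ↥M) : Q) = ((ξ a.1.1 : ↥M) : Q) * ((ξ b.1.1 : ↥M) : Q)
    rw [map_mul]; rfl

theorem η_coe (p : ↥(Y ξ L n)) : ((η ξ L n p : ↥L) : Q) = ((ξ p.1.1 : ↥M) : Q) := rfl

theorem η_surjective (hξ : Function.Surjective ξ) (hL : L ≤ M)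
    (hn : ∀ g ∈ L, n * g * n⁻¹ ∈ L) : Function.Surjective (η ξ L n) := by
  intro g
  obtain ⟨x, hx⟩ := hξ ⟨g.1, hL g.2⟩
  obtain ⟨y, hy⟩ := hξ ⟨n * g.1 * n⁻¹, hL (hn g.1 g.2)⟩
  refine ⟨⟨(x, y), ?_, ?_⟩, ?_⟩
  · show ((ξ x : ↥M) : Q) ∈ L
    rw [hx]; exact g.2
  · show ((ξ y : ↥M) : Q) = n * ((ξ x : ↥M) : Q) * n⁻¹
    rw [hx, hy]
  · apply Subtype.ext
    show ((ξ x : ↥M) : Q) = g.1
    rw [hx]

theorem mem_ker_iff (p : ↥(Y ξ L n)) :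
    p ∈ (η ξ L n).ker ↔ p.1.1 ∈ ξ.ker ∧ p.1.2 ∈ ξ.ker := by
  rw [MonoidHom.mem_ker, MonoidHom.mem_ker, MonoidHom.mem_ker]
  constructor
  · intro h
    have h1 : ((ξ p.1.1 : ↥M) : Q) = 1 := congrArg Subtype.val h
    have h2 : ((ξ p.1.2 : ↥M) : Q) = 1 := by
      rw [p.2.2, h1, mul_one, mul_inv_cancel]
    exact ⟨Subtype.ext h1, Subtype.ext h2⟩
  · rintro ⟨h1, _⟩
    apply Subtype.ext
    show ((ξ p.1.1 : ↥M) : Q) = 1
    rw [h1]; rfl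

theorem ker_le_center (hc : ξ.ker ≤ center X) : (η ξ L n).ker ≤ center ↥(Y ξ L n) := by
  intro p hp
  obtain ⟨h1, h2⟩ := (mem_ker_iff ξ L n p).mp hp
  rw [Subgroup.mem_center_iff]
  intro q
  apply Subtype.ext
  apply Prod.ext
  · exact Subgroup.mem_center_iff.mp (hc h1) q.1.1
  · exact Subgroup.mem_center_iff.mp (hc h2) q.1.2

/-- A pair of lifts as an element of the fibre product. -/
def mk (x y : X) (h1 : ((ξ x : ↥M) : Q) ∈ L)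
    (h2 : ((ξ y : ↥M) : Q) = n * ((ξ x : ↥M) : Q) * n⁻¹) : ↥(Y ξ L n) := ⟨(x, y), h1, h2⟩

/-- The commutator of two pairs of lifts of commuting elements: it lies in the commutator
subgroup and in the kernel, and its components are the commutators of the lifts. -/
theorem comm_mk (x y x' y' : X) (h1 : ((ξ x : ↥M) : Q) ∈ L)
    (h2 : ((ξ y : ↥M) : Q) = n * ((ξ x : ↥M) : Q) * n⁻¹) (h1' : ((ξ x' : ↥M) : Q) ∈ L)
    (h2' : ((ξ y' : ↥M) : Q) = n * ((ξ x' : ↥M) : Q) * n⁻¹)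
    (hcomm : ξ x * ξ x' = ξ x' * ξ x) :
    ⁅mk ξ L n x y h1 h2, mk ξ L n x' y' h1' h2'⁆ ∈
      _root_.commutator ↥(Y ξ L n) ⊓ (η ξ L n).ker ∧
    ((⁅mk ξ L n x y h1 h2, mk ξ L n x' y' h1' h2'⁆ : ↥(Y ξ L n)) : X × X) =
      (⁅x, x'⁆, ⁅y, y'⁆) := by
  refine ⟨⟨?_, ?_⟩, rfl⟩
  · rw [commutator_def]
    exact Subgroup.commutator_mem_commutator (Subgroup.mem_top _) (Subgroup.mem_top _)
  · show ⁅mk ξ L n x y h1 h2, mk ξ L n x' y' h1' h2'⁆ ∈ (η ξ L n).ker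
    rw [MonoidHom.mem_ker, map_commutatorElement, commutatorElement_eq_one_iff_commute]
    apply Subtype.ext
    show ((ξ x : ↥M) : Q) * ((ξ x' : ↥M) : Q) = ((ξ x' : ↥M) : Q) * ((ξ x : ↥M) : Q)
    rw [← Subgroup.coe_mul, ← Subgroup.coe_mul, hcomm]

end Cfsg.Agent.Lib.Helper35.TwistProd
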